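import Cfsg.Agent.Lib.ChevAut.Count

/-!
# The cokernel of the Cartan map
-/

set_option autoImplicit false
set_option linter.unusedSectionVars false
set_option maxRecDepth 100000

namespace Cfsg.Agent.Lib.ChevAut.Count

open Cfsg.Lie

noncomputable section

/-- Smith form data for the Cartan matrix. -/
structure SmithData (D : ChevalleyDatum) (m : ℕ) (a u v w : Fin D.rank → ℤ) (B : Fin D.rank → Fin D.rank → ℤ)
    (k0 : Fin D.rank) : Prop where
  h1 : ∀ k j : Fin D.rank, ∑ i : Fin D.rank, B k i * D.cartan i (D.simple j) = (if k = j then 1 else 0) - a k * v j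
  h2 : ∀ j : Fin D.rank, ∑ i : Fin D.rank, u i * D.cartan i (D.simple j) = (m : ℤ) * v j
  h3 : ∀ i : Fin D.rank, ∑ j : Fin D.rank, D.cartan i (D.simple j) * a j = (m : ℤ) * w i
  h4 : a k0 = 1

variable {D : ChevalleyDatum} {F : Type*} [Field F] {m : ℕ} {a u v w : Fin D.rank → ℤ}
  {B : Fin D.rank → Fin D.rank → ℤ} {k0 : Fin D.rank}

/-- The "determinant" of the torus coordinates. -/
def deltaHom (a : Fin D.rank → ℤ) : (Fin D.rank → Fˣ) →* Fˣ where
  toFun c := ∏ k, c k ^ a k
  map_one' := by simp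
  map_mul' x y := by simp only [Pi.mul_apply, mul_zpow, Finset.prod_mul_distrib]

@[simp] theorem deltaHom_apply (c : Fin D.rank → Fˣ) : deltaHom a c = ∏ k, c k ^ a k := rfl

omit [Field F] in
theorem prod_zpow_const {G ι : Type*} [CommGroup G] [Fintype ι] (g : G) (f : ι → ℤ) :
    ∏ x, g ^ f x = g ^ ∑ x, f x := by
  classical
  induction (Finset.univ : Finset ι) using Finset.induction_on with
  | empty => simp
  | insert a s ha ih => rw [Finset.prod_insert ha, Finset.sum_insert ha, ih, zpow_add]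

theorem delta_cartan (hS : SmithData D m a u v w B k0) (e : Fin D.rank → Fˣ) :
    deltaHom a (cartanHom D F e) = (∏ i, e i ^ w i) ^ m := by
  rw [deltaHom_apply]
  simp only [cartanHom_apply]
  simp_rw [← Finset.prod_zpow, ← zpow_mul]
  rw [Finset.prod_comm, ← Finset.prod_pow]
  refine Finset.prod_congr rfl fun i _ => ?_
  rw [prod_zpow_const, ← zpow_natCast, ← zpow_mul, hS.h3 i, mul_comm]

/-- If the "determinant" is an `m`-th power, the vector is in the image of the Cartan map. -/
theorem mem_range_of_delta (hS : SmithData D m a u v w B k0) {c : Fin D.rank → Fˣ} {z : Fˣ}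
    (hz : deltaHom a c = z ^ m) : c ∈ (cartanHom D F).range := by
  classical
  refine ⟨fun i => z ^ u i * ∏ k, c k ^ B k i, ?_⟩
  funext j
  rw [cartanHom_apply]
  simp_rw [mul_zpow, ← Finset.prod_zpow, ← zpow_mul]
  rw [Finset.prod_mul_distrib, prod_zpow_const, hS.h2 j, Finset.prod_comm]
  have h1 : ∀ k, ∏ i, c k ^ (B k i * D.cartan i (D.simple j)) = c k ^ ((if k = j then 1 else 0) - a k * v j) := by
    intro k
    rw [prod_zpow_const, hS.h1 k j]
  simp_rw [h1, zpow_sub]
  rw [Finset.prod_mul_distrib, Finset.prod_inv_distrib]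
  have h2 : ∏ k, c k ^ (if k = j then (1 : ℤ) else 0) = c j := by
    rw [Finset.prod_eq_single j]
    · simp
    · intro b _ hb
      simp [hb]
    · simp
  have h3 : ∏ k, c k ^ (a k * v j) = (z ^ m) ^ v j := by
    rw [← hz, deltaHom_apply, ← Finset.prod_zpow]
    simp_rw [← zpow_mul]
  rw [h2, h3, ← zpow_natCast, ← zpow_mul, mul_comm (c j), mul_inv_cancel_left]

variable [Finite F]

/-- The cokernel of the Cartan map is `Fˣ / (Fˣ) ^ m`. -/
theorem card_coker (hS : SmithData D m a u v w B k0) :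
    Nat.card (Coker D F) = Nat.gcd (Nat.card Fˣ) m := by
  classical
  let R : Subgroup Fˣ := (powMonoidHom m : Fˣ →* Fˣ).range
  let f : (Fin D.rank → Fˣ) →* Fˣ ⧸ R := (QuotientGroup.mk' R).comp (deltaHom a)
  have hf : Function.Surjective f := by
    intro q
    obtain ⟨z, rfl⟩ := QuotientGroup.mk'_surjective R q
    refine ⟨Function.update 1 k0 z, ?_⟩
    show ((deltaHom a (Function.update 1 k0 z) : Fˣ) : Fˣ ⧸ R) = z
    congr 1
    rw [deltaHom_apply, Finset.prod_eq_single k0]
    · simp [hS.h4]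
    · intro b _ hb
      simp [Function.update_of_ne hb]
    · simp
  have hk : f.ker = (cartanHom D F).range := by
    apply le_antisymm
    · intro c hc
      have h1 : ((deltaHom a c : Fˣ) : Fˣ ⧸ R) = 1 := hc
      rw [QuotientGroup.eq_one_iff] at h1
      obtain ⟨z, hz⟩ := h1
      exact mem_range_of_delta hS hz.symm
    · rintro _ ⟨e, rfl⟩
      show ((deltaHom a (cartanHom D F e) : Fˣ) : Fˣ ⧸ R) = 1
      rw [QuotientGroup.eq_one_iff, delta_cartan hS]
      exact ⟨_, rfl⟩
  have e1 : Nat.card (Coker D F) = Nat.card (Fˣ ⧸ R) := by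
    apply Nat.card_congr
    rw [Coker, ← hk]
    exact (QuotientGroup.quotientKerEquivOfSurjective f hf).toEquiv
  rw [e1]
  exact IsCyclic.index_powMonoidHom_range (G := Fˣ) m

end

end Cfsg.Agent.Lib.ChevAut.Count
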