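import Cfsg.Agent.Lib.ChevAut.Norm

/-!
# The field automorphisms `σ_i` of an automorphism in normal form

They all agree up to the exponents of the graph automorphisms, and `π` is a symmetry of the diagram.
-/

set_option autoImplicit false
set_option linter.unusedSectionVars false
set_option maxRecDepth 100000

namespace Cfsg.Agent.Lib.ChevAut

open Cfsg.Lie Matrix
open Cfsg.Agent.Lib.ChevBN.Elem Cfsg.Agent.Lib.ChevBN.Table
open Cfsg.Agent.Lib.ChevBN.Rel

noncomputable section

/-! ### Powers which are additive -/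

section Pow

variable {F : Type*} [Field F]

/-- If `v ↦ v ^ m` is additive, `m = 2, 3`, then it is the power with exponent the characteristic. -/
theorem pow_eq_char {m : ℕ} (hm : m = 2 ∨ m = 3) (hadd : ∀ u v : F, (u + v) ^ m = u ^ m + v ^ m) (v : F) :
    v ^ m = v ^ (ringChar F) := by
  rcases hm with rfl | rfl
  · have h2 : ((2 : ℕ) : F) = 0 := by
      have := hadd 1 1
      norm_num at this
      push_cast
      linear_combination this
    rw [CharP.ringChar_of_prime_eq_zero Nat.prime_two h2]
  · have h1 : ∀ v : F, 3 * (v * (v + 1)) = 0 := by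
      intro v
      have := hadd v 1
      simp only [one_pow] at this
      linear_combination this
    by_cases h3 : (3 : F) = 0
    · have h3' : ((3 : ℕ) : F) = 0 := by exact_mod_cast h3
      rw [CharP.ringChar_of_prime_eq_zero Nat.prime_three h3']
    · have h4 : ∀ v : F, v = 0 ∨ v = -1 := by
        intro v
        have := (mul_eq_zero.mp (h1 v)).resolve_left h3
        rcases mul_eq_zero.mp this with h | h
        · exact Or.inl h
        · exact Or.inr (eq_neg_of_add_eq_zero_left h)
      have h5 : (1 : F) = -1 := (h4 1).resolve_left one_ne_zero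
      have h2 : ((2 : ℕ) : F) = 0 := by
        push_cast
        linear_combination h5
      rw [CharP.ringChar_of_prime_eq_zero Nat.prime_two h2]
      rcases h4 v with rfl | rfl
      · simp
      · linear_combination -h5

theorem ringEquiv_eq_of_inv {σ τ : F ≃+* F} (h : ∀ s : F, s ≠ 0 → (σ s) ^ (-1 : ℤ) = (τ s) ^ (-1 : ℤ)) : σ = τ := by
  apply RingEquiv.ext
  intro s
  by_cases hs : s = 0
  · simp [hs]
  · have := h s hs
    simpa using this

theorem ringEquiv_pow_of {σ τ : F ≃+* F} {m : ℕ} (hm : m ≠ 0)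
    (h : ∀ s : F, s ≠ 0 → (σ s) ^ (-1 : ℤ) = (τ s) ^ (-(m : ℤ))) (t : F) : σ t = (τ t) ^ m := by
  by_cases hs : t = 0
  · simp [hs, hm]
  · have := h t hs
    simpa using this

/-- A relation `σ t = (τ t) ^ m` between field automorphisms, with `m = 2, 3`. -/
theorem ringEquiv_pow_char {σ τ : F ≃+* F} {m : ℕ} (hm : m = 2 ∨ m = 3) (h : ∀ t, σ t = (τ t) ^ m) (t : F) :
    σ t = (τ t) ^ (ringChar F) := by
  rw [h, pow_eq_char hm]
  intro u v
  have h1 := h (τ.symm u + τ.symm v)
  rw [map_add, map_add, RingEquiv.apply_symm_apply, RingEquiv.apply_symm_apply, h, h,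
    RingEquiv.apply_symm_apply, RingEquiv.apply_symm_apply] at h1
  exact h1.symm

end Pow

variable {D : ChevalleyDatum} {F : Type*} [Field F] {η : ℕ → ℕ → ℤ}
variable (hR : Sys D F η) (hT : Tbl D) (hc : ∀ i < D.rank, D.cartan i (D.simple i) = 2)
variable {θ : ↥(D.group F) ≃* ↥(D.group F)} {π : Equiv.Perm (Fin D.rank)} {σ : Fin D.rank → F ≃+* F}

/-! ### One root length -/

include hT hc in
theorem collapse_sl (hT2 : Tbl2 D) (hN : IsNorm hR θ π σ) (h0 : 0 < D.rank)
    (hsl : ∀ i j : Fin D.rank, i ≠ j → (D.cartan i (D.simple j) = 0 ∧ D.cartan j (D.simple i) = 0) ∨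
      (D.cartan i (D.simple j) = -1 ∧ D.cartan j (D.simple i) = -1))
    (hlong : ∀ i : Fin D.rank, D.isLong (D.simple i) = false) :
    D.IsDiagramSymmetry π ∧ ∃ σ₀ : F ≃+* F, ∀ (i : Fin D.rank) (t : F),
      σ i t = (σ₀ t) ^ D.graphExp (ringChar F) i (π i) := by
  have hπne : ∀ {i j : Fin D.rank}, i ≠ j → π i ≠ π j := fun h h' => h (π.injective h')
  have hedge : ∀ {i j : Fin D.rank}, i ≠ j → D.cartan i (D.simple j) ≠ 0 → σ i = σ j := by
    intro i j hij hne
    have h1 : D.cartan i (D.simple j) = -1 := by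
      rcases hsl i j hij with h | h
      · exact absurd h.1 hne
      · exact h.1
    have h2 : D.cartan (π i) (D.simple (π j)) = -1 := by
      rcases hsl _ _ (hπne hij) with h | h
      · exact absurd ((hN.cartan_zero_iff hR hT hc hij).1 h.1) hne
      · exact h.1
    apply ringEquiv_eq_of_inv
    intro s hs
    have := hN.star hR hT i j hs
    rwa [h1, h2] at this
  refine ⟨fun i j hij => ?_, σ ⟨0, h0⟩, fun i t => ?_⟩
  · rcases hsl i j hij with h | h
    · have h1 := hN.cartan_zero hR hT hc hij h.1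
      simp only [ChevalleyDatum.bonds, h1, h.1, zero_mul]
    · rcases hsl _ _ (hπne hij) with h' | h'
      · exact absurd ((hN.cartan_zero_iff hR hT hc hij).1 h'.1) (by rw [h.1]; decide)
      · simp only [ChevalleyDatum.bonds, h.1, h.2, h'.1, h'.2]
  · have hall : ∀ k : ℕ, ∀ hk : k < D.rank, σ ⟨k, hk⟩ = σ ⟨0, h0⟩ := by
      by_contra hcon
      push Not at hcon
      obtain ⟨k, hk, hne⟩ := hcon
      obtain ⟨a, ha, b, hb, hPa, hPb, hab⟩ := hT2.conn (fun k => ∀ hk : k < D.rank, σ ⟨k, hk⟩ = σ ⟨0, h0⟩)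
        ⟨0, h0, fun _ => rfl⟩ ⟨k, hk, fun h' => hne (h' hk)⟩
      apply hPb
      intro _
      have hne' : (⟨a, ha⟩ : Fin D.rank) ≠ ⟨b, hb⟩ := by
        intro h
        have : a = b := congrArg Fin.val h
        subst this
        exact hPb hPa
      rw [← hPa ha]
      exact (hedge hne' hab).symm
    rw [hall i.1 i.2, ChevalleyDatum.graphExp, hlong (π i), Bool.false_and, if_neg (by simp), pow_one]

/-! ### Rank two with two root lengths -/

include hT in
theorem collapse_two (a b : Fin D.rank) (hab : a ≠ b) (hall : ∀ x : Fin D.rank, x = a ∨ x = b)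
    {m : ℕ} (hm : m = 2 ∨ m = 3) (hN : IsNorm hR θ π σ)
    (h1 : D.cartan a (D.simple b) = -(m : ℤ)) (h2 : D.cartan b (D.simple a) = -1)
    (ha : D.isLong (D.simple a) = false) (hb : D.isLong (D.simple b) = true) :
    D.IsDiagramSymmetry π ∧ ∃ σ₀ : F ≃+* F, ∀ (i : Fin D.rank) (t : F),
      σ i t = (σ₀ t) ^ D.graphExp (ringChar F) i (π i) := by
  have hm0 : m ≠ 0 := by rcases hm with rfl | rfl <;> decide
  have hcases : (π a = a ∧ π b = b) ∨ (π a = b ∧ π b = a) := by
    rcases hall (π a) with h3 | h3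
    · left
      refine ⟨h3, ?_⟩
      rcases hall (π b) with h4 | h4
      · exact absurd (π.injective (h4.trans h3.symm)) hab.symm
      · exact h4
    · right
      refine ⟨h3, ?_⟩
      rcases hall (π b) with h4 | h4
      · exact h4
      · exact absurd (π.injective (h4.trans h3.symm)) hab.symm
  have hsymm : D.IsDiagramSymmetry π := by
    intro i j hij
    rcases hall i with rfl | rfl <;> rcases hall j with rfl | rfl
    · exact absurd rfl hij
    · rcases hcases with ⟨h3, h4⟩ | ⟨h3, h4⟩ <;> rw [h3, h4]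
      exact mul_comm _ _
    · rcases hcases with ⟨h3, h4⟩ | ⟨h3, h4⟩ <;> rw [h3, h4]
      exact mul_comm _ _
    · exact absurd rfl hij
  refine ⟨hsymm, ?_⟩
  rcases hcases with ⟨h3, h4⟩ | ⟨h3, h4⟩
  · have h5 : σ b = σ a := by
      apply ringEquiv_eq_of_inv
      intro s hs
      have := hN.star hR hT b a hs
      rwa [h3, h4, h2] at this
    refine ⟨σ a, fun i t => ?_⟩
    rcases hall i with rfl | rfl
    · rw [h3, ChevalleyDatum.graphExp, ha, Bool.false_and, if_neg (by simp), pow_one]
    · rw [h4, ChevalleyDatum.graphExp, h5, hb]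
      simp
  · have h5 : ∀ t, σ a t = (σ b t) ^ m := by
      apply ringEquiv_pow_of hm0
      intro s hs
      have := hN.star hR hT a b hs
      rwa [h3, h4, h1, h2] at this
    refine ⟨σ b, fun i t => ?_⟩
    rcases hall i with rfl | rfl
    · rw [h3, ChevalleyDatum.graphExp, ha, hb]
      simp only [Bool.not_false, Bool.and_self, if_true]
      exact ringEquiv_pow_char hm h5 t
    · rw [h4, ChevalleyDatum.graphExp, ha, Bool.false_and, if_neg (by simp), pow_one]

end

end Cfsg.Agent.Lib.ChevAut
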