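import Cfsg.Agent.Lib.ChevAut.Norm
import Cfsg.Agent.Lib.ChevBN.Opp
import Cfsg.Agent.Lib.ChevOrder.Chev

/-!
# Inner automorphisms permuting the fundamental root groups

An inner automorphism permuting the root groups of the fundamental roots and of their negatives is
conjugation by an element of `H`.
-/

set_option autoImplicit false
set_option linter.unusedSectionVars false

namespace Cfsg.Agent.Lib.ChevAut

open Cfsg.Lie Matrix
open Cfsg.Agent.Lib.Chevalley
open Cfsg.Agent.Lib.ChevBN.Elem Cfsg.Agent.Lib.ChevBN.Entries Cfsg.Agent.Lib.ChevBN.Table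
open Cfsg.Agent.Lib.ChevBN.Collect Cfsg.Agent.Lib.ChevBN.Rel Cfsg.Agent.Lib.ChevBN.Torus
open Cfsg.Agent.Lib.ChevBN.Monomial Cfsg.Agent.Lib.ChevBN.Pair Cfsg.Agent.Lib.ChevBN.Stmts
open Cfsg.Agent.Lib.ChevOrder.Chev Cfsg.Agent.Lib.ChevOrder.BNCount
open Cfsg.Agent.Lib.BNPair.Basic Cfsg.Agent.Lib.BNPair.Parabolic

noncomputable section

variable {D : ChevalleyDatum} {F : Type*} [Field F] {η : ℕ → ℕ → ℤ}
variable (hR : Sys D F η) (hT : Tbl D)
include hR hT

theorem X_not_mem_Yp {i : ℕ} (hi : i < D.rank) {τ : F} (h : X hR.toAddRel (D.simple i) τ ∈ Yp hR (D.simple i)) :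
    τ = 0 := by
  by_contra hτ
  have hp := hT.simple_lt hi
  have h1 := A_norm_Yp hR hT hi h
  rw [A_conj_X hR hi hp, hT.w_simple i hi] at h1
  exact X_neg_not_mem_B hR hT (hT.simple_pos i hi) (mul_ne_zero (eta_ne hR hi hp) hτ)
    (U_le_B hR hT (Yp_le_U hR hT _ h1))

theorem U_norm_Yp {i : ℕ} (hi : i < D.rank) {u a : GL D.Idx F} (hu : u ∈ D.posUnipotent F)
    (ha : a ∈ Yp hR (D.simple i)) : u * a * u⁻¹ ∈ Yp hR (D.simple i) := by
  rw [posUnipotent_eq hR.toAddRel] at hu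
  revert a
  refine gen_induction hR.toAddRel (P := fun u => ∀ {a}, a ∈ Yp hR (D.simple i) → u * a * u⁻¹ ∈ Yp hR (D.simple i))
    (by simp) ?_ ?_ hu
  · intro r hr t a ha
    by_cases h : r = D.simple i
    · subst h
      have := X_norm_Yp hR hT hi (-t) ha
      simpa using this
    · have hm : X hR.toAddRel r t ∈ Yp hR (D.simple i) :=
        X_mem_gen _ (Ψ := {s | D.IsPosRoot s ∧ s ≠ D.simple i}) ⟨hr, h⟩ t
      exact Subgroup.mul_mem _ (Subgroup.mul_mem _ hm ha) (Subgroup.inv_mem _ hm)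
  · intro a b ha hb c hc
    have e : a * b * c * (a * b)⁻¹ = a * (b * c * b⁻¹) * a⁻¹ := by group
    rw [e]
    exact ha (hb hc)

theorem H_norm_Yp {i : ℕ} {h a : GL D.Idx F} (hh : h ∈ D.diagonalSubgroup F)
    (ha : a ∈ Yp hR (D.simple i)) : h * a * h⁻¹ ∈ Yp hR (D.simple i) := by
  obtain ⟨κ, hκ, -, h1⟩ := exists_of_mem_H hR hT hh
  refine gen_induction hR.toAddRel (P := fun a => h * a * h⁻¹ ∈ Yp hR (D.simple i)) (by simp) ?_ ?_ ha
  · intro r hr t
    rw [h1 r hr.1.1 t]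
    exact X_mem_gen _ hr _
  · intro a b ha hb
    have e : h * (a * b) * h⁻¹ = (h * a * h⁻¹) * (h * b * h⁻¹) := by group
    rw [e]
    exact Subgroup.mul_mem _ ha hb

theorem B_norm_Yp {i : ℕ} (hi : i < D.rank) {b a : GL D.Idx F} (hb : b ∈ D.borelSubgroup F)
    (ha : a ∈ Yp hR (D.simple i)) : b * a * b⁻¹ ∈ Yp hR (D.simple i) := by
  obtain ⟨u, hu, h, hh, rfl⟩ := (mem_B_iff hR hT).mp hb
  have e : u * h * a * (u * h)⁻¹ = u * (h * a * h⁻¹) * u⁻¹ := by group
  rw [e]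
  exact U_norm_Yp hR hT hi hu (H_norm_Yp hR hT hh ha)

theorem B_norm_U {b u : GL D.Idx F} (hb : b ∈ D.borelSubgroup F) (hu : u ∈ D.posUnipotent F) :
    b * u * b⁻¹ ∈ D.posUnipotent F := by
  obtain ⟨v, hv, h, hh, rfl⟩ := (mem_B_iff hR hT).mp hb
  have e : v * h * u * (v * h)⁻¹ = v * (h * u * h⁻¹) * v⁻¹ := by group
  rw [e]
  exact Subgroup.mul_mem _ (Subgroup.mul_mem _ hv (H_norm_U hR hT hh hu)) (Subgroup.inv_mem _ hv)

/-- An element of `U` outside `U_p` is not conjugated into `B` by `n_p`. -/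
theorem conj_not_mem_B {i : ℕ} (hi : i < D.rank) {u : GL D.Idx F} (hu : u ∈ D.posUnipotent F)
    (hY : u ∉ Yp hR (D.simple i)) : A hR i * u * (A hR i)⁻¹ ∉ D.borelSubgroup F := by
  obtain ⟨a, ha, τ, rfl⟩ := U_decomp hR hT hi hu
  have hτ : τ ≠ 0 := by
    rintro rfl
    apply hY
    simpa using ha
  intro hmem
  have hp := hT.simple_lt hi
  have e : A hR i * (a * X hR.toAddRel (D.simple i) τ) * (A hR i)⁻¹ =
      (A hR i * a * (A hR i)⁻¹) * (A hR i * X hR.toAddRel (D.simple i) τ * (A hR i)⁻¹) := by group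
  rw [e, A_conj_X hR hi hp, hT.w_simple i hi] at hmem
  have h1 := U_le_B hR hT (Yp_le_U hR hT _ (A_norm_Yp hR hT hi ha))
  have h2 := Subgroup.mul_mem _ (Subgroup.inv_mem _ h1) hmem
  rw [inv_mul_cancel_left] at h2
  exact X_neg_not_mem_B hR hT (hT.simple_pos i hi) (mul_ne_zero (eta_ne hR hi hp) hτ) h2

theorem conj_inv_not_mem_B {i : ℕ} (hi : i < D.rank) {u : GL D.Idx F} (hu : u ∈ D.posUnipotent F)
    (hY : u ∉ Yp hR (D.simple i)) : (A hR i)⁻¹ * u * A hR i ∉ D.borelSubgroup F := by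
  obtain ⟨a, ha, τ, rfl⟩ := U_decomp hR hT hi hu
  have hτ : τ ≠ 0 := by
    rintro rfl
    apply hY
    simpa using ha
  intro hmem
  have hp := hT.simple_lt hi
  have hw := hT.w_lt i hi _ hp
  have e : (A hR i)⁻¹ * (a * X hR.toAddRel (D.simple i) τ) * A hR i =
      ((A hR i)⁻¹ * a * A hR i) * ((A hR i)⁻¹ * X hR.toAddRel (D.simple i) τ * A hR i) := by group
  rw [e, A_inv_conj_X hR hT hi hp, hT.w_simple i hi] at hmem
  have h1 := U_le_B hR hT (Yp_le_U hR hT _ (A_inv_norm_Yp hR hT hi ha))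
  have h2 := Subgroup.mul_mem _ (Subgroup.inv_mem _ h1) hmem
  rw [inv_mul_cancel_left] at h2
  exact X_neg_not_mem_B hR hT (hT.simple_pos i hi)
    (mul_ne_zero (eta_ne hR hi (hT.neg_lt hp)) hτ) h2

/-- There is only one Borel subgroup containing the root groups of the fundamental roots. -/
theorem mem_B_of_conj {y : ↥(D.group F)}
    (h : ∀ i : Fin D.rank, y⁻¹ * XG hR.toAddRel (D.simple i) 1 * y ∈ (pair hR hT).B) : y ∈ (pair hR hT).B := by
  let P := pair hR hT
  obtain ⟨n, hn, hm⟩ := bruhat_exists (P := P) y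
  obtain ⟨b₁, hb₁, b₂, hb₂, e⟩ := mem_C.mp hm
  have hlt : ∀ s ∈ P.S, len P n < len P (s * n) := by
    intro s hs
    obtain ⟨i, rfl⟩ := ee_surj hR hT s hs
    have hb₁' := (mem_PB hR hT).1 hb₁
    have hX : X hR.toAddRel (D.simple i) (1 : F) ∈ D.posUnipotent F := X_mem_U hR hT (hT.simple_pos i i.2) 1
    let x : ↥(D.group F) := b₁⁻¹ * XG hR.toAddRel (D.simple i) 1 * b₁
    have hxU : (x : GL D.Idx F) ∈ D.posUnipotent F := by
      have := B_norm_U hR hT (Subgroup.inv_mem _ hb₁') hX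
      simpa [x] using this
    have hxB : x ∈ P.B := (mem_PB hR hT).2 (U_le_B hR hT hxU)
    have hY : (x : GL D.Idx F) ∉ Yp hR (D.simple i) := by
      intro hxY
      have h1 := B_norm_Yp hR hT i.2 hb₁' hxY
      have h2 : (b₁ : GL D.Idx F) * (x : GL D.Idx F) * (b₁ : GL D.Idx F)⁻¹ = X hR.toAddRel (D.simple i) 1 := by
        simp only [x, Subgroup.coe_mul, Subgroup.coe_inv, XG_coe]
        group
      rw [h2] at h1
      exact one_ne_zero (X_not_mem_Yp hR hT i.2 h1)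
    have hsx : ee hR hT i * x * (ee hR hT i)⁻¹ ∉ P.B := by
      intro hmem
      exact conj_not_mem_B hR hT i.2 hxU hY ((mem_PB hR hT).1 hmem)
    have hnx : n⁻¹ * x * n ∈ P.B := by
      have h1 := h i
      have e2 : n⁻¹ * x * n = b₂ * (y⁻¹ * XG hR.toAddRel (D.simple i) 1 * y) * b₂⁻¹ := by
        rw [e]
        simp only [x]
        group
      rw [e2]
      exact P.B.mul_mem (P.B.mul_mem hb₂ h1) (P.B.inv_mem hb₂)
    exact len_lt_of_conj (ee_mem hR hT i) hn hxB hsx hnx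
  have h0 : len P n = 0 := by
    by_contra hne
    obtain ⟨k, hk⟩ := Nat.exists_eq_succ_of_ne_zero hne
    obtain ⟨s, hs, n', hn', e', hl⟩ := decomp_left (P := P) hn hk
    have h1 := hlt s hs
    have h2 := len_inv_mul (P := P) hs hn
    have h3 : s⁻¹ * n = n' := by rw [e']; group
    rw [h3, hl] at h2
    omega
  have hnB := (len_eq_zero_iff hn).1 h0
  rw [e]
  exact P.B.mul_mem (P.B.mul_mem hb₁ hnB) hb₂

/-- An element of `U` whose conjugates of all `n_p` stay in `N` is trivial. -/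
theorem U_trivial_of_conj (hT2 : Tbl2 D) {u : GL D.Idx F} (hu : u ∈ D.posUnipotent F)
    (hN : ∀ i : Fin D.rank, u * A hR i * u⁻¹ ∈ D.monomialSubgroup F) : u = 1 := by
  have hcomm : ∀ i : Fin D.rank, (A hR i)⁻¹ * u * A hR i = u := by
    intro i
    let P := pair hR hT
    have huB := U_le_B hR hT hu
    have huG := (sup_le (U_le_G hR hT) (H_le_G hR hT) : D.borelSubgroup F ≤ D.group F) huB
    let u' : ↥(D.group F) := ⟨u, huG⟩
    have hu' : u' ∈ P.B := (mem_PB hR hT).2 huB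
    let a : ↥(D.group F) := ee hR hT i
    have haN : a ∈ P.N := (mem_PN hR hT).2 (A_mem_N hR hT i.2)
    let n : ↥(D.group F) := u' * a * u'⁻¹
    have hnN : n ∈ P.N := (mem_PN hR hT).2 (hN i)
    have hnC : n ∈ C P a := mem_C.2 ⟨u', hu', u'⁻¹, P.B.inv_mem hu', rfl⟩
    have hCe := C_eq_of_mem hnC
    have h1 := (C_eq_iff haN hnN).1 hCe.symm
    have h2 : (A hR i)⁻¹ * (u * A hR i * u⁻¹) ∈ D.borelSubgroup F := (mem_PB hR hT).1 h1
    have h3 : (A hR i)⁻¹ * u * A hR i ∈ D.borelSubgroup F := by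
      have := Subgroup.mul_mem _ h2 huB
      have e : (A hR i)⁻¹ * (u * A hR i * u⁻¹) * u = (A hR i)⁻¹ * u * A hR i := by group
      rwa [e] at this
    have hY : u ∈ Yp hR (D.simple i) := by
      by_contra hY
      exact conj_inv_not_mem_B hR hT i.2 hu hY h3
    have hv := A_inv_norm_Yp hR hT i.2 hY
    have hvU := Yp_le_U hR hT _ hv
    have h4 : (A hR i)⁻¹ * u * A hR i * u⁻¹ ∈ D.posUnipotent F ⊓ D.monomialSubgroup F := by
      refine ⟨Subgroup.mul_mem _ hvU (Subgroup.inv_mem _ hu), ?_⟩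
      have e : (A hR i)⁻¹ * u * A hR i * u⁻¹ = (A hR i)⁻¹ * (u * A hR i * u⁻¹) := by group
      rw [e]
      exact Subgroup.mul_mem _ (Subgroup.inv_mem _ (A_mem_N hR hT i.2)) (hN i)
    rw [U_inf_N hR hT, Subgroup.mem_bot] at h4
    exact mul_inv_eq_one.mp h4
  obtain ⟨l, hl, hneg⟩ := hT2.w0
  have hprod : ∀ l : List ℕ, (∀ i ∈ l, i < D.rank) →
      Cfsg.Agent.Lib.ChevBN.Opp.prodA hR l * u * (Cfsg.Agent.Lib.ChevBN.Opp.prodA hR l)⁻¹ = u := by
    intro l hl
    induction l with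
    | nil => simp [Cfsg.Agent.Lib.ChevBN.Opp.prodA]
    | cons a l ih =>
      have e : Cfsg.Agent.Lib.ChevBN.Opp.prodA hR (a :: l) = A hR a * Cfsg.Agent.Lib.ChevBN.Opp.prodA hR l := by
        simp [Cfsg.Agent.Lib.ChevBN.Opp.prodA]
      have h1 := ih (fun i hi => hl i (by simp [hi]))
      have h2 := hcomm ⟨a, hl a (by simp)⟩
      have h3 : A hR a * u * (A hR a)⁻¹ = u := by
        have : A hR a * ((A hR a)⁻¹ * u * A hR a) * (A hR a)⁻¹ = u := by group
        rw [h2] at this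
        exact this
      rw [e]
      calc _ = A hR a * (Cfsg.Agent.Lib.ChevBN.Opp.prodA hR l * u * (Cfsg.Agent.Lib.ChevBN.Opp.prodA hR l)⁻¹) * (A hR a)⁻¹ := by group
        _ = u := by rw [h1, h3]
  have hV : u ∈ D.negUnipotent F := by
    rw [← hprod l hl]
    rw [posUnipotent_eq hR.toAddRel] at hu
    refine gen_induction hR.toAddRel (P := fun v => Cfsg.Agent.Lib.ChevBN.Opp.prodA hR l * v * (Cfsg.Agent.Lib.ChevBN.Opp.prodA hR l)⁻¹ ∈ D.negUnipotent F)
      (by simp) ?_ ?_ hu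
    · intro r hr t
      obtain ⟨-, κ, -, h⟩ := Cfsg.Agent.Lib.ChevBN.Opp.prodA_conj hR hT hl hr.1
      rw [h t, negUnipotent_eq hR.toAddRel]
      exact X_mem_gen _ (hneg r hr) _
    · intro a b ha hb
      have e : Cfsg.Agent.Lib.ChevBN.Opp.prodA hR l * (a * b) * (Cfsg.Agent.Lib.ChevBN.Opp.prodA hR l)⁻¹ =
          (Cfsg.Agent.Lib.ChevBN.Opp.prodA hR l * a * (Cfsg.Agent.Lib.ChevBN.Opp.prodA hR l)⁻¹) *
            (Cfsg.Agent.Lib.ChevBN.Opp.prodA hR l * b * (Cfsg.Agent.Lib.ChevBN.Opp.prodA hR l)⁻¹) := by group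
      rw [e]
      exact Subgroup.mul_mem _ ha hb
  have h5 : u ∈ D.borelSubgroup F ⊓ D.negUnipotent F := ⟨U_le_B hR hT hu, hV⟩
  rw [B_inf_V hR hT, Subgroup.mem_bot] at h5
  exact h5

/-- An element conjugating the fundamental root groups and their negatives as a permutation lies in `H`. -/
theorem mem_H_of_conj (hT2 : Tbl2 D) {x : ↥(D.group F)} {π : Equiv.Perm (Fin D.rank)}
    (hp : ∀ (i : Fin D.rank) (t : F), ∃ u, x * XG hR.toAddRel (D.simple i) t * x⁻¹ = XG hR.toAddRel (D.simple (π i)) u)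
    (hn : ∀ (i : Fin D.rank) (t : F),
      ∃ u, x * XG hR.toAddRel (D.neg (D.simple i)) t * x⁻¹ = XG hR.toAddRel (D.neg (D.simple (π i))) u)
    (hc : ∀ i < D.rank, D.cartan i (D.simple i) = 2) (hη : ∀ i < D.rank, η i (D.simple i) = -1) :
    (x : GL D.Idx F) ∈ D.diagonalSubgroup F := by
  have hxB : x ∈ (pair hR hT).B := by
    have : x⁻¹ ∈ (pair hR hT).B := by
      apply mem_B_of_conj hR hT
      intro i
      obtain ⟨u, hu⟩ := hp i 1
      rw [inv_inv, hu]
      exact (mem_PB hR hT).2 (U_le_B hR hT (X_mem_U hR hT (hT.simple_pos _ (π i).2) u))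
    simpa using (pair hR hT).B.inv_mem this
  obtain ⟨u, hu, h, hh, e⟩ := (mem_B_iff hR hT).mp ((mem_PB hR hT).1 hxB)
  have hu1 : u = 1 := by
    apply U_trivial_of_conj hR hT hT2 hu
    intro i
    have hh' : (x : GL D.Idx F) * h⁻¹ = u := by rw [e]; group
    -- conjugation by `u` on root elements
    obtain ⟨κ, hκ, -, h1⟩ := exists_of_mem_H hR hT (Subgroup.inv_mem _ hh)
    have hpi := hT.simple_lt i.2
    have hpi' := hT.simple_lt (π i).2
    have hconj : ∀ (t : F), ∀ r < D.nroots, u * X hR.toAddRel r t * u⁻¹ = (x : GL D.Idx F) * X hR.toAddRel r (κ r * t) * (x : GL D.Idx F)⁻¹ := by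
      intro t r hr
      rw [← h1 r hr t, ← hh']
      group
    have hconjA : u * A hR i * u⁻¹ = (u * X hR.toAddRel (D.simple i) 1 * u⁻¹) *
        (u * X hR.toAddRel (D.neg (D.simple i)) (-1⁻¹) * u⁻¹) * (u * X hR.toAddRel (D.simple i) 1 * u⁻¹) := by
      rw [A, nG]
      group
    let ū : ↥(D.group F) := ⟨u, U_le_G hR hT hu⟩
    have hP : ∀ t : F, ∃ v, MulAut.conj ū (XG hR.toAddRel (D.simple i) t) = XG hR.toAddRel (D.simple (π i)) v := by
      intro t
      obtain ⟨v, hv⟩ := hp i (κ (D.simple i) * t)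
      refine ⟨v, Subtype.ext ?_⟩
      have := congrArg Subtype.val hv
      simp only [Subgroup.coe_mul, Subgroup.coe_inv, XG_coe] at this
      show u * X hR.toAddRel (D.simple i) t * u⁻¹ = X hR.toAddRel (D.simple (π i)) v
      rw [← this, hconj t _ hpi]
    have hQ : ∀ t : F, ∃ v, MulAut.conj ū (XG hR.toAddRel (D.neg (D.simple i)) t) = XG hR.toAddRel (D.neg (D.simple (π i))) v := by
      intro t
      obtain ⟨v, hv⟩ := hn i (κ (D.neg (D.simple i)) * t)
      refine ⟨v, Subtype.ext ?_⟩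
      have := congrArg Subtype.val hv
      simp only [Subgroup.coe_mul, Subgroup.coe_inv, XG_coe] at this
      show u * X hR.toAddRel (D.neg (D.simple i)) t * u⁻¹ = X hR.toAddRel (D.neg (D.simple (π i))) v
      rw [← this, hconj t _ (hT.neg_lt hpi)]
    choose φ hφ using hP
    choose ψ hψ using hQ
    have hφ1 : φ 1 ≠ 0 := by
      intro h0
      have h2 := hφ 1
      rw [h0, XG_zero] at h2
      have h3 : XG hR.toAddRel (D.simple i) (1 : F) = 1 := by
        have := (MulAut.conj ū).injective (h2.trans (map_one _).symm)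
        exact this
      have h4 := XG_inj hR hT hpi (h3.trans (XG_zero _ _).symm)
      exact one_ne_zero h4
    have heq := Rank1.eq1 (rel_XG hR hT hc hη hpi) (rel_XG hR hT hc hη hpi') (MulAut.conj ū).toMonoidHom hφ hψ
      (fun τ v he => X_sep hR hT (hT.simple_pos _ (π i).2) (congrArg Subtype.val he)) hφ1 (t := 1) one_ne_zero
    have hne : φ 1 ≠ 0 := hφ1
    have h5 : ψ (-1⁻¹) = -(φ 1)⁻¹ := by
      generalize ψ (-1⁻¹) = v at heq ⊢
      field_simp
      linear_combination heq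
    have h6 := congrArg Subtype.val (hφ 1)
    have h7 := congrArg Subtype.val (hψ (-1⁻¹))
    simp only [MulAut.conj_apply, Subgroup.coe_mul, Subgroup.coe_inv, XG_coe] at h6 h7
    change u * X hR.toAddRel (D.simple i) 1 * u⁻¹ = X hR.toAddRel (D.simple (π i)) (φ 1) at h6
    change u * X hR.toAddRel (D.neg (D.simple i)) (-1⁻¹) * u⁻¹ = X hR.toAddRel (D.neg (D.simple (π i))) (ψ (-1⁻¹)) at h7
    rw [hconjA, h6, h7, h5]
    have h8 : X hR.toAddRel (D.simple (π i)) (φ 1) * X hR.toAddRel (D.neg (D.simple (π i))) (-(φ 1)⁻¹) *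
        X hR.toAddRel (D.simple (π i)) (φ 1) = nG hR.toAddRel (D.simple (π i)) (φ 1) := rfl
    rw [h8, nG_eq_hG_mul]
    refine Subgroup.mul_mem _ ?_ (A_mem_N hR hT (π i).2)
    apply H_le_N hR
    rw [ChevalleyDatum.diagonalSubgroup]
    exact Subgroup.subset_closure ⟨_, _, hpi', hφ1, coe_hG _ _ _⟩
  rw [e, hu1, one_mul]
  exact hh

end

end Cfsg.Agent.Lib.ChevAut
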