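import Cfsg.Agent.Lib.ChevAut.Normalize
import Cfsg.Agent.Lib.ChevAut.InnerH
import Cfsg.Agent.Lib.Chevalley.SimpleGen
import Cfsg.Prelude.Def_KGroupFacts

/-!
# The outer automorphism group as a product of three sets

Given the decomposition `θ = inner · diagonal · graph · field`, the outer automorphism group of the Chevalley
group is in bijection with (graph symmetries realised) × (coker of the Cartan map on `Fˣ`) × (`Aut F`).
-/

set_option autoImplicit false
set_option linter.unusedSectionVars false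

namespace Cfsg.Agent.Lib.ChevAut.Count

open Cfsg.Lie Matrix
open Cfsg.Agent.Lib.Chevalley Cfsg.Agent.Lib.ChevAut
open Cfsg.Agent.Lib.ChevBN.Elem Cfsg.Agent.Lib.ChevBN.Entries Cfsg.Agent.Lib.ChevBN.Table
open Cfsg.Agent.Lib.ChevBN.Collect Cfsg.Agent.Lib.ChevBN.Rel Cfsg.Agent.Lib.ChevBN.Torus
open Cfsg.Agent.Lib.ChevBN.Monomial Cfsg.Agent.Lib.ChevBN.Pair Cfsg.Agent.Lib.ChevBN.Stmts

noncomputable section

/-- The Cartan map on the torus coordinates: `e ↦ (∏_i e_i ^ A_{i j})_j`. -/
def cartanHom (D : ChevalleyDatum) (F : Type*) [Field F] : (Fin D.rank → Fˣ) →* (Fin D.rank → Fˣ) where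
  toFun e := fun j => ∏ i : Fin D.rank, e i ^ D.cartan i (D.simple j)
  map_one' := by
    funext j
    simp
  map_mul' a b := by
    funext j
    simp only [Pi.mul_apply, mul_zpow, Finset.prod_mul_distrib]

@[simp] theorem cartanHom_apply (D : ChevalleyDatum) (F : Type*) [Field F] (e : Fin D.rank → Fˣ) (j : Fin D.rank) :
    cartanHom D F e j = ∏ i : Fin D.rank, e i ^ D.cartan i (D.simple j) := rfl

/-- The cokernel of the Cartan map. -/
abbrev Coker (D : ChevalleyDatum) (F : Type*) [Field F] : Type _ := (Fin D.rank → Fˣ) ⧸ (cartanHom D F).range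

variable {D : ChevalleyDatum} {F : Type*} [Field F] {η : ℕ → ℕ → ℤ}

/-- The exponent of the graph automorphism at node `i`. -/
abbrev gExp (D : ChevalleyDatum) (F : Type*) [Field F] (π : Equiv.Perm (Fin D.rank)) (i : Fin D.rank) : ℕ :=
  D.graphExp (ringChar F) i (π i)

/-- `g` is the graph automorphism of the symmetry `π`. -/
structure IsGraphOf (hA : AddRel D F) (π : Equiv.Perm (Fin D.rank)) (g : ↥(D.group F) ≃* ↥(D.group F)) : Prop where
  symm : D.IsDiagramSymmetry π
  pos : ∀ (i : Fin D.rank) (t : F), g (XG hA (D.simple i) t) = XG hA (D.simple (π i)) (t ^ gExp D F π i)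
  neg : ∀ (i : Fin D.rank) (t : F), g (XG hA (D.neg (D.simple i)) t) = XG hA (D.neg (D.simple (π i))) (t ^ gExp D F π i)

theorem isGraphOf_iff (hA : AddRel D F) (g : ↥(D.group F) ≃* ↥(D.group F)) :
    D.IsGraphAut g ↔ ∃ π, IsGraphOf hA π g := by
  constructor
  · rintro ⟨π, hπ, h⟩
    refine ⟨π, hπ, fun i t => ?_, fun i t => ?_⟩
    · exact (eq_XG hA).1 ((h _ i t).1 rfl)
    · exact (eq_XG hA).1 ((h _ i t).2 rfl)
  · rintro ⟨π, hg⟩
    refine ⟨π, hg.symm, fun a i t => ⟨fun ha => ?_, fun ha => ?_⟩⟩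
    · rw [(eq_XG hA).1 ha, hg.pos]
      rfl
    · rw [(eq_XG hA).1 ha, hg.neg]
      rfl

/-- The symmetries of the diagram realised by graph automorphisms over `F`. -/
def GraphSet (hA : AddRel D F) : Set (Equiv.Perm (Fin D.rank)) := {π | ∃ g, IsGraphOf hA π g}

/-- The form of `d g f` on the generators. -/
def IsTriple (hA : AddRel D F) (θ : ↥(D.group F) ≃* ↥(D.group F)) (π : Equiv.Perm (Fin D.rank))
    (c : Fin D.rank → Fˣ) (σ : F ≃+* F) : Prop :=
  ∀ (i : Fin D.rank) (t : F),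
    θ (XG hA (D.simple i) t) = XG hA (D.simple (π i)) ((c (π i) : F) * (σ t) ^ gExp D F π i) ∧
    θ (XG hA (D.neg (D.simple i)) t) = XG hA (D.neg (D.simple (π i))) (((c (π i))⁻¹ : Fˣ) * (σ t) ^ gExp D F π i)

variable (hR : Sys D F η) (hT : Tbl D)
include hR hT

/-- Automorphisms agreeing on the generators are equal. -/
theorem aut_ext {θ θ' : ↥(D.group F) ≃* ↥(D.group F)}
    (h1 : ∀ (i : Fin D.rank) (t : F), θ (XG hR.toAddRel (D.simple i) t) = θ' (XG hR.toAddRel (D.simple i) t))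
    (h2 : ∀ (i : Fin D.rank) (t : F), θ (XG hR.toAddRel (D.neg (D.simple i)) t) = θ' (XG hR.toAddRel (D.neg (D.simple i)) t)) :
    θ = θ' := by
  have := SimpleGen.hom_ext hR hT θ.toMonoidHom θ'.toMonoidHom (fun a i t ha => by
    rcases ha with ha | ha
    · rw [(eq_XG hR.toAddRel).1 ha]
      exact h1 i t
    · rw [(eq_XG hR.toAddRel).1 ha]
      exact h2 i t)
  apply MulEquiv.ext
  intro y
  exact congrArg (fun f : ↥(D.group F) →* ↥(D.group F) => f y) this

/-- The triple determines the automorphism. -/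
theorem triple_unique {θ θ' : ↥(D.group F) ≃* ↥(D.group F)} {π : Equiv.Perm (Fin D.rank)} {c : Fin D.rank → Fˣ} {σ : F ≃+* F}
    (h : IsTriple hR.toAddRel θ π c σ) (h' : IsTriple hR.toAddRel θ' π c σ) : θ = θ' :=
  aut_ext hR hT (fun i t => by rw [(h i t).1, (h' i t).1]) (fun i t => by rw [(h i t).2, (h' i t).2])

/-- All triples come from an automorphism. -/
theorem exists_triple (hD : D ∈ [chevG2, chevB2, chevD4, chevF4, chevE6, chevE7, chevE8]) (hck : CharDiag.chainCk D = true)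
    {π : Equiv.Perm (Fin D.rank)} (hπ : π ∈ GraphSet hR.toAddRel) (c : Fin D.rank → Fˣ) (σ : F ≃+* F) :
    ∃ θ, IsTriple hR.toAddRel θ π c σ := by
  obtain ⟨g, hg⟩ := hπ
  obtain ⟨χ, hχ, hχs⟩ := exists_char hD (fun j => if hj : j < D.rank then c ⟨j, hj⟩ else 1)
  have hχ' : ∀ j : Fin D.rank, χ (D.simple j) = c j := by
    intro j
    rw [hχs j j.2, dif_pos j.2]
  refine ⟨(fAut hR.toAddRel σ).trans (g.trans (dAut hR hT hck hχ)), fun i t => ⟨?_, ?_⟩⟩
  · simp only [MulEquiv.trans_apply, fAut_XG, hg.pos]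
    rw [dAut_XG _ _ _ hχ (hT.simple_lt (π i).2), hχ']
  · simp only [MulEquiv.trans_apply, fAut_XG, hg.neg]
    rw [dAut_XG _ _ _ hχ (hT.neg_lt (hT.simple_lt (π i).2)), hχ.1 _ (hT.simple_lt (π i).2), hχ']

/-- The decomposition of the statement gives a triple. -/
theorem triple_of_decomp (hck : CharDiag.chainCk D = true) {d g f : ↥(D.group F) ≃* ↥(D.group F)}
    (hd : D.IsDiagonalAut d) (hg : D.IsGraphAut g) (hf : D.IsFieldAut f) :
    ∃ π ∈ GraphSet hR.toAddRel, ∃ c σ, IsTriple hR.toAddRel (f.trans (g.trans d)) π c σ := by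
  obtain ⟨π, hg'⟩ := (isGraphOf_iff hR.toAddRel g).1 hg
  obtain ⟨χ, hχ, hd'⟩ := hd
  obtain ⟨σ, hσ⟩ := hf
  have hdX : ∀ r, r < D.nroots → ∀ t, d (XG hR.toAddRel r t) = XG hR.toAddRel r ((χ r : F) * t) := by
    intro r hr t
    apply (eq_XG hR.toAddRel).1
    rw [hd', XG_coe_mat]
    exact CharDiag.charDiag_conj hck hχ hr t
  refine ⟨π, ⟨g, hg'⟩, fun j => χ (D.simple j), σ, fun i t => ⟨?_, ?_⟩⟩
  · have h1 : f (XG hR.toAddRel (D.simple i) t) = XG hR.toAddRel (D.simple i) (σ t) :=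
      (eq_XG hR.toAddRel).1 (hσ _ _ t (hT.simple_lt i.2) rfl)
    simp only [MulEquiv.trans_apply, h1, hg'.pos]
    rw [hdX _ (hT.simple_lt (π i).2)]
  · have h1 : f (XG hR.toAddRel (D.neg (D.simple i)) t) = XG hR.toAddRel (D.neg (D.simple i)) (σ t) :=
      (eq_XG hR.toAddRel).1 (hσ _ _ t (hT.neg_lt (hT.simple_lt i.2)) rfl)
    simp only [MulEquiv.trans_apply, h1, hg'.neg]
    rw [hdX _ (hT.neg_lt (hT.simple_lt (π i).2)), hχ.1 _ (hT.simple_lt (π i).2)]

omit hR hT in
theorem list_prod_range {M : Type*} [CommMonoid M] (f : ℕ → M) (n : ℕ) :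
    ((List.range n).map f).prod = ∏ i : Fin n, f i := by
  rw [Fin.prod_univ_eq_prod_range]
  induction n with
  | zero => simp
  | succ n ih => rw [List.range_succ, List.map_append, List.prod_append, ih, Finset.prod_range_succ]; simp

/-- The action of an element of `H` in terms of the Cartan map. -/
theorem exists_of_mem_H' {x : GL D.Idx F} (hx : x ∈ D.diagonalSubgroup F) :
    ∃ e : Fin D.rank → Fˣ, ∀ (j : Fin D.rank) (t : F),
      x * X hR.toAddRel (D.simple j) t * x⁻¹ = X hR.toAddRel (D.simple j) ((cartanHom D F e j : F) * t) ∧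
      x * X hR.toAddRel (D.neg (D.simple j)) t * x⁻¹ = X hR.toAddRel (D.neg (D.simple j)) (((cartanHom D F e j)⁻¹ : Fˣ) * t) := by
  rw [diagonal_eq hR hT] at hx
  obtain ⟨c, hc, rfl⟩ := hx
  let e : Fin D.rank → Fˣ := fun j => Units.mk0 (c j) (hc j j.2)
  have hchi : ∀ s, chi D c s = ((∏ i : Fin D.rank, e i ^ D.cartan i s : Fˣ) : F) := by
    intro s
    rw [chi, list_prod_range, Units.coe_prod]
    refine Finset.prod_congr rfl fun i _ => ?_
    simp [e]
  refine ⟨e, fun j t => ⟨?_, ?_⟩⟩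
  · rw [hP_conj hR hc (hT.simple_lt j.2), hchi]
    rfl
  · rw [hP_conj hR hc (hT.neg_lt (hT.simple_lt j.2)), hchi, cartanHom_apply, ← Finset.prod_inv_distrib]
    congr 3
    refine Finset.prod_congr rfl fun i _ => ?_
    rw [hT.cartan_neg i i.2 _ (hT.simple_lt j.2), _root_.zpow_neg]

/-- Conversely, each value of the Cartan map is realised by an element of `H`. -/
theorem exists_H_of_cartan (e : Fin D.rank → Fˣ) :
    ∃ x ∈ D.diagonalSubgroup F, ∀ (j : Fin D.rank) (t : F),
      x * X hR.toAddRel (D.simple j) t * x⁻¹ = X hR.toAddRel (D.simple j) ((cartanHom D F e j : F) * t) ∧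
      x * X hR.toAddRel (D.neg (D.simple j)) t * x⁻¹ = X hR.toAddRel (D.neg (D.simple j)) (((cartanHom D F e j)⁻¹ : Fˣ) * t) := by
  let c : ℕ → F := fun j => if hj : j < D.rank then (e ⟨j, hj⟩ : F) else 1
  have hc : ∀ j < D.rank, c j ≠ 0 := by
    intro j hj
    simp only [c, dif_pos hj]
    exact Units.ne_zero _
  have hce : ∀ j : Fin D.rank, c j = e j := by
    intro j
    simp only [c, dif_pos j.2, Fin.eta]
  have hchi : ∀ s, chi D c s = ((∏ i : Fin D.rank, e i ^ D.cartan i s : Fˣ) : F) := by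
    intro s
    rw [chi, list_prod_range, Units.coe_prod]
    refine Finset.prod_congr rfl fun i _ => ?_
    rw [hce]
    simp
  refine ⟨hP hR c, ?_, fun j t => ⟨?_, ?_⟩⟩
  · rw [diagonal_eq hR hT]
    exact ⟨c, hc, rfl⟩
  · rw [hP_conj hR hc (hT.simple_lt j.2), hchi]
    rfl
  · rw [hP_conj hR hc (hT.neg_lt (hT.simple_lt j.2)), hchi, cartanHom_apply, ← Finset.prod_inv_distrib]
    congr 3
    refine Finset.prod_congr rfl fun i _ => ?_
    rw [hT.cartan_neg i i.2 _ (hT.simple_lt j.2), _root_.zpow_neg]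

/-- Two triples with classes differing by the image of the Cartan map are in the same class modulo `Inn`. -/
theorem triple_conj {θ θ' : ↥(D.group F) ≃* ↥(D.group F)} {π : Equiv.Perm (Fin D.rank)} {c c' : Fin D.rank → Fˣ} {σ : F ≃+* F}
    (h : IsTriple hR.toAddRel θ π c σ) (h' : IsTriple hR.toAddRel θ' π c' σ)
    (hc : c'⁻¹ * c ∈ (cartanHom D F).range) :
    ∃ x : ↥(D.group F), ∀ y, θ y = x * θ' y * x⁻¹ := by
  obtain ⟨e, he⟩ := hc
  obtain ⟨x, hx, hxe⟩ := exists_H_of_cartan hR hT e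
  have hjc : ∀ j, c j = cartanHom D F e j * c' j := by
    intro j
    rw [he]
    simp
  refine ⟨⟨x, H_le_G hR hT hx⟩, ?_⟩
  have key : θ = θ'.trans (MulAut.conj (⟨x, H_le_G hR hT hx⟩ : ↥(D.group F))) := by
    apply aut_ext hR hT
    · intro i t
      rw [MulEquiv.trans_apply, (h i t).1, (h' i t).1, MulAut.conj_apply]
      apply Subtype.ext
      simp only [Subgroup.coe_mul, Subgroup.coe_inv, XG_coe]
      rw [(hxe (π i) _).1, hjc]
      simp only [Units.val_mul, mul_assoc]
    · intro i t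
      rw [MulEquiv.trans_apply, (h i t).2, (h' i t).2, MulAut.conj_apply]
      apply Subtype.ext
      simp only [Subgroup.coe_mul, Subgroup.coe_inv, XG_coe]
      rw [(hxe (π i) _).2, hjc, mul_inv]
      simp only [Units.val_mul, mul_assoc]
  intro y
  rw [key]
  rfl

/-- Powers of the graph exponent are injective. -/
theorem gExp_inj [Finite F] {π : Equiv.Perm (Fin D.rank)} {i : Fin D.rank} {a b : F}
    (h : a ^ gExp D F π i = b ^ gExp D F π i) : a = b := by
  rw [gExp, ChevalleyDatum.graphExp] at h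
  split_ifs at h with h1
  · obtain ⟨p, hp⟩ := CharP.exists F
    have hrc : ringChar F = p := ringChar.eq F p
    rw [hrc] at h
    have hpp : p.Prime := by
      rcases CharP.char_is_prime_or_zero F p with h2 | h2
      · exact h2
      · subst h2
        exact absurd hp (by
          intro h3
          have := CharP.charP_to_charZero F
          exact not_finite F)
    have : Fact p.Prime := ⟨hpp⟩
    exact frobenius_inj F p h
  · simpa using h

/-- Automorphisms with triples which are inner-equivalent have the same data. -/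
theorem triple_eq_of_conj [Finite F] (h0 : 0 < D.rank) (hT2 : Tbl2 D) (hc : ∀ i < D.rank, D.cartan i (D.simple i) = 2)
    (hη : ∀ i < D.rank, η i (D.simple i) = -1)
    {θ θ' : ↥(D.group F) ≃* ↥(D.group F)} {π π' : Equiv.Perm (Fin D.rank)} {c c' : Fin D.rank → Fˣ} {σ σ' : F ≃+* F}
    (h : IsTriple hR.toAddRel θ π c σ) (h' : IsTriple hR.toAddRel θ' π' c' σ')
    {x : ↥(D.group F)} (hx : ∀ y, θ y = x * θ' y * x⁻¹) :
    π = π' ∧ σ = σ' ∧ c'⁻¹ * c ∈ (cartanHom D F).range := by
  have hinj : ∀ (i : Fin D.rank), Function.Injective fun t : F => (c' (π' i) : F) * (σ' t) ^ gExp D F π' i := by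
    intro i a b hab
    have h1 : θ' (XG hR.toAddRel (D.simple i) a) = θ' (XG hR.toAddRel (D.simple i) b) := by
      rw [(h' i a).1, (h' i b).1]
      exact congrArg _ hab
    exact XG_inj hR hT (hT.simple_lt i.2) (θ'.injective h1)
  have hinj' : ∀ (i : Fin D.rank), Function.Injective fun t : F => (((c' (π' i))⁻¹ : Fˣ) : F) * (σ' t) ^ gExp D F π' i := by
    intro i a b hab
    have h1 : θ' (XG hR.toAddRel (D.neg (D.simple i)) a) = θ' (XG hR.toAddRel (D.neg (D.simple i)) b) := by
      rw [(h' i a).2, (h' i b).2]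
      exact congrArg _ hab
    exact XG_inj hR hT (hT.neg_lt (hT.simple_lt i.2)) (θ'.injective h1)
  have hxH : (x : GL D.Idx F) ∈ D.diagonalSubgroup F := by
    refine mem_H_of_conj hR hT hT2 (π := π'.symm.trans π) ?_ ?_ hc hη
    · intro j t
      obtain ⟨v, hv⟩ := Finite.surjective_of_injective (hinj (π'.symm j)) t
      refine ⟨(c (π (π'.symm j)) : F) * (σ v) ^ gExp D F π (π'.symm j), ?_⟩
      have h2 := (h' (π'.symm j) v).1
      rw [Equiv.apply_symm_apply] at h2
      simp only [Equiv.apply_symm_apply] at hv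
      rw [hv] at h2
      rw [← h2, ← hx, (h _ v).1]
      rfl
    · intro j t
      obtain ⟨v, hv⟩ := Finite.surjective_of_injective (hinj' (π'.symm j)) t
      refine ⟨(((c (π (π'.symm j)))⁻¹ : Fˣ) : F) * (σ v) ^ gExp D F π (π'.symm j), ?_⟩
      have h2 := (h' (π'.symm j) v).2
      rw [Equiv.apply_symm_apply] at h2
      simp only [Equiv.apply_symm_apply] at hv
      rw [hv] at h2
      rw [← h2, ← hx, (h _ v).2]
      rfl
  obtain ⟨e, he⟩ := exists_of_mem_H' hR hT hxH
  have hval : ∀ (i : Fin D.rank) (t : F), XG hR.toAddRel (D.simple (π i)) ((c (π i) : F) * (σ t) ^ gExp D F π i) =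
      XG hR.toAddRel (D.simple (π' i)) ((cartanHom D F e (π' i) : F) * ((c' (π' i) : F) * (σ' t) ^ gExp D F π' i)) := by
    intro i t
    rw [← (h i t).1, hx, (h' i t).1]
    apply Subtype.ext
    simp only [Subgroup.coe_mul, Subgroup.coe_inv, XG_coe]
    exact (he (π' i) _).1
  have hpi : π = π' := by
    ext i
    have h2 := congrArg Subtype.val (hval i 1)
    simp only [XG_coe] at h2
    have hne : (c (π i) : F) * (σ 1) ^ gExp D F π i ≠ 0 := by
      simp
    have h3 := X_pos_inj hR hT (hT.simple_pos _ (π i).2) (hT.simple_pos _ (π' i).2) hne h2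
    have h4 := hT.simple_inj _ (π i).2 _ (π' i).2 h3
    rw [h4]
  subst hpi
  have hval2 : ∀ (i : Fin D.rank) (t : F), (c (π i) : F) * (σ t) ^ gExp D F π i =
      (cartanHom D F e (π i) : F) * ((c' (π i) : F) * (σ' t) ^ gExp D F π i) := fun i t =>
    XG_inj hR hT (hT.simple_lt (π i).2) (hval i t)
  have hc1 : ∀ i : Fin D.rank, (c (π i) : F) = (cartanHom D F e (π i) : F) * (c' (π i) : F) := by
    intro i
    have := hval2 i 1
    simpa using this
  refine ⟨rfl, ?_, ⟨e, ?_⟩⟩
  · apply RingEquiv.ext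
    intro t
    let i : Fin D.rank := ⟨0, h0⟩
    have h5 := hval2 i t
    rw [hc1 i, mul_assoc] at h5
    have h6 := mul_left_cancel₀ (Units.ne_zero _) h5
    have h7 := mul_left_cancel₀ (Units.ne_zero _) h6
    exact gExp_inj hR hT h7
  · funext j
    obtain ⟨i, rfl⟩ := π.surjective j
    have h8 : c (π i) = cartanHom D F e (π i) * c' (π i) := Units.ext (by
      rw [Units.val_mul]
      exact hc1 i)
    rw [Pi.mul_apply, Pi.inv_apply, h8, mul_comm (cartanHom D F e (π i)), inv_mul_cancel_left]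

omit hR hT in
/-- Equality in `Out`. -/
theorem out_eq_iff {θ θ' : ↥(D.group F) ≃* ↥(D.group F)} :
    (QuotientGroup.mk (s := Cfsg.Inn ↥(D.group F)) θ : Cfsg.Out ↥(D.group F)) = QuotientGroup.mk θ' ↔
      ∃ x : ↥(D.group F), ∀ y, θ y = x * θ' y * x⁻¹ := by
  rw [QuotientGroup.eq_iff_div_mem]
  constructor
  · rintro ⟨x, hx⟩
    refine ⟨x, fun y => ?_⟩
    have h1 : θ = MulAut.conj x * θ' := by
      rw [hx]
      show θ = (θ / θ') * θ'
      simp
    have h2 := congrArg (fun f : MulAut ↥(D.group F) => f y) h1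
    simpa [MulAut.conj_apply, MulAut.mul_apply] using h2
  · rintro ⟨x, hx⟩
    refine ⟨x, ?_⟩
    apply MulEquiv.ext
    intro y
    have h1 : θ * θ'⁻¹ = MulAut.conj x := by
      apply MulEquiv.ext
      intro z
      have := hx (θ'⁻¹ z)
      rw [MulAut.conj_apply, MulAut.mul_apply, this]
      simp
    show MulAut.conj x y = (θ / θ') y
    rw [div_eq_mul_inv, h1]

/-- The count of the outer automorphism group. -/
theorem card_out [Finite F] (hD : D ∈ [chevG2, chevB2, chevD4, chevF4, chevE6, chevE7, chevE8])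
    (hT2 : Tbl2 D) (hc : ∀ i < D.rank, D.cartan i (D.simple i) = 2) (hη : ∀ i < D.rank, η i (D.simple i) = -1)
    (hck : CharDiag.chainCk D = true) (h0 : 0 < D.rank)
    (hdec : ∀ θ : ↥(D.group F) ≃* ↥(D.group F), ∃ (x : ↥(D.group F)) (d g f : ↥(D.group F) ≃* ↥(D.group F)),
      D.IsDiagonalAut d ∧ D.IsGraphAut g ∧ D.IsFieldAut f ∧ ∀ y : ↥(D.group F), θ y = x * d (g (f y)) * x⁻¹) :
    Nat.card (Cfsg.Out ↥(D.group F)) = Nat.card (GraphSet hR.toAddRel) * (Nat.card (Coker D F) * Nat.card (F ≃+* F)) := by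
  classical
  have hex := fun (π : GraphSet hR.toAddRel) (c : Fin D.rank → Fˣ) (σ : F ≃+* F) =>
    exists_triple hR hT hD hck π.2 c σ
  choose tr htr using hex
  let Φ : (GraphSet hR.toAddRel) × (Coker D F × (F ≃+* F)) → Cfsg.Out ↥(D.group F) :=
    fun p => QuotientGroup.mk (tr p.1 (Quotient.out p.2.1) p.2.2)
  have hΦ : Function.Bijective Φ := by
    constructor
    · rintro ⟨π, q, σ⟩ ⟨π', q', σ'⟩ he
      obtain ⟨x, hx⟩ := out_eq_iff.1 he
      obtain ⟨h1, h2, h3⟩ := triple_eq_of_conj hR hT h0 hT2 hc hη (htr π _ σ) (htr π' _ σ') hx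
      have h4 : π = π' := Subtype.ext h1
      subst h4
      subst h2
      have h5 : q = q' := by
        have h6 : ((Quotient.out q : Fin D.rank → Fˣ) : Coker D F) = (Quotient.out q' : Fin D.rank → Fˣ) := by
          rw [eq_comm, QuotientGroup.eq]
          exact h3
        rwa [QuotientGroup.out_eq', QuotientGroup.out_eq'] at h6
      rw [h5]
    · intro q
      obtain ⟨θ, rfl⟩ := QuotientGroup.mk_surjective q
      obtain ⟨x, d, g, f, hd, hg, hf, hθ⟩ := hdec θ
      obtain ⟨π, hπ, c, σ, h3⟩ := triple_of_decomp hR hT hck hd hg hf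
      refine ⟨(⟨π, hπ⟩, (c : Coker D F), σ), ?_⟩
      show (QuotientGroup.mk _ : Cfsg.Out ↥(D.group F)) = _
      have h4 := htr ⟨π, hπ⟩ (Quotient.out (c : Coker D F)) σ
      have h5 : c⁻¹ * (Quotient.out (c : Coker D F)) ∈ (cartanHom D F).range := by
        have := QuotientGroup.out_eq' (s := (cartanHom D F).range) c
        rw [eq_comm, QuotientGroup.eq] at this
        exact this
      obtain ⟨x₁, hx₁⟩ := triple_conj hR hT h4 h3 h5
      rw [out_eq_iff]
      refine ⟨x₁ * x⁻¹, fun y => ?_⟩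
      rw [hx₁, hθ]
      simp only [MulEquiv.trans_apply]
      group
  rw [← Nat.card_eq_of_bijective Φ hΦ, Nat.card_prod, Nat.card_prod]

end

end Cfsg.Agent.Lib.ChevAut.Count
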