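import Cfsg.Prelude.Def_ChevAutomorphisms
import Cfsg.Prelude.Def_LieTypes

/-!
# The diagrams of types `E₇`, `E₈` have no nontrivial symmetries (generated)
-/

set_option autoImplicit false
set_option maxRecDepth 1000000
set_option synthInstance.maxSize 100000
set_option synthInstance.maxHeartbeats 0

namespace Cfsg.Agent.Lib.ChevAut.Count

open Cfsg.Lie

theorem tuples_E7 : ∀ a0 : Fin 7, 
    ∀ a2 : Fin 7, a0 ≠ a2 → chevE7.bonds a0 a2 = chevE7.bonds 0 2 → 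
    ∀ a3 : Fin 7, a0 ≠ a3 → chevE7.bonds a0 a3 = chevE7.bonds 0 3 → a2 ≠ a3 → chevE7.bonds a2 a3 = chevE7.bonds 2 3 → 
    ∀ a4 : Fin 7, a0 ≠ a4 → chevE7.bonds a0 a4 = chevE7.bonds 0 4 → a2 ≠ a4 → chevE7.bonds a2 a4 = chevE7.bonds 2 4 → a3 ≠ a4 → chevE7.bonds a3 a4 = chevE7.bonds 3 4 → 
    ∀ a5 : Fin 7, a0 ≠ a5 → chevE7.bonds a0 a5 = chevE7.bonds 0 5 → a2 ≠ a5 → chevE7.bonds a2 a5 = chevE7.bonds 2 5 → a3 ≠ a5 → chevE7.bonds a3 a5 = chevE7.bonds 3 5 → a4 ≠ a5 → chevE7.bonds a4 a5 = chevE7.bonds 4 5 → 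
    ∀ a6 : Fin 7, a0 ≠ a6 → chevE7.bonds a0 a6 = chevE7.bonds 0 6 → a2 ≠ a6 → chevE7.bonds a2 a6 = chevE7.bonds 2 6 → a3 ≠ a6 → chevE7.bonds a3 a6 = chevE7.bonds 3 6 → a4 ≠ a6 → chevE7.bonds a4 a6 = chevE7.bonds 4 6 → a5 ≠ a6 → chevE7.bonds a5 a6 = chevE7.bonds 5 6 → 
    ∀ a1 : Fin 7, a0 ≠ a1 → chevE7.bonds a0 a1 = chevE7.bonds 0 1 → a2 ≠ a1 → chevE7.bonds a2 a1 = chevE7.bonds 2 1 → a3 ≠ a1 → chevE7.bonds a3 a1 = chevE7.bonds 3 1 → a4 ≠ a1 → chevE7.bonds a4 a1 = chevE7.bonds 4 1 → a5 ≠ a1 → chevE7.bonds a5 a1 = chevE7.bonds 5 1 → a6 ≠ a1 → chevE7.bonds a6 a1 = chevE7.bonds 6 1 → 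
      a0 = 0 ∧ a1 = 1 ∧ a2 = 2 ∧ a3 = 3 ∧ a4 = 4 ∧ a5 = 5 ∧ a6 = 6 := by
  decide +kernel

/-- The symmetries of the diagram `E7`. -/
theorem class_E7 (π : Equiv.Perm (Fin 7))
    (hπ : ∀ i j : Fin 7, i ≠ j → chevE7.bonds (π i) (π j) = chevE7.bonds i j) : π = 1 := by
  have hne : ∀ i j : Fin 7, i ≠ j → π i ≠ π j := fun i j h h2 => h (π.injective h2)
  obtain ⟨h0, h1, h2, h3, h4, h5, h6⟩ := tuples_E7
    (π 0)
    (π 2) (hne _ _ (by decide)) (hπ _ _ (by decide))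
    (π 3) (hne _ _ (by decide)) (hπ _ _ (by decide)) (hne _ _ (by decide)) (hπ _ _ (by decide))
    (π 4) (hne _ _ (by decide)) (hπ _ _ (by decide)) (hne _ _ (by decide)) (hπ _ _ (by decide)) (hne _ _ (by decide)) (hπ _ _ (by decide))
    (π 5) (hne _ _ (by decide)) (hπ _ _ (by decide)) (hne _ _ (by decide)) (hπ _ _ (by decide)) (hne _ _ (by decide)) (hπ _ _ (by decide)) (hne _ _ (by decide)) (hπ _ _ (by decide))
    (π 6) (hne _ _ (by decide)) (hπ _ _ (by decide)) (hne _ _ (by decide)) (hπ _ _ (by decide)) (hne _ _ (by decide)) (hπ _ _ (by decide)) (hne _ _ (by decide)) (hπ _ _ (by decide)) (hne _ _ (by decide)) (hπ _ _ (by decide))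
    (π 1) (hne _ _ (by decide)) (hπ _ _ (by decide)) (hne _ _ (by decide)) (hπ _ _ (by decide)) (hne _ _ (by decide)) (hπ _ _ (by decide)) (hne _ _ (by decide)) (hπ _ _ (by decide)) (hne _ _ (by decide)) (hπ _ _ (by decide)) (hne _ _ (by decide)) (hπ _ _ (by decide))
  apply Equiv.ext
  intro i
  fin_cases i <;> assumption

theorem tuples_E8 : ∀ a0 : Fin 8, 
    ∀ a2 : Fin 8, a0 ≠ a2 → chevE8.bonds a0 a2 = chevE8.bonds 0 2 → 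
    ∀ a3 : Fin 8, a0 ≠ a3 → chevE8.bonds a0 a3 = chevE8.bonds 0 3 → a2 ≠ a3 → chevE8.bonds a2 a3 = chevE8.bonds 2 3 → 
    ∀ a4 : Fin 8, a0 ≠ a4 → chevE8.bonds a0 a4 = chevE8.bonds 0 4 → a2 ≠ a4 → chevE8.bonds a2 a4 = chevE8.bonds 2 4 → a3 ≠ a4 → chevE8.bonds a3 a4 = chevE8.bonds 3 4 → 
    ∀ a5 : Fin 8, a0 ≠ a5 → chevE8.bonds a0 a5 = chevE8.bonds 0 5 → a2 ≠ a5 → chevE8.bonds a2 a5 = chevE8.bonds 2 5 → a3 ≠ a5 → chevE8.bonds a3 a5 = chevE8.bonds 3 5 → a4 ≠ a5 → chevE8.bonds a4 a5 = chevE8.bonds 4 5 → 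
    ∀ a6 : Fin 8, a0 ≠ a6 → chevE8.bonds a0 a6 = chevE8.bonds 0 6 → a2 ≠ a6 → chevE8.bonds a2 a6 = chevE8.bonds 2 6 → a3 ≠ a6 → chevE8.bonds a3 a6 = chevE8.bonds 3 6 → a4 ≠ a6 → chevE8.bonds a4 a6 = chevE8.bonds 4 6 → a5 ≠ a6 → chevE8.bonds a5 a6 = chevE8.bonds 5 6 → 
    ∀ a7 : Fin 8, a0 ≠ a7 → chevE8.bonds a0 a7 = chevE8.bonds 0 7 → a2 ≠ a7 → chevE8.bonds a2 a7 = chevE8.bonds 2 7 → a3 ≠ a7 → chevE8.bonds a3 a7 = chevE8.bonds 3 7 → a4 ≠ a7 → chevE8.bonds a4 a7 = chevE8.bonds 4 7 → a5 ≠ a7 → chevE8.bonds a5 a7 = chevE8.bonds 5 7 → a6 ≠ a7 → chevE8.bonds a6 a7 = chevE8.bonds 6 7 → 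
    ∀ a1 : Fin 8, a0 ≠ a1 → chevE8.bonds a0 a1 = chevE8.bonds 0 1 → a2 ≠ a1 → chevE8.bonds a2 a1 = chevE8.bonds 2 1 → a3 ≠ a1 → chevE8.bonds a3 a1 = chevE8.bonds 3 1 → a4 ≠ a1 → chevE8.bonds a4 a1 = chevE8.bonds 4 1 → a5 ≠ a1 → chevE8.bonds a5 a1 = chevE8.bonds 5 1 → a6 ≠ a1 → chevE8.bonds a6 a1 = chevE8.bonds 6 1 → a7 ≠ a1 → chevE8.bonds a7 a1 = chevE8.bonds 7 1 → 
      a0 = 0 ∧ a1 = 1 ∧ a2 = 2 ∧ a3 = 3 ∧ a4 = 4 ∧ a5 = 5 ∧ a6 = 6 ∧ a7 = 7 := by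
  decide +kernel

/-- The symmetries of the diagram `E8`. -/
theorem class_E8 (π : Equiv.Perm (Fin 8))
    (hπ : ∀ i j : Fin 8, i ≠ j → chevE8.bonds (π i) (π j) = chevE8.bonds i j) : π = 1 := by
  have hne : ∀ i j : Fin 8, i ≠ j → π i ≠ π j := fun i j h h2 => h (π.injective h2)
  obtain ⟨h0, h1, h2, h3, h4, h5, h6, h7⟩ := tuples_E8
    (π 0)
    (π 2) (hne _ _ (by decide)) (hπ _ _ (by decide))
    (π 3) (hne _ _ (by decide)) (hπ _ _ (by decide)) (hne _ _ (by decide)) (hπ _ _ (by decide))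
    (π 4) (hne _ _ (by decide)) (hπ _ _ (by decide)) (hne _ _ (by decide)) (hπ _ _ (by decide)) (hne _ _ (by decide)) (hπ _ _ (by decide))
    (π 5) (hne _ _ (by decide)) (hπ _ _ (by decide)) (hne _ _ (by decide)) (hπ _ _ (by decide)) (hne _ _ (by decide)) (hπ _ _ (by decide)) (hne _ _ (by decide)) (hπ _ _ (by decide))
    (π 6) (hne _ _ (by decide)) (hπ _ _ (by decide)) (hne _ _ (by decide)) (hπ _ _ (by decide)) (hne _ _ (by decide)) (hπ _ _ (by decide)) (hne _ _ (by decide)) (hπ _ _ (by decide)) (hne _ _ (by decide)) (hπ _ _ (by decide))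
    (π 7) (hne _ _ (by decide)) (hπ _ _ (by decide)) (hne _ _ (by decide)) (hπ _ _ (by decide)) (hne _ _ (by decide)) (hπ _ _ (by decide)) (hne _ _ (by decide)) (hπ _ _ (by decide)) (hne _ _ (by decide)) (hπ _ _ (by decide)) (hne _ _ (by decide)) (hπ _ _ (by decide))
    (π 1) (hne _ _ (by decide)) (hπ _ _ (by decide)) (hne _ _ (by decide)) (hπ _ _ (by decide)) (hne _ _ (by decide)) (hπ _ _ (by decide)) (hne _ _ (by decide)) (hπ _ _ (by decide)) (hne _ _ (by decide)) (hπ _ _ (by decide)) (hne _ _ (by decide)) (hπ _ _ (by decide)) (hne _ _ (by decide)) (hπ _ _ (by decide))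
  apply Equiv.ext
  intro i
  fin_cases i <;> assumption

end Cfsg.Agent.Lib.ChevAut.Count
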