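import Cfsg.Agent.Lib.ChevAut.Basic

/-!
# Field automorphisms of the group
-/

set_option autoImplicit false
set_option linter.unusedSectionVars false

namespace Cfsg.Agent.Lib.ChevAut

open Cfsg.Lie Matrix
open Cfsg.Agent.Lib.ChevBN.Elem

noncomputable section

variable {D : ChevalleyDatum} {F : Type*} [Field F]

/-- Entrywise application of a field automorphism. -/
def fieldGL (D : ChevalleyDatum) (σ : F ≃+* F) : GL D.Idx F ≃* GL D.Idx F :=
  Units.mapEquiv (RingEquiv.mapMatrix σ).toMulEquiv

theorem x_map (σ : F ≃+* F) (r : ℕ) (t : F) :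
    (D.x F r t).map σ = D.x F r (σ t) := by
  by_cases hr : r < D.nroots
  · simp only [ChevalleyDatum.x, dif_pos hr]
    ext row col
    simp only [Matrix.map_apply, ChevalleyDatum.xMat, Matrix.of_apply]
    rcases col with i | s
    · rcases row with i' | u
      · dsimp only
        split_ifs <;> simp
      · dsimp only
        split_ifs <;> simp
    · dsimp only
      split_ifs with h1 h2
      · rcases row with i' | u
        · simp
        · dsimp only
          split_ifs <;> simp
      · rcases row with i' | u
        · dsimp only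
          simp
        · dsimp only
          split_ifs <;> simp
      · rcases row with i' | u
        · simp
        · dsimp only
          rw [map_add, map_list_sum, List.map_map]
          congr 1
          · split_ifs <;> simp
          · congr 1
            apply List.map_congr_left
            intro km _
            simp
  · simp only [ChevalleyDatum.x, dif_neg hr]
    ext row col
    simp [Matrix.one_apply]

variable (hA : AddRel D F)

theorem fieldGL_X (σ : F ≃+* F) (r : ℕ) (t : F) : fieldGL D σ (X hA r t) = X hA r (σ t) := by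
  apply Units.ext
  have : ((fieldGL D σ (X hA r t) : GL D.Idx F) : Matrix D.Idx D.Idx F) = (D.x F r t).map σ := rfl
  rw [this, x_map, coe_X]

include hA in
theorem fieldGL_mem (σ : F ≃+* F) {g : GL D.Idx F} (hg : g ∈ D.group F) : fieldGL D σ g ∈ D.group F := by
  rw [group_eq hA] at hg
  refine gen_induction hA (P := fun g => fieldGL D σ g ∈ D.group F) (by simp) ?_ ?_ hg
  · intro r hr t
    rw [fieldGL_X hA]
    exact X_mem_group hA r _
  · intro a b ha hb
    rw [map_mul]
    exact Subgroup.mul_mem _ ha hb

omit hA in
theorem fieldGL_symm (σ : F ≃+* F) (g : GL D.Idx F) : fieldGL D σ.symm (fieldGL D σ g) = g := by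
  apply Units.ext
  ext i j
  show σ.symm (σ _) = _
  simp

include hA

/-- The field automorphism of the group. -/
def fAut (σ : F ≃+* F) : ↥(D.group F) ≃* ↥(D.group F) where
  toFun := fun a => ⟨fieldGL D σ a.1, fieldGL_mem hA σ a.2⟩
  invFun := fun a => ⟨fieldGL D σ.symm a.1, fieldGL_mem hA σ.symm a.2⟩
  left_inv := fun a => Subtype.ext (fieldGL_symm σ a.1)
  right_inv := fun a => Subtype.ext (by
    have := fieldGL_symm (D := D) σ.symm a.1
    simpa using this)
  map_mul' := fun a b => Subtype.ext (map_mul (fieldGL D σ) a.1 b.1)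

theorem fAut_XG (σ : F ≃+* F) (r : ℕ) (t : F) : fAut hA σ (XG hA r t) = XG hA r (σ t) :=
  Subtype.ext (fieldGL_X hA σ r t)

theorem fAut_symm_XG (σ : F ≃+* F) (r : ℕ) (t : F) : (fAut hA σ).symm (XG hA r t) = XG hA r (σ.symm t) :=
  Subtype.ext (fieldGL_X hA σ.symm r t)

theorem isFieldAut_fAut (σ : F ≃+* F) : D.IsFieldAut (fAut hA σ) := by
  refine ⟨σ, fun g r t _ hg => ?_⟩
  rw [(eq_XG hA).1 hg, fAut_XG]
  rfl

end

end Cfsg.Agent.Lib.ChevAut
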