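import Cfsg.Agent.Lib.ChevBN.Opp
import Cfsg.Agent.Lib.ChevOrder.SylowU

/-!
Up to an inner automorphism, an automorphism of a Chevalley group over a finite field preserves
the subgroups `U` and `V` and permutes the root subgroups of the fundamental roots and of their
negatives.
-/

set_option autoImplicit false
set_option linter.unusedSectionVars false

namespace Cfsg.Agent.Lib.ChevAut.Inner

open Cfsg.Lie Cfsg.Agent.Lib.ChevBN.Elem Cfsg.Agent.Lib.ChevBN.Entries Cfsg.Agent.Lib.ChevBN.Table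
open Cfsg.Agent.Lib.ChevBN.Collect Cfsg.Agent.Lib.ChevBN.Rel Cfsg.Agent.Lib.ChevBN.Torus
open Cfsg.Agent.Lib.ChevBN.Monomial Cfsg.Agent.Lib.ChevBN.Core Cfsg.Agent.Lib.ChevBN.Pair
open Cfsg.Agent.Lib.ChevBN.Stmts Cfsg.Agent.Lib.ChevBN.Levi Cfsg.Agent.Lib.ChevBN.Opp
open Cfsg.Agent.Lib.ChevTri.Level Cfsg.Agent.Lib.ChevTri.Datum
open Cfsg.Agent.Lib.BNPair.Basic Cfsg.Agent.Lib.BNPair.Parabolic
open Cfsg.Agent.Lib.ChevOrder.Chev

open scoped Pointwise

variable {D : ChevalleyDatum} {F : Type*} [Field F] {η : ℕ → ℕ → ℤ}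

/-- An automorphism of the group preserving `U`. -/
def PresU (θ : ↥(D.group F) ≃* ↥(D.group F)) : Prop :=
  ∀ g : ↥(D.group F), ((θ g : ↥(D.group F)) : GL D.Idx F) ∈ D.posUnipotent F ↔
    (g : GL D.Idx F) ∈ D.posUnipotent F

/-- An automorphism of the group preserving `V`. -/
def PresV (θ : ↥(D.group F) ≃* ↥(D.group F)) : Prop :=
  ∀ g : ↥(D.group F), ((θ g : ↥(D.group F)) : GL D.Idx F) ∈ D.negUnipotent F ↔
    (g : GL D.Idx F) ∈ D.negUnipotent F

/-- The automorphism `y ↦ x⁻¹ θ(y) x`. -/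
def conjBy (θ : ↥(D.group F) ≃* ↥(D.group F)) (x : ↥(D.group F)) :
    ↥(D.group F) ≃* ↥(D.group F) :=
  θ.trans (MulAut.conj x⁻¹)

@[simp] theorem conjBy_apply (θ : ↥(D.group F) ≃* ↥(D.group F)) (x g : ↥(D.group F)) :
    conjBy θ x g = x⁻¹ * θ g * x := by
  simp [conjBy]

variable (hR : Sys D F η) (hT : Tbl D)
include hR hT

/-- Up to an inner automorphism, `θ` preserves `U`: Sylow's theorem. -/
theorem exists_presU [Finite F] (θ : ↥(D.group F) ≃* ↥(D.group F)) :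
    ∃ x : ↥(D.group F), PresU (conjBy θ x) := by
  classical
  haveI : Fintype F := Fintype.ofFinite F
  obtain ⟨p, hp⟩ := CharP.exists F
  haveI : Fact p.Prime := ⟨CharP.char_is_prime F p⟩
  obtain ⟨P, hP⟩ := Cfsg.Agent.Lib.ChevOrder.SylowU.exists_sylow hR hT p
  haveI : Finite ↥(D.group F) := inferInstance
  obtain ⟨x, hx⟩ := MulAction.exists_smul_eq (↥(D.group F)) P ((θ : MulAut ↥(D.group F)) • P)
  refine ⟨x, fun g => ?_⟩
  have h1 : ((x • P : Sylow p ↥(D.group F)) : Subgroup ↥(D.group F)) =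
      (((θ : MulAut ↥(D.group F)) • P : Sylow p ↥(D.group F)) : Subgroup ↥(D.group F)) := by rw [hx]
  have h2 : ((x • P : Sylow p ↥(D.group F)) : Subgroup ↥(D.group F)) =
      ((MulAut.conj x) • (P : Subgroup ↥(D.group F)) : Subgroup ↥(D.group F)) := by
    rw [Sylow.smul_def, Sylow.pointwise_smul_def]
  rw [h2, Sylow.pointwise_smul_def, hP] at h1
  have h3 : ((x⁻¹ * θ g * x : ↥(D.group F)) : GL D.Idx F) ∈ D.posUnipotent F ↔
      x⁻¹ * θ g * x ∈ (D.posUnipotent F).subgroupOf (D.group F) := Subgroup.mem_subgroupOf.symm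
  rw [conjBy_apply, h3, ← Subgroup.mem_subgroupOf]
  have h4 : θ g ∈ (θ : MulAut ↥(D.group F)) • (D.posUnipotent F).subgroupOf (D.group F) ↔
      g ∈ (D.posUnipotent F).subgroupOf (D.group F) :=
    Subgroup.smul_mem_pointwise_smul_iff (a := (θ : MulAut ↥(D.group F)))
  rw [← h4, ← h1, Subgroup.mem_pointwise_smul_iff_inv_smul_mem, MulAut.smul_def, ← MulAut.conj_inv_apply]

/-- The radical for `J = ∅` is `U`. -/
theorem radical_empty : D.unipotentRadical F ∅ = D.posUnipotent F := by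
  rw [radical_eq hR hT, posUnipotent_eq hR.toAddRel]
  congr 1
  ext r
  simp only [psiJ, Set.mem_ofPred_eq, and_iff_left_iff_imp]
  rintro hr ⟨-, h⟩
  obtain ⟨i, hi⟩ := Tbl.exists_coroot_ne (F := F) hT hr.1
  exact hi (by rw [h i i.2 (fun h => h)]; simp)

/-- The parabolic for `J = ∅` is `B`. -/
theorem parabolic_empty : D.parabolicSubgroup F ∅ = D.borelSubgroup F := by
  rw [parabolic_eq hR hT, NJ]
  simp only [Set.mem_empty_iff_false, false_and, exists_false, Set.ofPred_false]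
  simp

/-- `B` is the normaliser of `U` in `G`. -/
theorem mem_B_iff_sub (hT2 : Tbl2 D) (g : ↥(D.group F)) :
    (g : GL D.Idx F) ∈ D.borelSubgroup F ↔ ∀ u : ↥(D.group F),
      ((g * u * g⁻¹ : ↥(D.group F)) : GL D.Idx F) ∈ D.posUnipotent F ↔
        (u : GL D.Idx F) ∈ D.posUnipotent F := by
  have h := norm_radical hR hT hT2 (∅ : Set ℕ)
  rw [radical_empty hR hT, parabolic_empty hR hT] at h
  rw [← h]
  constructor
  · rintro ⟨h1, -⟩ u
    exact ((Subgroup.mem_normalizer_iff.mp h1) u.1).symm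
  · intro h1
    refine ⟨Subgroup.mem_normalizer_iff.mpr fun u => ?_, g.2⟩
    constructor
    · intro hu
      exact (h1 ⟨u, U_le_G hR hT hu⟩).mpr hu
    · intro hu
      have hg : (g : GL D.Idx F) * u * (g : GL D.Idx F)⁻¹ ∈ D.group F := U_le_G hR hT hu
      have huG : u ∈ D.group F := by
        have := Subgroup.mul_mem _ (Subgroup.mul_mem _ (Subgroup.inv_mem _ g.2) hg) g.2
        simpa [mul_assoc] using this
      exact (h1 ⟨u, huG⟩).mp hu

/-- An automorphism preserving `U` preserves `B`. -/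
theorem presB (hT2 : Tbl2 D) {θ : ↥(D.group F) ≃* ↥(D.group F)} (hθ : PresU θ) (g : ↥(D.group F)) :
    ((θ g : ↥(D.group F)) : GL D.Idx F) ∈ D.borelSubgroup F ↔ (g : GL D.Idx F) ∈ D.borelSubgroup F := by
  rw [mem_B_iff_sub hR hT hT2, mem_B_iff_sub hR hT hT2]
  constructor
  · intro h u
    have := h (θ u)
    rw [hθ u, ← map_inv, ← map_mul, ← map_mul, hθ] at this
    exact this
  · intro h u
    obtain ⟨v, rfl⟩ := θ.surjective u
    rw [hθ v, ← map_inv, ← map_mul, ← map_mul, hθ]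
    exact h v

/-- An element moving the positive roots to negative roots exchanges `U` and `V`. -/
theorem moving_opp {m : GL D.Idx F} {σ : Equiv.Perm (Fin D.nroots)}
    (hσ : ∀ s, σ (negF hT s) = negF hT (σ s))
    (hκ : ∀ s : Fin D.nroots, ∃ κ : F, κ ≠ 0 ∧ ∀ t : F,
      m * X hR.toAddRel s t * m⁻¹ = X hR.toAddRel (σ s) (κ * t))
    (hpos : ∀ s : Fin D.nroots, D.IsPosRoot s → D.IsNegRoot (σ s)) :
    (∀ g : GL D.Idx F, m * g * m⁻¹ ∈ D.negUnipotent F ↔ g ∈ D.posUnipotent F) ∧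
    (∀ g : GL D.Idx F, m * g * m⁻¹ ∈ D.posUnipotent F ↔ g ∈ D.negUnipotent F) := by
  have hneg : ∀ s : Fin D.nroots, D.IsNegRoot s → D.IsPosRoot (σ s) := by
    intro s hs
    have h1 := hpos (negF hT s) (hT.pos_of_neg hs)
    rw [hσ] at h1
    rcases hT.pos_or_neg (σ s).isLt with h2 | h2
    · exact h2
    · exact absurd h1 (fun h3 => hT.not_pos_of_neg h3 (hT.pos_of_neg h2))
  have hsi : ∀ s, σ (σ⁻¹ s) = s := fun s => by simp
  have hpos' : ∀ s : Fin D.nroots, D.IsPosRoot s → D.IsNegRoot (σ⁻¹ s) := by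
    intro s hs
    rcases hT.pos_or_neg (σ⁻¹ s).isLt with h2 | h2
    · have h3 := hpos _ h2
      rw [hsi] at h3
      exact absurd hs (hT.not_pos_of_neg h3)
    · exact h2
  have hneg' : ∀ s : Fin D.nroots, D.IsNegRoot s → D.IsPosRoot (σ⁻¹ s) := by
    intro s hs
    rcases hT.pos_or_neg (σ⁻¹ s).isLt with h2 | h2
    · exact h2
    · have h3 := hneg _ h2
      rw [hsi] at h3
      exact absurd h3 (hT.not_pos_of_neg hs)
  have step : ∀ {P Q : ℕ → Prop}, (∀ s : Fin D.nroots, P s → Q (σ s)) →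
      (∀ g, g ∈ gen hR.toAddRel {r | P r} → (∀ r, P r → r < D.nroots) →
        m * g * m⁻¹ ∈ gen hR.toAddRel {r | Q r}) := by
    intro P Q hPQ g hg hlt
    refine gen_induction hR.toAddRel
      (P := fun g => m * g * m⁻¹ ∈ gen hR.toAddRel {r | Q r}) (by simp) ?_ ?_ hg
    · intro r hr t
      obtain ⟨κ, -, h⟩ := hκ ⟨r, hlt r hr⟩
      rw [h t]
      exact X_mem_gen _ (hPQ ⟨r, hlt r hr⟩ hr) _
    · intro a b ha hb
      have e : m * (a * b) * m⁻¹ = (m * a * m⁻¹) * (m * b * m⁻¹) := by group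
      rw [e]
      exact Subgroup.mul_mem _ ha hb
  have step' : ∀ {P Q : ℕ → Prop}, (∀ s : Fin D.nroots, Q s → P (σ⁻¹ s)) →
      (∀ g, g ∈ gen hR.toAddRel {r | Q r} → (∀ r, Q r → r < D.nroots) →
        m⁻¹ * g * m ∈ gen hR.toAddRel {r | P r}) := by
    intro P Q hPQ g hg hlt
    refine gen_induction hR.toAddRel
      (P := fun g => m⁻¹ * g * m ∈ gen hR.toAddRel {r | P r}) (by simp) ?_ ?_ hg
    · intro r hr t
      obtain ⟨κ, hκ0, h⟩ := hκ (σ⁻¹ ⟨r, hlt r hr⟩)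
      have h2 := h (κ⁻¹ * t)
      rw [← mul_assoc, mul_inv_cancel₀ hκ0, one_mul, hsi] at h2
      have e : m⁻¹ * X hR.toAddRel r t * m = X hR.toAddRel (σ⁻¹ ⟨r, hlt r hr⟩) (κ⁻¹ * t) := by
        change m⁻¹ * X hR.toAddRel ((⟨r, hlt r hr⟩ : Fin D.nroots) : ℕ) t * m = _
        rw [← h2]
        group
      rw [e]
      exact X_mem_gen _ (hPQ ⟨r, hlt r hr⟩ hr) _
    · intro a b ha hb
      have e : m⁻¹ * (a * b) * m = (m⁻¹ * a * m) * (m⁻¹ * b * m) := by group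
      rw [e]
      exact Subgroup.mul_mem _ ha hb
  rw [posUnipotent_eq hR.toAddRel, negUnipotent_eq hR.toAddRel]
  refine ⟨fun g => ⟨fun h => ?_, fun h => ?_⟩, fun g => ⟨fun h => ?_, fun h => ?_⟩⟩
  · have := step' (P := D.IsPosRoot) (Q := D.IsNegRoot) hneg' _ h (fun r hr => hr.1)
    simpa [mul_assoc] using this
  · exact step (P := D.IsPosRoot) (Q := D.IsNegRoot) hpos _ h (fun r hr => hr.1)
  · have := step' (P := D.IsNegRoot) (Q := D.IsPosRoot) hpos' _ h (fun r hr => hr.1)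
    simpa [mul_assoc] using this
  · exact step (P := D.IsNegRoot) (Q := D.IsPosRoot) hneg _ h (fun r hr => hr.1)

theorem X_ne_one {r : ℕ} (hr : r < D.nroots) {t : F} (ht : t ≠ 0) : X hR.toAddRel r t ≠ 1 := by
  intro h
  have h1 : X hR.toAddRel r t ∈ D.diagonalSubgroup F := by
    rw [h]
    exact Subgroup.one_mem _
  exact ht (X_not_mem_H hR hT hr h1)

theorem U_inf_V {g : GL D.Idx F} (h1 : g ∈ D.posUnipotent F) (h2 : g ∈ D.negUnipotent F) : g = 1 := by
  have h3 : g ∈ D.borelSubgroup F ⊓ D.negUnipotent F := ⟨U_le_B hR hT h1, h2⟩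
  rw [B_inf_V hR hT] at h3
  exact h3

/-- An element of `N` with `n U n⁻¹ ≤ V` exchanges `U` and `V`. -/
theorem opp_of_N {n : GL D.Idx F} (hn : n ∈ D.monomialSubgroup F)
    (hUV : ∀ g ∈ D.posUnipotent F, n * g * n⁻¹ ∈ D.negUnipotent F) :
    (∀ g : GL D.Idx F, n * g * n⁻¹ ∈ D.negUnipotent F ↔ g ∈ D.posUnipotent F) ∧
    (∀ g : GL D.Idx F, n * g * n⁻¹ ∈ D.posUnipotent F ↔ g ∈ D.negUnipotent F) := by
  obtain ⟨σ, hσ, hκ⟩ := N_le_moving hR hT hn
  refine moving_opp hR hT hσ hκ ?_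
  intro s hs
  rcases hT.pos_or_neg (σ s).isLt with h2 | h2
  · exfalso
    obtain ⟨κ, hκ0, h⟩ := hκ s
    have h3 := hUV _ (X_mem_U hR hT hs 1)
    rw [h 1] at h3
    have h4 := U_inf_V hR hT (X_mem_U hR hT h2 _) h3
    exact X_ne_one hR hT (σ s).isLt (by simpa using hκ0) h4
  · exact h2

/-- Up to conjugation by an element of `U`, an automorphism preserving `U` also preserves `V`. -/
theorem exists_presV (hT2 : Tbl2 D) {θ : ↥(D.group F) ≃* ↥(D.group F)} (hθ : PresU θ) :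
    ∃ x : ↥(D.group F), PresU (conjBy θ x) ∧ PresV (conjBy θ x) := by
  obtain ⟨n, hn, hnU⟩ := exists_opp hR hT hT2
  have hnn := opp_of_N hR hT hn (fun g hg => by
    rw [← hnU]
    exact ⟨g, hg, rfl⟩)
  let nG : ↥(D.group F) := ⟨n, N_le_G hR hT hn⟩
  obtain ⟨m, hm, hk⟩ := bruhat_exists (P := pair hR hT) (θ nG)
  obtain ⟨b₁, hb₁, b₂, hb₂, e⟩ := mem_C.1 hk
  obtain ⟨u, hu, h, hh, e₁⟩ := (mem_B_iff hR hT).mp ((mem_PB hR hT).1 hb₁)
  let uG : ↥(D.group F) := ⟨u, U_le_G hR hT hu⟩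
  let hG' : ↥(D.group F) := ⟨h, H_le_G hR hT hh⟩
  have e₂ : b₁ = uG * hG' := Subtype.ext e₁
  set θ₂ := conjBy θ uG with hθ₂
  have hU2 : PresU θ₂ := by
    intro g
    rw [hθ₂, conjBy_apply, ← hθ g]
    constructor
    · intro h1
      have := Subgroup.mul_mem _ (Subgroup.mul_mem _ hu h1) (Subgroup.inv_mem _ hu)
      simpa [uG, mul_assoc] using this
    · intro h1
      exact Subgroup.mul_mem _ (Subgroup.mul_mem _ (Subgroup.inv_mem _ hu) h1) hu
  set m' : ↥(D.group F) := hG' * m with hm'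
  have hm'N : (m' : GL D.Idx F) ∈ D.monomialSubgroup F :=
    Subgroup.mul_mem _ (H_le_N hR hh) ((mem_PN hR hT).1 hm)
  have key : ∀ g : ↥(D.group F), (g : GL D.Idx F) ∈ D.negUnipotent F ↔
      ((m'⁻¹ * θ₂ g * m' : ↥(D.group F)) : GL D.Idx F) ∈ D.posUnipotent F := by
    intro g
    have h1 : (g : GL D.Idx F) ∈ D.negUnipotent F ↔
        ((nG⁻¹ * g * nG : ↥(D.group F)) : GL D.Idx F) ∈ D.posUnipotent F := by
      have := hnn.1 (((nG⁻¹ * g * nG : ↥(D.group F)) : GL D.Idx F))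
      rw [← this]
      have e3 : n * ((nG⁻¹ * g * nG : ↥(D.group F)) : GL D.Idx F) * n⁻¹ = (g : GL D.Idx F) := by
        show n * (n⁻¹ * (g : GL D.Idx F) * n) * n⁻¹ = _
        group
      rw [e3]
    rw [h1, ← hθ]
    have h2 := (mem_B_iff_sub hR hT hT2 b₂).1 ((mem_PB hR hT).1 hb₂) (θ (nG⁻¹ * g * nG))
    rw [← h2]
    have e4 : b₂ * θ (nG⁻¹ * g * nG) * b₂⁻¹ = m'⁻¹ * θ₂ g * m' := by
      rw [hθ₂, conjBy_apply, map_mul, map_mul, map_inv, e, e₂, hm']
      group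
    rw [e4]
  obtain ⟨σ, hσ, hκ⟩ := N_le_moving hR hT hm'N
  have hpos : ∀ s : Fin D.nroots, D.IsPosRoot s → D.IsNegRoot (σ s) := by
    intro s hs
    rcases hT.pos_or_neg (σ s).isLt with h2 | h2
    · exfalso
      obtain ⟨κ, hκ0, h3⟩ := hκ s
      let xG : ↥(D.group F) := ⟨X hR.toAddRel (σ s) 1, X_mem_G hR hT (σ s).isLt 1⟩
      set z := θ₂.symm xG with hz
      have hz2 : θ₂ z = xG := by simp [hz]
      have hzU : (z : GL D.Idx F) ∈ D.posUnipotent F := by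
        rw [← hU2 z, hz2]
        exact X_mem_U hR hT h2 1
      have hzV : (z : GL D.Idx F) ∈ D.negUnipotent F := by
        rw [key z, hz2]
        have h4 := h3 (κ⁻¹ * 1)
        rw [← mul_assoc, mul_inv_cancel₀ hκ0, one_mul] at h4
        have e5 : ((m'⁻¹ * xG * m' : ↥(D.group F)) : GL D.Idx F) =
            X hR.toAddRel s (κ⁻¹ * 1) := by
          show (m' : GL D.Idx F)⁻¹ * X hR.toAddRel (σ s) 1 * (m' : GL D.Idx F) = _
          rw [← h4]
          group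
        rw [e5]
        exact X_mem_U hR hT hs _
      have hz1 : z = 1 := Subtype.ext (U_inf_V hR hT hzU hzV)
      rw [hz1, map_one] at hz2
      have := congrArg Subtype.val hz2
      exact X_ne_one hR hT (σ s).isLt one_ne_zero this.symm
    · exact h2
  have hm2 := moving_opp hR hT hσ hκ hpos
  refine ⟨uG, hU2, fun g => ?_⟩
  rw [key g]
  have e6 := hm2.1 (((m'⁻¹ * θ₂ g * m' : ↥(D.group F)) : GL D.Idx F))
  rw [← e6]
  have e7 : (m' : GL D.Idx F) * ((m'⁻¹ * θ₂ g * m' : ↥(D.group F)) : GL D.Idx F) * (m' : GL D.Idx F)⁻¹ =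
      ((θ₂ g : ↥(D.group F)) : GL D.Idx F) := by
    show (m' : GL D.Idx F) * ((m' : GL D.Idx F)⁻¹ * ((θ₂ g : ↥(D.group F)) : GL D.Idx F) * (m' : GL D.Idx F)) * (m' : GL D.Idx F)⁻¹ = _
    group
  rw [e7]

end Cfsg.Agent.Lib.ChevAut.Inner
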