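import Cfsg.Agent.Lib.ChevAut.Basic
import Cfsg.Agent.Lib.ChevAut.Coef

/-!
# Normalising an automorphism which permutes the fundamental root groups

An automorphism sending `X_{±p_i}` to `X_{±p_{π i}}` is, after a diagonal automorphism, of the form
`x_{±p_i}(t) ↦ x_{±p_{π i}}(σ_i t)` with field automorphisms `σ_i`.
-/

set_option autoImplicit false
set_option linter.unusedSectionVars false

namespace Cfsg.Agent.Lib.ChevAut

open Cfsg.Lie Matrix
open Cfsg.Agent.Lib.Chevalley.SL2Hom (w h Rel)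
open Cfsg.Agent.Lib.Chevalley
open Cfsg.Agent.Lib.ChevBN.Elem Cfsg.Agent.Lib.ChevBN.Entries Cfsg.Agent.Lib.ChevBN.Table
open Cfsg.Agent.Lib.ChevBN.Collect Cfsg.Agent.Lib.ChevBN.Rel Cfsg.Agent.Lib.ChevBN.Torus
open Cfsg.Agent.Lib.ChevBN.Monomial Cfsg.Agent.Lib.ChevBN.Pair

noncomputable section

variable {D : ChevalleyDatum} {F : Type*} [Field F] {η : ℕ → ℕ → ℤ}
variable (hR : Sys D F η)

/-- The normal form of an automorphism on the fundamental root elements. -/
structure IsNorm (θ : ↥(D.group F) ≃* ↥(D.group F)) (π : Equiv.Perm (Fin D.rank)) (σ : Fin D.rank → F ≃+* F) :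
    Prop where
  pos : ∀ (i : Fin D.rank) (t : F), θ (XG hR.toAddRel (D.simple i) t) = XG hR.toAddRel (D.simple (π i)) (σ i t)
  neg : ∀ (i : Fin D.rank) (t : F),
    θ (XG hR.toAddRel (D.neg (D.simple i)) t) = XG hR.toAddRel (D.neg (D.simple (π i))) (σ i t)

variable (hT : Tbl D) (hc : ∀ i < D.rank, D.cartan i (D.simple i) = 2) (hη : ∀ i < D.rank, η i (D.simple i) = -1)
variable (hck : CharDiag.chainCk D = true)

include hT hc hη hck in
/-- Normalising by a diagonal automorphism. -/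
theorem exists_norm [Finite F] (hD : D ∈ [chevG2, chevB2, chevD4, chevF4, chevE6, chevE7, chevE8])
    (θ : ↥(D.group F) ≃* ↥(D.group F)) (π : Equiv.Perm (Fin D.rank))
    (hp : ∀ (i : Fin D.rank) (t : F), ∃ u, θ (XG hR.toAddRel (D.simple i) t) = XG hR.toAddRel (D.simple (π i)) u)
    (hn : ∀ (i : Fin D.rank) (t : F),
      ∃ u, θ (XG hR.toAddRel (D.neg (D.simple i)) t) = XG hR.toAddRel (D.neg (D.simple (π i))) u) :
    ∃ (χ : ℕ → Fˣ) (hχ : D.IsRootCharacter χ) (σ : Fin D.rank → F ≃+* F),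
      IsNorm hR (θ.trans (dAut hR hT hck hχ)) π σ := by
  choose φ hφ using hp
  choose ψ hψ using hn
  have hsimp : ∀ i : Fin D.rank, D.simple i < D.nroots := fun i => hT.simple_lt i.2
  have hφinj : ∀ i, Function.Injective (φ i) := by
    intro i a b hab
    have h1 : θ (XG hR.toAddRel (D.simple i) a) = θ (XG hR.toAddRel (D.simple i) b) := by
      rw [hφ, hφ, hab]
    exact XG_inj hR hT (hsimp i) (θ.injective h1)
  have hφ1 : ∀ i, φ i 1 ≠ 0 := by
    intro i h0
    have h1 : φ i 1 = φ i 0 := by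
      rw [h0]
      have h2 : θ (XG hR.toAddRel (D.simple i) 0) = XG hR.toAddRel (D.simple (π i)) (φ i 0) := hφ i 0
      rw [XG_zero, map_one] at h2
      exact XG_inj hR hT (hsimp (π i)) (by rw [XG_zero]; exact h2)
    exact one_ne_zero (hφinj i h1)
  -- the values of the character on the fundamental roots
  let c : ℕ → Fˣ := fun j => if hj : j < D.rank then (Units.mk0 _ (hφ1 (π.symm ⟨j, hj⟩)))⁻¹ else 1
  obtain ⟨χ, hχ, hχs⟩ := exists_char hD c
  have hc' : ∀ i : Fin D.rank, (χ (D.simple (π i)) : F) * φ i 1 = 1 := by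
    intro i
    rw [hχs _ (π i).2]
    simp only [c, (π i).2, dif_pos, Fin.eta, Equiv.symm_apply_apply]
    simp [Units.val_inv_eq_inv_val, hφ1 i]
  set θ₃ := θ.trans (dAut hR hT hck hχ) with hθ₃
  let φ' : Fin D.rank → F → F := fun i t => (χ (D.simple (π i)) : F) * φ i t
  let ψ' : Fin D.rank → F → F := fun i t => (χ (D.neg (D.simple (π i))) : F) * ψ i t
  have hφ' : ∀ (i : Fin D.rank) (t : F), θ₃ (XG hR.toAddRel (D.simple i) t) = XG hR.toAddRel (D.simple (π i)) (φ' i t) := by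
    intro i t
    rw [hθ₃, MulEquiv.trans_apply, hφ, dAut_XG _ _ _ hχ (hsimp _)]
  have hψ' : ∀ (i : Fin D.rank) (t : F), θ₃ (XG hR.toAddRel (D.neg (D.simple i)) t) =
      XG hR.toAddRel (D.neg (D.simple (π i))) (ψ' i t) := by
    intro i t
    rw [hθ₃, MulEquiv.trans_apply, hψ, dAut_XG _ _ _ hχ (hT.neg_lt (hsimp _))]
  have hex : ∀ i, ∃ σ : F ≃+* F, (∀ t, φ' i t = σ t) ∧ (∀ t, ψ' i t = σ t) := by
    intro i
    refine Rank1.exists_ringEquiv (rel_XG hR hT hc hη (hsimp i)) (rel_XG hR hT hc hη (hsimp (π i)))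
      θ₃.toMonoidHom (hφ' i) (hψ' i) ?_ ?_ ?_ ?_ (hc' i)
    · intro τ v he
      exact X_sep hR hT (hT.simple_pos _ (π i).2) (congrArg Subtype.val he)
    · intro a b he
      exact XG_inj hR hT (hsimp _) he
    · intro a b he
      exact XG_inj hR hT (hT.neg_lt (hsimp _)) he
    · intro a b he
      have h1 : φ i a = φ i b := mul_left_cancel₀ (Units.ne_zero _) he
      exact hφinj i h1
  choose σ hσ1 hσ2 using hex
  refine ⟨χ, hχ, σ, ⟨fun i t => ?_, fun i t => ?_⟩⟩
  · rw [hφ', hσ1]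
  · rw [hψ', hσ2]

variable {hR} {θ : ↥(D.group F) ≃* ↥(D.group F)} {π : Equiv.Perm (Fin D.rank)} {σ : Fin D.rank → F ≃+* F}

theorem IsNorm.map_w (hN : IsNorm hR θ π σ) (i : Fin D.rank) (t : F) :
    θ (w (XG hR.toAddRel (D.simple i)) (XG hR.toAddRel (D.neg (D.simple i))) t) =
      w (XG hR.toAddRel (D.simple (π i))) (XG hR.toAddRel (D.neg (D.simple (π i)))) (σ i t) := by
  simp only [SL2Hom.w, map_mul, hN.pos, hN.neg, map_neg, map_inv₀]

theorem IsNorm.map_h (hN : IsNorm hR θ π σ) (i : Fin D.rank) (t : F) :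
    θ (h (XG hR.toAddRel (D.simple i)) (XG hR.toAddRel (D.neg (D.simple i))) t) =
      h (XG hR.toAddRel (D.simple (π i))) (XG hR.toAddRel (D.neg (D.simple (π i)))) (σ i t) := by
  simp only [SL2Hom.h, map_mul, hN.map_w, map_neg, map_one]

/-- The inverse of an automorphism in normal form. -/
theorem IsNorm.symm (hN : IsNorm hR θ π σ) :
    IsNorm hR θ.symm π.symm (fun i => (σ (π.symm i)).symm) := by
  refine ⟨fun i t => ?_, fun i t => ?_⟩
  · rw [MulEquiv.symm_apply_eq, hN.pos]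
    simp
  · rw [MulEquiv.symm_apply_eq, hN.neg]
    simp

variable (hR) in
include hT in
/-- The key relation between the field automorphisms. -/
theorem IsNorm.star (hN : IsNorm hR θ π σ) (i j : Fin D.rank) {s : F} (hs : s ≠ 0) :
    (σ i s) ^ D.cartan (π i) (D.simple (π j)) = (σ j s) ^ D.cartan i (D.simple j) := by
  have h1 : h (XG hR.toAddRel (D.simple i)) (XG hR.toAddRel (D.neg (D.simple i))) s * XG hR.toAddRel (D.simple j) 1 *
      (h (XG hR.toAddRel (D.simple i)) (XG hR.toAddRel (D.neg (D.simple i))) s)⁻¹ =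
      XG hR.toAddRel (D.simple j) (s ^ D.cartan i (D.simple j) * 1) :=
    Subtype.ext (hG_simple_conj hR i.2 (hT.simple_lt j.2) hs 1)
  have hs' : σ i s ≠ 0 := by simpa using hs
  have h2 : h (XG hR.toAddRel (D.simple (π i))) (XG hR.toAddRel (D.neg (D.simple (π i)))) (σ i s) *
      XG hR.toAddRel (D.simple (π j)) 1 *
      (h (XG hR.toAddRel (D.simple (π i))) (XG hR.toAddRel (D.neg (D.simple (π i)))) (σ i s))⁻¹ =
      XG hR.toAddRel (D.simple (π j)) ((σ i s) ^ D.cartan (π i) (D.simple (π j)) * 1) :=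
    Subtype.ext (hG_simple_conj hR (π i).2 (hT.simple_lt (π j).2) hs' 1)
  have h3 := congrArg θ h1
  rw [map_mul, map_mul, map_inv, hN.map_h, hN.pos, map_one, h2, hN.pos] at h3
  simp only [mul_one] at h3
  rw [map_zpow₀] at h3
  have h4 := XG_inj hR hT (hT.simple_lt (π j).2) h3
  rw [h4]

include hT in
theorem reflect_eq_of_cartan_zero {i j : ℕ} (hi : i < D.rank) (hj : j < D.rank) (hij : i ≠ j)
    (h0 : D.cartan i (D.simple j) = 0) : D.reflectRoot i (D.simple j) = D.simple j := by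
  have h1 : D.simple j ≠ D.simple i := fun h => hij (hT.simple_inj j hj i hi h).symm
  have h2 : D.simple j ≠ D.neg (D.simple i) :=
    hT.pos_ne_neg (hT.simple_pos j hj) (hT.neg_of_pos (hT.simple_pos i hi))
  simp [ChevalleyDatum.reflectRoot, h1, h2, h0]

include hT hc in
theorem cartan_eq_zero_of_reflect_eq {i s : ℕ} (hi : i < D.rank) (hs : s < D.nroots)
    (h0 : D.reflectRoot i s = s) : D.cartan i s = 0 := by
  have h1 := hT.cartan_w i hi i hi s hs
  rw [h0, hc i hi] at h1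
  omega

variable (hR) in
include hT hc in
/-- An automorphism in normal form preserves the vanishing of Cartan integers. -/
theorem IsNorm.cartan_zero (hN : IsNorm hR θ π σ) {i j : Fin D.rank} (hij : i ≠ j)
    (h0 : D.cartan i (D.simple j) = 0) : D.cartan (π i) (D.simple (π j)) = 0 := by
  have hpj := hT.simple_lt j.2
  have hpj' := hT.simple_lt (π j).2
  have h1 := A_conj_X hR i.2 hpj (1 : F)
  rw [reflect_eq_of_cartan_zero hT i.2 j.2 (fun h => hij (Fin.ext h)) h0] at h1
  have h1' : w (XG hR.toAddRel (D.simple i)) (XG hR.toAddRel (D.neg (D.simple i))) 1 *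
      XG hR.toAddRel (D.simple j) 1 * (w (XG hR.toAddRel (D.simple i)) (XG hR.toAddRel (D.neg (D.simple i))) 1)⁻¹ =
      XG hR.toAddRel (D.simple j) ((η i (D.simple j) : F) * 1) := Subtype.ext h1
  have h2 := congrArg θ h1'
  rw [map_mul, map_mul, map_inv, hN.map_w, hN.pos, hN.pos, map_one, map_one] at h2
  have h3 : w (XG hR.toAddRel (D.simple (π i))) (XG hR.toAddRel (D.neg (D.simple (π i)))) 1 *
      XG hR.toAddRel (D.simple (π j)) 1 *
      (w (XG hR.toAddRel (D.simple (π i))) (XG hR.toAddRel (D.neg (D.simple (π i)))) 1)⁻¹ =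
      XG hR.toAddRel (D.reflectRoot (π i) (D.simple (π j))) ((η (π i) (D.simple (π j)) : F) * 1) :=
    Subtype.ext (A_conj_X hR (π i).2 hpj' (1 : F))
  rw [h3] at h2
  have hne : (π i).val ≠ (π j).val := fun h => hij (π.injective (Fin.ext h))
  have hs' : D.simple (π j) ≠ D.simple (π i) := fun h => hne (hT.simple_inj _ (π j).2 _ (π i).2 h).symm
  have hw := hT.w_pos _ (π i).2 _ (hT.simple_pos _ (π j).2) hs'
  have hne0 : ((η (π i) (D.simple (π j)) : ℤ) : F) * 1 ≠ 0 := by
    rw [mul_one]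
    exact eta_ne hR (π i).2 hpj'
  have h4 := X_pos_inj hR hT hw (hT.simple_pos _ (π j).2) hne0 (congrArg Subtype.val h2)
  exact cartan_eq_zero_of_reflect_eq hT hc (π i).2 hpj' h4

variable (hR) in
include hT hc in
theorem IsNorm.cartan_zero_iff (hN : IsNorm hR θ π σ) {i j : Fin D.rank} (hij : i ≠ j) :
    D.cartan (π i) (D.simple (π j)) = 0 ↔ D.cartan i (D.simple j) = 0 := by
  refine ⟨fun h0 => ?_, hN.cartan_zero hR hT hc hij⟩
  have hne : π i ≠ π j := fun h => hij (π.injective h)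
  have := hN.symm.cartan_zero hR hT hc hne h0
  simpa using this

end

end Cfsg.Agent.Lib.ChevAut
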