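import Cfsg.Agent.Lib.ChevAut.Collapse
import Cfsg.Agent.Lib.ChevAut.Field
import Cfsg.Prelude.Def_ChevB2
import Cfsg.Agent.Lib.Chevalley.AllEta

/-!
# An automorphism permuting the fundamental root groups is diagonal · graph · field
-/

set_option autoImplicit false
set_option linter.unusedSectionVars false
set_option maxRecDepth 100000
set_option synthInstance.maxSize 100000
set_option synthInstance.maxHeartbeats 0

namespace Cfsg.Agent.Lib.ChevAut

open Cfsg.Lie Matrix
open Cfsg.Agent.Lib.ChevBN.Elem Cfsg.Agent.Lib.ChevBN.Table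
open Cfsg.Agent.Lib.ChevBN.Rel Cfsg.Agent.Lib.ChevBN.FastData

noncomputable section

/-- The check for one root length. -/
def slCk (D : ChevalleyDatum) : Bool :=
  (List.range D.rank).all fun i => (List.range D.rank).all fun j =>
    (i == j) || ((D.cartan i (D.simple j) == 0) && (D.cartan j (D.simple i) == 0)) ||
      ((D.cartan i (D.simple j) == -1) && (D.cartan j (D.simple i) == -1))

theorem of_slCk {D : ChevalleyDatum} (h : slCk D = true) (i j : Fin D.rank) (hij : i ≠ j) :
    (D.cartan i (D.simple j) = 0 ∧ D.cartan j (D.simple i) = 0) ∨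
      (D.cartan i (D.simple j) = -1 ∧ D.cartan j (D.simple i) = -1) := by
  simp only [slCk, List.all_eq_true, List.mem_range] at h
  have := h i i.2 j j.2
  simp only [Bool.or_eq_true, Bool.and_eq_true, beq_iff_eq] at this
  rcases this with (h1 | h1) | h1
  · exact absurd (Fin.ext h1) hij
  · exact Or.inl h1
  · exact Or.inr h1

/-- The check that no fundamental root is long. -/
def longCk (D : ChevalleyDatum) : Bool :=
  (List.range D.rank).all fun i => !(D.isLong (D.simple i))

theorem of_longCk {D : ChevalleyDatum} (h : longCk D = true) (i : Fin D.rank) : D.isLong (D.simple i) = false := by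
  simp only [longCk, List.all_eq_true, List.mem_range, Bool.not_eq_true'] at h
  exact h i i.2

theorem slCk_D4 : slCk chevD4 = true := by decide +kernel
theorem slCk_E6 : slCk chevE6 = true := by decide +kernel
theorem slCk_E7 : slCk chevE7 = true := by decide +kernel
theorem slCk_E8 : slCk chevE8 = true := by decide +kernel
theorem longCk_D4 : longCk chevD4 = true := by decide +kernel
theorem longCk_E6 : longCk chevE6 = true := by decide +kernel
theorem longCk_E7 : longCk chevE7 = true := by decide +kernel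
theorem longCk_E8 : longCk chevE8 = true := by decide +kernel

/-! ### Type `F₄` -/

theorem tuples_F4 : ∀ a b c d : Fin 4, a ≠ b → a ≠ c → a ≠ d → b ≠ c → b ≠ d → c ≠ d →
    chevF4.cartan a (chevF4.simple c) = 0 → chevF4.cartan a (chevF4.simple d) = 0 →
    chevF4.cartan b (chevF4.simple d) = 0 →
    (a = 0 ∧ b = 1 ∧ c = 2 ∧ d = 3) ∨ (a = 3 ∧ b = 2 ∧ c = 1 ∧ d = 0) := by
  decide +kernel

theorem symm_F4 (a b c d : Fin 4) (h : (a = 0 ∧ b = 1 ∧ c = 2 ∧ d = 3) ∨ (a = 3 ∧ b = 2 ∧ c = 1 ∧ d = 0)) :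
    ∀ i j : Fin 4, i ≠ j → chevF4.bonds ((![a, b, c, d] : Fin 4 → Fin 4) i) ((![a, b, c, d] : Fin 4 → Fin 4) j) = chevF4.bonds i j := by
  rcases h with ⟨rfl, rfl, rfl, rfl⟩ | ⟨rfl, rfl, rfl, rfl⟩ <;> decide +kernel

theorem fin4_eq (π : Fin 4 → Fin 4) (i : Fin 4) : π i = (![π 0, π 1, π 2, π 3] : Fin 4 → Fin 4) i := by
  fin_cases i <;> rfl

theorem fin4_all {P : Fin 4 → Prop} (h0 : P 0) (h1 : P 1) (h2 : P 2) (h3 : P 3) (i : Fin 4) : P i := by
  fin_cases i <;> assumption

section F4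

variable {F : Type*} [Field F] {η : ℕ → ℕ → ℤ} (hR : Sys chevF4 F η)
  {θ : ↥(chevF4.group F) ≃* ↥(chevF4.group F)} {π : Equiv.Perm (Fin 4)} {σ : Fin 4 → F ≃+* F}

theorem collapse_F4 (hc : ∀ i < chevF4.rank, chevF4.cartan i (chevF4.simple i) = 2)
    (hN : IsNorm (D := chevF4) hR θ π σ) :
    chevF4.IsDiagramSymmetry π ∧ ∃ σ₀ : F ≃+* F, ∀ (i : Fin 4) (t : F),
      σ i t = (σ₀ t) ^ chevF4.graphExp (ringChar F) i (π i) := by
  have hT := tbl_chevF4
  have hne : ∀ i j : Fin 4, i ≠ j → π i ≠ π j := fun i j h h' => h (π.injective h')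
  have hz : ∀ (i j : Fin 4), i ≠ j → chevF4.cartan i (chevF4.simple j) = 0 → chevF4.cartan (π i) (chevF4.simple (π j)) = 0 :=
    fun i j hij h => IsNorm.cartan_zero (D := chevF4) hR hT hc hN hij h
  have h := tuples_F4 (π 0) (π 1) (π 2) (π 3) (hne _ _ (by decide)) (hne _ _ (by decide))
    (hne _ _ (by decide)) (hne _ _ (by decide)) (hne _ _ (by decide)) (hne _ _ (by decide))
    (hz 0 2 (by decide) (by decide +kernel)) (hz 0 3 (by decide) (by decide +kernel))
    (hz 1 3 (by decide) (by decide +kernel))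
  have hsymm : chevF4.IsDiagramSymmetry π := by
    intro i j hij
    have := symm_F4 _ _ _ _ h i j hij
    rw [← fin4_eq π i, ← fin4_eq π j] at this
    exact this
  refine ⟨hsymm, ?_⟩
  have star : ∀ (i j a b : Fin 4), π i = a → π j = b → ∀ {s : F}, s ≠ 0 →
      (σ i s) ^ chevF4.cartan (a : ℕ) (chevF4.simple (b : ℕ)) = (σ j s) ^ chevF4.cartan (i : ℕ) (chevF4.simple (j : ℕ)) := by
    intro i j a b ha hb s hs
    subst ha hb
    exact IsNorm.star (D := chevF4) hR hT hN i j hs
  have h01 : chevF4.cartan ((0 : Fin 4) : ℕ) (chevF4.simple ((1 : Fin 4) : ℕ)) = -1 := by decide +kernel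
  have h12 : chevF4.cartan ((1 : Fin 4) : ℕ) (chevF4.simple ((2 : Fin 4) : ℕ)) = -2 := by decide +kernel
  have h21 : chevF4.cartan ((2 : Fin 4) : ℕ) (chevF4.simple ((1 : Fin 4) : ℕ)) = -1 := by decide +kernel
  have h10 : chevF4.cartan ((1 : Fin 4) : ℕ) (chevF4.simple ((0 : Fin 4) : ℕ)) = -1 := by decide +kernel
  have h23 : chevF4.cartan ((2 : Fin 4) : ℕ) (chevF4.simple ((3 : Fin 4) : ℕ)) = -1 := by decide +kernel
  have h32 : chevF4.cartan ((3 : Fin 4) : ℕ) (chevF4.simple ((2 : Fin 4) : ℕ)) = -1 := by decide +kernel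
  have ge : ∀ (i a : Fin 4), π i = a → (chevF4.isLong (chevF4.simple (a : ℕ)) && !chevF4.isLong (chevF4.simple (i : ℕ))) = false →
      chevF4.graphExp (ringChar F) (i : ℕ) (π i : ℕ) = 1 := by
    intro i a ha h'
    subst ha
    rw [ChevalleyDatum.graphExp, h']
    simp
  have ge' : ∀ (i a : Fin 4), π i = a → (chevF4.isLong (chevF4.simple (a : ℕ)) && !chevF4.isLong (chevF4.simple (i : ℕ))) = true →
      chevF4.graphExp (ringChar F) (i : ℕ) (π i : ℕ) = ringChar F := by
    intro i a ha h'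
    subst ha
    rw [ChevalleyDatum.graphExp, h']
    simp
  rcases h with ⟨e0, e1, e2, e3⟩ | ⟨e0, e1, e2, e3⟩
  · have s01 : σ 0 = σ 1 := by
      apply ringEquiv_eq_of_inv
      intro s hs
      have := star 0 1 0 1 e0 e1 hs
      rwa [h01] at this
    have s21 : σ 2 = σ 1 := by
      apply ringEquiv_eq_of_inv
      intro s hs
      have := star 2 1 2 1 e2 e1 hs
      rwa [h21] at this
    have s23 : σ 2 = σ 3 := by
      apply ringEquiv_eq_of_inv
      intro s hs
      have := star 2 3 2 3 e2 e3 hs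
      rwa [h23] at this
    refine ⟨σ 1, fun i t => ?_⟩
    revert i
    apply fin4_all
    · rw [ge 0 0 e0 (by decide +kernel), s01, pow_one]
    · rw [ge 1 1 e1 (by decide +kernel), pow_one]
    · rw [ge 2 2 e2 (by decide +kernel), s21, pow_one]
    · rw [ge 3 3 e3 (by decide +kernel), ← s23, s21, pow_one]
  · have s01 : σ 0 = σ 1 := by
      apply ringEquiv_eq_of_inv
      intro s hs
      have := star 0 1 3 2 e0 e1 hs
      rwa [h32, h01] at this
    have s23 : σ 2 = σ 3 := by
      apply ringEquiv_eq_of_inv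
      intro s hs
      have := star 2 3 1 0 e2 e3 hs
      rwa [h10, h23] at this
    have s12 : ∀ t, σ 1 t = (σ 2 t) ^ 2 := by
      apply ringEquiv_pow_of (m := 2) (by decide)
      intro s hs
      have := star 1 2 2 1 e1 e2 hs
      rwa [h21, h12] at this
    have s12' := ringEquiv_pow_char (Or.inl rfl) s12
    refine ⟨σ 2, fun i t => ?_⟩
    revert i
    apply fin4_all
    · rw [ge' 0 3 e0 (by decide +kernel), s01, s12']
    · rw [ge' 1 2 e1 (by decide +kernel), s12']
    · rw [ge 2 1 e2 (by decide +kernel), pow_one]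
    · rw [ge 3 0 e3 (by decide +kernel), s23, pow_one]

end F4

/-! ### All types -/

theorem fin2_ne : (0 : Fin 2) ≠ 1 := by decide

theorem fin2_all : ∀ x : Fin 2, x = 0 ∨ x = 1 := by decide

variable {D : ChevalleyDatum} {F : Type*} [Field F] {η : ℕ → ℕ → ℤ}

/-- The collapse for all seven types. -/
theorem collapse (hD : D ∈ [chevG2, chevB2, chevD4, chevF4, chevE6, chevE7, chevE8]) (hR : Sys D F η)
    {θ : ↥(D.group F) ≃* ↥(D.group F)} {π : Equiv.Perm (Fin D.rank)} {σ : Fin D.rank → F ≃+* F}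
    (hN : IsNorm hR θ π σ) :
    D.IsDiagramSymmetry π ∧ ∃ σ₀ : F ≃+* F, ∀ (i : Fin D.rank) (t : F),
      σ i t = (σ₀ t) ^ D.graphExp (ringChar F) i (π i) := by
  have hc := Chevalley.AllEta.cartan_self D hD
  simp only [List.mem_cons, List.not_mem_nil, or_false] at hD
  rcases hD with rfl | rfl | rfl | rfl | rfl | rfl | rfl
  · exact collapse_two hR tbl_chevG2 (0 : Fin 2) (1 : Fin 2) fin2_ne fin2_all (m := 3) (Or.inr rfl) hN
      (by decide +kernel) (by decide +kernel) (by decide +kernel) (by decide +kernel)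
  · exact collapse_two hR tbl_chevB2 (0 : Fin 2) (1 : Fin 2) fin2_ne fin2_all (m := 2) (Or.inl rfl) hN
      (by decide +kernel) (by decide +kernel) (by decide +kernel) (by decide +kernel)
  · exact collapse_sl hR tbl_chevD4 hc tbl2_chevD4 hN (by decide +kernel) (of_slCk slCk_D4) (of_longCk longCk_D4)
  · exact collapse_F4 hR hc hN
  · exact collapse_sl hR tbl_chevE6 hc tbl2_chevE6 hN (by decide +kernel) (of_slCk slCk_E6) (of_longCk longCk_E6)
  · exact collapse_sl hR tbl_chevE7 hc tbl2_chevE7 hN (by decide +kernel) (of_slCk slCk_E7) (of_longCk longCk_E7)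
  · exact collapse_sl hR tbl_chevE8 hc tbl2_chevE8 hN (by decide +kernel) (of_slCk slCk_E8) (of_longCk longCk_E8)

/-- An automorphism permuting the root groups of the fundamental roots and of their negatives is a
product of a diagonal, a graph and a field automorphism. -/
theorem normalize_of_perm [Finite F] (D : ChevalleyDatum)
    (hD : D ∈ [chevG2, chevB2, chevD4, chevF4, chevE6, chevE7, chevE8])
    (θ : ↥(D.group F) ≃* ↥(D.group F)) (π : Equiv.Perm (Fin D.rank))
    (hp : ∀ (i : Fin D.rank) (t : F) (g : ↥(D.group F)),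
      ((g : GL D.Idx F) : Matrix D.Idx D.Idx F) = D.x F (D.simple i) t →
        ∃ u, ((θ g : GL D.Idx F) : Matrix D.Idx D.Idx F) = D.x F (D.simple (π i)) u)
    (hn : ∀ (i : Fin D.rank) (t : F) (g : ↥(D.group F)),
      ((g : GL D.Idx F) : Matrix D.Idx D.Idx F) = D.x F (D.neg (D.simple i)) t →
        ∃ u, ((θ g : GL D.Idx F) : Matrix D.Idx D.Idx F) = D.x F (D.neg (D.simple (π i))) u) :
    ∃ d g f : ↥(D.group F) ≃* ↥(D.group F),
      D.IsDiagonalAut d ∧ D.IsGraphAut g ∧ D.IsFieldAut f ∧ ∀ y : ↥(D.group F), θ y = d (g (f y)) := by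
  obtain ⟨η, hS, hη⟩ := Chevalley.AllEta.exists_sys_eta.{u_1} D hD
  have hR := hS F
  have hT := tbl_of_mem hD
  have hc := Chevalley.AllEta.cartan_self D hD
  have hck := Chevalley.CharDiag.ck_of_mem hD
  obtain ⟨χ, hχ, σ, hN⟩ := exists_norm hR hT hc hη hck hD θ π
    (fun i t => by
      obtain ⟨u, hu⟩ := hp i t (XG hR.toAddRel _ t) rfl
      exact ⟨u, (eq_XG hR.toAddRel).1 hu⟩)
    (fun i t => by
      obtain ⟨u, hu⟩ := hn i t (XG hR.toAddRel _ t) rfl
      exact ⟨u, (eq_XG hR.toAddRel).1 hu⟩)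
  obtain ⟨hπ, σ₀, hσ₀⟩ := collapse hD hR hN
  set θ₃ := θ.trans (dAut hR hT hck hχ) with hθ₃
  refine ⟨dAut hR hT hck (Chevalley.CharDiag.inv_char hχ), (fAut hR.toAddRel σ₀).symm.trans θ₃, fAut hR.toAddRel σ₀,
    isDiagonalAut_dAut _ _ _ _, ⟨π, hπ, fun a i t => ⟨fun ha => ?_, fun ha => ?_⟩⟩, isFieldAut_fAut _ _, fun y => ?_⟩
  · rw [(eq_XG hR.toAddRel).1 ha, MulEquiv.trans_apply, fAut_symm_XG, hN.pos, hσ₀, RingEquiv.apply_symm_apply]
    rfl
  · rw [(eq_XG hR.toAddRel).1 ha, MulEquiv.trans_apply, fAut_symm_XG, hN.neg, hσ₀, RingEquiv.apply_symm_apply]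
    rfl
  · rw [MulEquiv.trans_apply, MulEquiv.symm_apply_apply, hθ₃, MulEquiv.trans_apply,
      ← dAut_symm_eq hR hT hck hχ, MulEquiv.symm_apply_apply]

end

end Cfsg.Agent.Lib.ChevAut
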