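import Cfsg.Agent.Lib.ChevAut.OutTypes
import Cfsg.Agent.Lib.Chevalley.Graph.D4

/-!
# The structure of the outer automorphism group

Given the decomposition of every automorphism as `x · d · g · f`:
the map `Out G → Perm (nodes)` is a homomorphism with kernel `D̄ F̄` and image the set of the
realised symmetries of the diagram.
-/

set_option autoImplicit false
set_option linter.unusedSectionVars false

namespace Cfsg.Agent.Lib.ChevAut.OutStruct

open Cfsg.Lie Matrix
open Cfsg.Agent.Lib.ChevAut Cfsg.Agent.Lib.ChevAut.Count Cfsg.Agent.Lib.ChevAut.OutTypes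
open Cfsg.Agent.Lib.ChevBN.Elem Cfsg.Agent.Lib.ChevBN.Rel Cfsg.Agent.Lib.ChevBN.Table Cfsg.Agent.Lib.ChevBN.FastData
open Cfsg.Agent.Lib.Chevalley

open scoped commutatorElement

universe u

noncomputable section

variable {D : ChevalleyDatum} {F : Type*} [Field F] {η : ℕ → ℕ → ℤ}

/-- `θ` permutes the simple root groups by `π`. -/
structure WP (hA : AddRel D F) (θ : MulAut ↥(D.group F)) (π : Equiv.Perm (Fin D.rank)) : Prop where
  pos : ∀ (i : Fin D.rank) (t : F), ∃ u, θ (XG hA (D.simple i) t) = XG hA (D.simple (π i)) u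
  neg : ∀ (i : Fin D.rank) (t : F), ∃ u, θ (XG hA (D.neg (D.simple i)) t) = XG hA (D.neg (D.simple (π i))) u

theorem wp_of_triple {hA : AddRel D F} {θ : MulAut ↥(D.group F)} {π : Equiv.Perm (Fin D.rank)} {c : Fin D.rank → Fˣ}
    {σ : F ≃+* F} (h : IsTriple hA θ π c σ) : WP hA θ π :=
  ⟨fun i t => ⟨_, (h i t).1⟩, fun i t => ⟨_, (h i t).2⟩⟩

theorem wp_of_graph {hA : AddRel D F} {π : Equiv.Perm (Fin D.rank)} {g : MulAut ↥(D.group F)}
    (h : IsGraphOf hA π g) : WP hA g π :=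
  ⟨fun i t => ⟨_, h.pos i t⟩, fun i t => ⟨_, h.neg i t⟩⟩

theorem WP.mul {hA : AddRel D F} {θ θ' : MulAut ↥(D.group F)} {π π' : Equiv.Perm (Fin D.rank)}
    (h : WP hA θ π) (h' : WP hA θ' π') : WP hA (θ * θ') (π * π') := by
  constructor
  · intro i t
    obtain ⟨u, hu⟩ := h'.pos i t
    obtain ⟨v, hv⟩ := h.pos (π' i) u
    exact ⟨v, by rw [MulAut.mul_apply, hu, hv]; rfl⟩
  · intro i t
    obtain ⟨u, hu⟩ := h'.neg i t
    obtain ⟨v, hv⟩ := h.neg (π' i) u
    exact ⟨v, by rw [MulAut.mul_apply, hu, hv]; rfl⟩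

theorem wp_one {hA : AddRel D F} : WP hA 1 1 :=
  ⟨fun i t => ⟨t, rfl⟩, fun i t => ⟨t, rfl⟩⟩

/-- The simple form of a diagonal automorphism. -/
def IsD (hA : AddRel D F) (θ : MulAut ↥(D.group F)) (c : Fin D.rank → Fˣ) : Prop :=
  ∀ (i : Fin D.rank) (t : F),
    θ (XG hA (D.simple i) t) = XG hA (D.simple i) ((c i : F) * t) ∧
    θ (XG hA (D.neg (D.simple i)) t) = XG hA (D.neg (D.simple i)) (((c i)⁻¹ : Fˣ) * t)

theorem gExp_one (i : Fin D.rank) : gExp D F 1 i = 1 := by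
  simp [gExp, ChevalleyDatum.graphExp]

theorem isD_iff {hA : AddRel D F} {θ : MulAut ↥(D.group F)} {c : Fin D.rank → Fˣ} :
    IsD hA θ c ↔ IsTriple hA θ 1 c (RingEquiv.refl F) := by
  constructor
  · intro h i t
    have h1 := h i t
    simpa [gExp_one] using h1
  · intro h i t
    have h1 := h i t
    simpa [gExp_one] using h1

theorem wp_of_isD {hA : AddRel D F} {θ : MulAut ↥(D.group F)} {c : Fin D.rank → Fˣ} (h : IsD hA θ c) : WP hA θ 1 :=
  ⟨fun i t => ⟨_, (h i t).1⟩, fun i t => ⟨_, (h i t).2⟩⟩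

theorem IsD.mul {hA : AddRel D F} {θ θ' : MulAut ↥(D.group F)} {c c' : Fin D.rank → Fˣ}
    (h : IsD hA θ c) (h' : IsD hA θ' c') : IsD hA (θ * θ') (c * c') := by
  intro i t
  constructor
  · rw [MulAut.mul_apply, (h' i t).1, (h i _).1, Pi.mul_apply, Units.val_mul, mul_assoc]
  · rw [MulAut.mul_apply, (h' i t).2, (h i _).2, Pi.mul_apply, mul_inv, Units.val_mul, mul_assoc]

theorem IsD.inv {hA : AddRel D F} {θ : MulAut ↥(D.group F)} {c : Fin D.rank → Fˣ}
    (h : IsD hA θ c) : IsD hA θ⁻¹ c⁻¹ := by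
  intro i t
  constructor
  · have h1 := (h i (((c i)⁻¹ : Fˣ) * t)).1
    rw [← mul_assoc, ← Units.val_mul, mul_inv_cancel, Units.val_one, one_mul] at h1
    rw [← h1, MulAut.inv_apply_self, Pi.inv_apply]
  · have h1 := (h i ((c i : F) * t)).2
    rw [← mul_assoc, ← Units.val_mul, inv_mul_cancel, Units.val_one, one_mul] at h1
    rw [← h1, MulAut.inv_apply_self, Pi.inv_apply, inv_inv]

theorem IsD.one {hA : AddRel D F} : IsD hA (1 : MulAut ↥(D.group F)) 1 := by
  intro i t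
  constructor
  · simp
  · simp

section Main

variable (hR : Sys D F η) (hT : Tbl D) (hck : CharDiag.chainCk D = true)
include hR hT

include hck in
/-- A diagonal automorphism has the simple form. -/
theorem isD_of_diag {d : MulAut ↥(D.group F)} (hd : D.IsDiagonalAut d) : ∃ c, IsD hR.toAddRel d c := by
  obtain ⟨χ, hχ, hd'⟩ := hd
  have hdX : ∀ r, r < D.nroots → ∀ t, d (XG hR.toAddRel r t) = XG hR.toAddRel r ((χ r : F) * t) := by
    intro r hr t
    apply (eq_XG hR.toAddRel).1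
    rw [hd', XG_coe_mat]
    exact CharDiag.charDiag_conj hck hχ hr t
  refine ⟨fun j => χ (D.simple j), fun i t => ⟨?_, ?_⟩⟩
  · exact hdX _ (hT.simple_lt i.2) t
  · rw [hdX _ (hT.neg_lt (hT.simple_lt i.2)) t, hχ.1 _ (hT.simple_lt i.2)]

include hck in
/-- The simple form is a diagonal automorphism. -/
theorem diag_of_isD (hD : D ∈ [chevG2, chevB2, chevD4, chevF4, chevE6, chevE7, chevE8])
    {θ : MulAut ↥(D.group F)} {c : Fin D.rank → Fˣ} (h : IsD hR.toAddRel θ c) : D.IsDiagonalAut θ := by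
  obtain ⟨χ, hχ, hχs⟩ := exists_char hD (fun j => if hj : j < D.rank then c ⟨j, hj⟩ else 1)
  have hχ' : ∀ j : Fin D.rank, χ (D.simple j) = c j := by
    intro j
    rw [hχs j j.2, dif_pos j.2]
  have : θ = dAut hR hT hck hχ := by
    apply aut_ext hR hT
    · intro i t
      rw [(h i t).1, dAut_XG _ _ _ hχ (hT.simple_lt i.2), hχ']
    · intro i t
      rw [(h i t).2, dAut_XG _ _ _ hχ (hT.neg_lt (hT.simple_lt i.2)), hχ.1 _ (hT.simple_lt i.2), hχ']
  rw [this]
  exact isDiagonalAut_dAut hR hT hck hχ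

include hck in
/-- Elements of the group generated by the diagonal automorphisms. -/
theorem isD_of_mem_closure {φ : MulAut ↥(D.group F)}
    (hφ : φ ∈ Subgroup.closure {φ : MulAut ↥(D.group F) | D.IsDiagonalAut φ}) : ∃ c, IsD hR.toAddRel φ c := by
  induction hφ using Subgroup.closure_induction with
  | mem x hx => exact isD_of_diag hR hT hck hx
  | one => exact ⟨1, IsD.one⟩
  | mul x y _ _ hx hy =>
    obtain ⟨c, hc⟩ := hx
    obtain ⟨c', hc'⟩ := hy
    exact ⟨_, hc.mul hc'⟩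
  | inv x _ hx =>
    obtain ⟨c, hc⟩ := hx
    exact ⟨_, hc.inv⟩

/-- A field automorphism is some `fAut`. -/
theorem field_eq {φ : MulAut ↥(D.group F)} (hφ : D.IsFieldAut φ) : ∃ σ, φ = fAut hR.toAddRel σ := by
  obtain ⟨σ, hσ⟩ := hφ
  refine ⟨σ, aut_ext hR hT (fun i t => ?_) (fun i t => ?_)⟩
  · rw [fAut_XG]
    exact (eq_XG hR.toAddRel).1 (hσ _ _ t (hT.simple_lt i.2) rfl)
  · rw [fAut_XG]
    exact (eq_XG hR.toAddRel).1 (hσ _ _ t (hT.neg_lt (hT.simple_lt i.2)) rfl)

/-- The field automorphisms form a homomorphic image of the automorphisms of the field. -/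
def fHom : (F ≃+* F) →* MulAut ↥(D.group F) :=
  MonoidHom.mk' (fun σ => fAut hR.toAddRel σ) (fun σ τ => by
    apply aut_ext hR hT
    · intro i t
      rw [fAut_XG, MulAut.mul_apply, fAut_XG, fAut_XG]
      rfl
    · intro i t
      rw [fAut_XG, MulAut.mul_apply, fAut_XG, fAut_XG]
      rfl)

theorem fHom_apply (σ : F ≃+* F) : fHom hR hT σ = fAut hR.toAddRel σ := rfl

/-- The group generated by the field automorphisms. -/
theorem closure_field_eq : Subgroup.closure {φ : MulAut ↥(D.group F) | D.IsFieldAut φ} = (fHom hR hT).range := by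
  apply le_antisymm
  · rw [Subgroup.closure_le]
    intro φ hφ
    obtain ⟨σ, rfl⟩ := field_eq hR hT hφ
    exact ⟨σ, rfl⟩
  · rintro _ ⟨σ, rfl⟩
    exact Subgroup.subset_closure (isFieldAut_fAut hR.toAddRel σ)

theorem wp_of_fAut (σ : F ≃+* F) : WP hR.toAddRel (fAut hR.toAddRel σ) 1 :=
  ⟨fun i t => ⟨_, fAut_XG _ _ _ _⟩, fun i t => ⟨_, fAut_XG _ _ _ _⟩⟩

variable [Finite F] (hT2 : Tbl2 D) (hc : ∀ i < D.rank, D.cartan i (D.simple i) = 2)
  (hη : ∀ i < D.rank, η i (D.simple i) = -1)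

include hT2 hc hη in
/-- Inner-equivalent automorphisms permute the simple root groups in the same way. -/
theorem wp_unique {θ θ' : MulAut ↥(D.group F)} {π π' : Equiv.Perm (Fin D.rank)}
    (h : WP hR.toAddRel θ π) (h' : WP hR.toAddRel θ' π')
    {x : ↥(D.group F)} (hx : ∀ y, θ y = x * θ' y * x⁻¹) : π = π' := by
  have hsurj : ∀ (i : Fin D.rank) (t : F), ∃ v, θ' (XG hR.toAddRel (D.simple i) v) = XG hR.toAddRel (D.simple (π' i)) t := by
    intro i t
    choose u hu using h'.pos i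
    have hinj : Function.Injective u := by
      intro a b hab
      have h1 : θ' (XG hR.toAddRel (D.simple i) a) = θ' (XG hR.toAddRel (D.simple i) b) := by
        rw [hu, hu, hab]
      exact XG_inj hR hT (hT.simple_lt i.2) (θ'.injective h1)
    obtain ⟨v, hv⟩ := Finite.surjective_of_injective hinj t
    exact ⟨v, by rw [hu, hv]⟩
  have hsurj' : ∀ (i : Fin D.rank) (t : F), ∃ v, θ' (XG hR.toAddRel (D.neg (D.simple i)) v) = XG hR.toAddRel (D.neg (D.simple (π' i))) t := by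
    intro i t
    choose u hu using h'.neg i
    have hinj : Function.Injective u := by
      intro a b hab
      have h1 : θ' (XG hR.toAddRel (D.neg (D.simple i)) a) = θ' (XG hR.toAddRel (D.neg (D.simple i)) b) := by
        rw [hu, hu, hab]
      exact XG_inj hR hT (hT.neg_lt (hT.simple_lt i.2)) (θ'.injective h1)
    obtain ⟨v, hv⟩ := Finite.surjective_of_injective hinj t
    exact ⟨v, by rw [hu, hv]⟩
  have hxH : (x : GL D.Idx F) ∈ D.diagonalSubgroup F := by
    refine mem_H_of_conj hR hT hT2 (π := π'.symm.trans π) ?_ ?_ hc hη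
    · intro j t
      obtain ⟨v, hv⟩ := hsurj (π'.symm j) t
      obtain ⟨u, hu⟩ := h.pos (π'.symm j) v
      refine ⟨u, ?_⟩
      rw [Equiv.apply_symm_apply] at hv
      rw [← hv, ← hx, hu]
      rfl
    · intro j t
      obtain ⟨v, hv⟩ := hsurj' (π'.symm j) t
      obtain ⟨u, hu⟩ := h.neg (π'.symm j) v
      refine ⟨u, ?_⟩
      rw [Equiv.apply_symm_apply] at hv
      rw [← hv, ← hx, hu]
      rfl
  obtain ⟨e, he⟩ := exists_of_mem_H' hR hT hxH
  ext i
  obtain ⟨u, hu⟩ := h.pos i 1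
  obtain ⟨u', hu'⟩ := h'.pos i 1
  have h2 : XG hR.toAddRel (D.simple (π i)) u = XG hR.toAddRel (D.simple (π' i)) ((cartanHom D F e (π' i) : F) * u') := by
    rw [← hu, hx, hu']
    apply Subtype.ext
    simp only [Subgroup.coe_mul, Subgroup.coe_inv, XG_coe]
    exact (he (π' i) _).1
  have hne : u ≠ 0 := by
    rintro rfl
    rw [XG_zero] at hu
    have h3 : XG hR.toAddRel (D.simple i) (1 : F) = 1 := θ.injective (by rw [hu, map_one])
    have h4 := XG_inj hR hT (hT.simple_lt i.2) (h3.trans (XG_zero hR.toAddRel _).symm)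
    exact one_ne_zero h4
  have h3 := X_pos_inj hR hT (hT.simple_pos _ (π i).2) (hT.simple_pos _ (π' i).2) hne (congrArg Subtype.val h2)
  have h4 := hT.simple_inj _ (π i).2 _ (π' i).2 h3
  rw [h4]

variable (hdec : Decomp D F)

include hT2 hc hη hdec hck in
/-- The homomorphism from `Out G` to the permutations of the nodes. -/
theorem exists_permHom : ∃ P : Cfsg.Out ↥(D.group F) →* Equiv.Perm (Fin D.rank),
    ∀ θ π, WP hR.toAddRel θ π → P (QuotientGroup.mk θ) = π := by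
  classical
  have hex : ∀ a : MulAut ↥(D.group F), ∃ π, ∃ x : ↥(D.group F), WP hR.toAddRel (MulAut.conj x * a) π := by
    intro a
    obtain ⟨x, d, g, f, hd, hg, hf, h⟩ := hdec a
    obtain ⟨π, -, c, σ, h3⟩ := triple_of_decomp hR hT hck hd hg hf
    refine ⟨π, x⁻¹, ?_⟩
    have h4 : MulAut.conj x⁻¹ * a = f.trans (g.trans d) := by
      apply MulEquiv.ext
      intro y
      rw [MulAut.mul_apply, MulAut.conj_apply, h]
      simp only [MulEquiv.trans_apply]
      group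
    rw [h4]
    exact wp_of_triple h3
  choose p hp using hex
  have huniq : ∀ (a : MulAut ↥(D.group F)) (x : ↥(D.group F)) (π : Equiv.Perm (Fin D.rank)),
      WP hR.toAddRel (MulAut.conj x * a) π → p a = π := by
    intro a x π h
    obtain ⟨y, hy⟩ := hp a
    refine wp_unique hR hT hT2 hc hη hy h (x := y * x⁻¹) fun z => ?_
    simp only [MulAut.mul_apply, MulAut.conj_apply]
    group
  have hmul : ∀ a b, p (a * b) = p a * p b := by
    intro a b
    obtain ⟨x, hx⟩ := hp a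
    obtain ⟨y, hy⟩ := hp b
    refine huniq (a * b) (x * a y) _ ?_
    have h4 : MulAut.conj (x * a y) * (a * b) = (MulAut.conj x * a) * (MulAut.conj y * b) := by
      apply MulEquiv.ext
      intro z
      simp only [MulAut.mul_apply, MulAut.conj_apply, map_mul, map_inv]
    rw [h4]
    exact hx.mul hy
  let P0 : MulAut ↥(D.group F) →* Equiv.Perm (Fin D.rank) := MonoidHom.mk' p hmul
  have hinn : Cfsg.Inn ↥(D.group F) ≤ P0.ker := by
    rintro _ ⟨x, rfl⟩
    rw [MonoidHom.mem_ker]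
    refine huniq _ x⁻¹ 1 ?_
    have h4 : MulAut.conj x⁻¹ * MulAut.conj x = 1 := by
      rw [← map_mul]
      simp
    rw [h4]
    exact wp_one
  refine ⟨QuotientGroup.lift (Cfsg.Inn ↥(D.group F)) P0 (fun x hx => hinn hx), fun θ π h => ?_⟩
  rw [QuotientGroup.lift_mk]
  refine huniq θ 1 π ?_
  simpa using h


include hck in
/-- The product of the parts is a triple. -/
theorem triple_of_parts {d g f : MulAut ↥(D.group F)} {π : Equiv.Perm (Fin D.rank)}
    (hd : D.IsDiagonalAut d) (hg' : IsGraphOf hR.toAddRel π g) (hf : D.IsFieldAut f) :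
    ∃ c σ, IsTriple hR.toAddRel (d * g * f) π c σ := by
  obtain ⟨χ, hχ, hd'⟩ := hd
  obtain ⟨σ, hσ⟩ := hf
  have hdX : ∀ r, r < D.nroots → ∀ t, d (XG hR.toAddRel r t) = XG hR.toAddRel r ((χ r : F) * t) := by
    intro r hr t
    apply (eq_XG hR.toAddRel).1
    rw [hd', XG_coe_mat]
    exact CharDiag.charDiag_conj hck hχ hr t
  refine ⟨fun j => χ (D.simple j), σ, fun i t => ⟨?_, ?_⟩⟩
  · have h1 : f (XG hR.toAddRel (D.simple i) t) = XG hR.toAddRel (D.simple i) (σ t) :=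
      (eq_XG hR.toAddRel).1 (hσ _ _ t (hT.simple_lt i.2) rfl)
    simp only [MulAut.mul_apply, h1, hg'.pos]
    rw [hdX _ (hT.simple_lt (π i).2)]
  · have h1 : f (XG hR.toAddRel (D.neg (D.simple i)) t) = XG hR.toAddRel (D.neg (D.simple i)) (σ t) :=
      (eq_XG hR.toAddRel).1 (hσ _ _ t (hT.neg_lt (hT.simple_lt i.2)) rfl)
    simp only [MulAut.mul_apply, h1, hg'.neg]
    rw [hdX _ (hT.neg_lt (hT.simple_lt (π i).2)), hχ.1 _ (hT.simple_lt (π i).2)]

include hdec in
/-- Elements of `Out` have a representative of the form `d g f`. -/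
theorem exists_rep (q : Cfsg.Out ↥(D.group F)) :
    ∃ (d g f : MulAut ↥(D.group F)) (π : Equiv.Perm (Fin D.rank)),
      D.IsDiagonalAut d ∧ IsGraphOf hR.toAddRel π g ∧ D.IsFieldAut f ∧ q = QuotientGroup.mk (d * g * f) := by
  obtain ⟨a, rfl⟩ := QuotientGroup.mk_surjective q
  obtain ⟨x, d, g, f, hd, hg, hf, h⟩ := hdec a
  obtain ⟨π, hg'⟩ := (isGraphOf_iff hR.toAddRel g).1 hg
  refine ⟨d, g, f, π, hd, hg', hf, ?_⟩
  rw [out_eq_iff]
  exact ⟨x, h⟩

include hck in
/-- Conjugates of diagonal automorphisms by triples are diagonal. -/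
theorem conj_isD (hD : D ∈ [chevG2, chevB2, chevD4, chevF4, chevE6, chevE7, chevE8])
    {b φ : MulAut ↥(D.group F)} {π : Equiv.Perm (Fin D.rank)} {c₁ c : Fin D.rank → Fˣ} {σ : F ≃+* F}
    (hb : IsTriple hR.toAddRel b π c₁ σ) (hφ : IsD hR.toAddRel φ c) : ∃ c', IsD hR.toAddRel (b * φ * b⁻¹) c' := by
  let c' : Fin D.rank → Fˣ := fun j => (Units.map (σ : F →* F) (c (π.symm j))) ^ gExp D F π (π.symm j)
  have hc' : ∀ i, ((c' (π i) : Fˣ) : F) = (σ (c i)) ^ gExp D F π i := by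
    intro i
    simp [c']
  obtain ⟨ψ, hψ⟩ := exists_triple hR hT hD hck (one_mem_graphSet hR.toAddRel) c' (RingEquiv.refl F)
  have hψ' := isD_iff.2 hψ
  have key : ψ * b = b * φ := by
    apply aut_ext hR hT
    · intro i t
      rw [MulAut.mul_apply, MulAut.mul_apply, (hb i t).1, (hψ' _ _).1, (hφ i t).1, (hb i _).1, hc']
      congr 1
      rw [map_mul, mul_pow]
      ring_nf
    · intro i t
      rw [MulAut.mul_apply, MulAut.mul_apply, (hb i t).2, (hψ' _ _).2, (hφ i t).2, (hb i _).2,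
        Units.val_inv_eq_inv_val (c' (π i)), hc', Units.val_inv_eq_inv_val (c i), map_mul, map_inv₀, mul_pow, inv_pow]
      ring_nf
  have : b * φ * b⁻¹ = ψ := by
    rw [← key]
    simp
  rw [this]
  exact ⟨c', hψ'⟩

include hck hT2 hc hη hdec in
/-- The structure of `Out`: everything except the list of the symmetries. -/
theorem out_structure_aux (hD : D ∈ [chevG2, chevB2, chevD4, chevF4, chevE6, chevE7, chevE8])
    (Dbar Fbar : Subgroup (Cfsg.Out ↥(D.group F)))
    (hDbar : Dbar = (Subgroup.closure {φ : MulAut ↥(D.group F) | D.IsDiagonalAut φ}).map (QuotientGroup.mk' (Cfsg.Inn ↥(D.group F))))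
    (hFbar : Fbar = (Subgroup.closure {φ : MulAut ↥(D.group F) | D.IsFieldAut φ}).map (QuotientGroup.mk' (Cfsg.Inn ↥(D.group F)))) :
    Dbar.Normal ∧ IsMulCommutative ↥Dbar ∧ IsCyclic ↥Fbar ∧ (Dbar ⊔ Fbar).Normal ∧
      ((Dbar ⊔ Fbar).index = Nat.card (GraphSet hR.toAddRel)) ∧
      (∀ π ∈ GraphSet hR.toAddRel, ∀ π' ∈ GraphSet hR.toAddRel, π * π' ≠ π' * π →
        ¬ commutator (Cfsg.Out ↥(D.group F)) ≤ Dbar ⊔ Fbar) := by
  classical
  have hmemD : ∀ q ∈ Dbar, ∃ φ c, IsD hR.toAddRel φ c ∧ q = QuotientGroup.mk φ := by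
    intro q hq
    rw [hDbar] at hq
    obtain ⟨φ, hφ, rfl⟩ := hq
    obtain ⟨c, hc⟩ := isD_of_mem_closure hR hT hck hφ
    exact ⟨φ, c, hc, rfl⟩
  have hmkD : ∀ φ c, IsD hR.toAddRel φ c → (QuotientGroup.mk φ : Cfsg.Out ↥(D.group F)) ∈ Dbar := by
    intro φ c h
    rw [hDbar]
    exact ⟨φ, Subgroup.subset_closure (diag_of_isD hR hT hck hD h), rfl⟩
  have hmkF : ∀ φ, D.IsFieldAut φ → (QuotientGroup.mk φ : Cfsg.Out ↥(D.group F)) ∈ Fbar := by
    intro φ h
    rw [hFbar]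
    exact ⟨φ, Subgroup.subset_closure h, rfl⟩
  obtain ⟨P, hP⟩ := exists_permHom hR hT hck hT2 hc hη hdec
  have hker : Dbar ⊔ Fbar = P.ker := by
    apply le_antisymm
    · rw [sup_le_iff]
      constructor
      · intro q hq
        obtain ⟨φ, c, h, rfl⟩ := hmemD q hq
        rw [MonoidHom.mem_ker]
        exact hP _ _ (wp_of_isD h)
      · intro q hq
        rw [hFbar, closure_field_eq hR hT] at hq
        obtain ⟨_, ⟨σ, rfl⟩, rfl⟩ := hq
        rw [MonoidHom.mem_ker]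
        exact hP _ _ (wp_of_fAut hR hT σ)
    · intro q hq
      obtain ⟨d, g, f, π, hd, hg, hf, rfl⟩ := exists_rep hR hT hdec q
      rw [MonoidHom.mem_ker] at hq
      obtain ⟨c, hc'⟩ := isD_of_diag hR hT hck hd
      obtain ⟨σ, hσ⟩ := field_eq hR hT hf
      have hπ : π = 1 := by
        rw [← hq]
        symm
        apply hP
        have h1 := (wp_of_isD hc').mul (wp_of_graph hg)
        have h2 := h1.mul (hσ ▸ wp_of_fAut hR hT σ)
        simpa using h2
      subst hπ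
      have hg1 : g = 1 := by
        apply aut_ext hR hT
        · intro i t
          rw [hg.pos, gExp_one, pow_one]
          rfl
        · intro i t
          rw [hg.neg, gExp_one, pow_one]
          rfl
      subst hg1
      rw [mul_one, QuotientGroup.mk_mul]
      exact mul_mem (Subgroup.mem_sup_left (hmkD _ _ hc')) (Subgroup.mem_sup_right (hmkF _ hf))
  have hrange : ∀ π, π ∈ P.range ↔ π ∈ GraphSet hR.toAddRel := by
    intro π
    constructor
    · rintro ⟨q, rfl⟩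
      obtain ⟨d, g, f, π', hd, hg, hf, rfl⟩ := exists_rep hR hT hdec q
      obtain ⟨c, hc'⟩ := isD_of_diag hR hT hck hd
      obtain ⟨σ, hσ⟩ := field_eq hR hT hf
      have h1 := (wp_of_isD hc').mul (wp_of_graph hg)
      have h2 := h1.mul (hσ ▸ wp_of_fAut hR hT σ)
      rw [hP _ _ h2, mul_one, one_mul]
      exact ⟨g, hg⟩
    · rintro ⟨g, hg⟩
      exact ⟨_, hP _ _ (wp_of_graph hg)⟩
  refine ⟨⟨?_⟩, ⟨⟨?_⟩⟩, ?_, ?_, ?_, ?_⟩
  · -- normality
    intro n hn a
    obtain ⟨φ, c, hφ, rfl⟩ := hmemD n hn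
    obtain ⟨d, g, f, π, hd, hg, hf, rfl⟩ := exists_rep hR hT hdec a
    obtain ⟨c₁, σ, hb⟩ := triple_of_parts hR hT hck hd hg hf
    obtain ⟨c', hc'⟩ := conj_isD hR hT hck hD hb hφ
    have := hmkD _ _ hc'
    rwa [QuotientGroup.mk_mul, QuotientGroup.mk_mul, QuotientGroup.mk_inv] at this
  · -- commutativity
    rintro ⟨a, ha⟩ ⟨b, hb⟩
    obtain ⟨φ, c, hφ, rfl⟩ := hmemD a ha
    obtain ⟨φ', c', hφ', rfl⟩ := hmemD b hb
    apply Subtype.ext
    show (QuotientGroup.mk φ * QuotientGroup.mk φ' : Cfsg.Out ↥(D.group F)) = QuotientGroup.mk φ' * QuotientGroup.mk φ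
    rw [← QuotientGroup.mk_mul, ← QuotientGroup.mk_mul]
    congr 1
    apply aut_ext hR hT
    · intro i t
      rw [((hφ.mul hφ') i t).1, ((hφ'.mul hφ) i t).1, mul_comm c c']
    · intro i t
      rw [((hφ.mul hφ') i t).2, ((hφ'.mul hφ) i t).2, mul_comm c c']
  · -- cyclic
    obtain ⟨p, hp⟩ := CharP.exists F
    have hpp : p.Prime := by
      rcases CharP.char_is_prime_or_zero F p with h2 | h2
      · exact h2
      · subst h2
        exact absurd hp (by
          intro h3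
          have := CharP.charP_to_charZero F
          exact not_finite F)
    have : Fact p.Prime := ⟨hpp⟩
    let _ := Fintype.ofFinite F
    have hcyc : IsCyclic (F ≃+* F) := FieldCard.isCyclic_aut p
    rw [hFbar, closure_field_eq hR hT, ← MonoidHom.range_comp]
    exact isCyclic_of_surjective _ (MonoidHom.rangeRestrict_surjective _)
  · rw [hker]
    infer_instance
  · rw [hker, Subgroup.index_ker]
    exact Nat.card_congr (Equiv.subtypeEquivRight hrange)
  · intro π hπ π' hπ' hne hle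
    obtain ⟨a, rfl⟩ := (hrange π).2 hπ
    obtain ⟨b, rfl⟩ := (hrange π').2 hπ'
    apply hne
    have h1 : ⁅a, b⁆ ∈ commutator (Cfsg.Out ↥(D.group F)) := Subgroup.commutator_mem_commutator (Subgroup.mem_top a) (Subgroup.mem_top b)
    have h2 := hle h1
    rw [hker, MonoidHom.mem_ker, map_commutatorElement, commutatorElement_eq_one_iff_mul_comm] at h2
    exact h2

end Main

section Types

variable {F : Type*} [Field F]

theorem card_cases_of_le_two {D : ChevalleyDatum} {hA : AddRel D F} {τ : Equiv.Perm (Fin D.rank)}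
    (h : ∀ π ∈ GraphSet hA, π = 1 ∨ π = τ) : Nat.card (GraphSet hA) = 1 ∨ Nat.card (GraphSet hA) = 2 := by
  by_cases hτ : τ ≠ 1 ∧ τ ∈ GraphSet hA
  · right
    exact card_graphSet_two hτ.1 hτ.2 h
  · left
    apply card_graphSet_one
    intro π hπ
    rcases h π hπ with h1 | h1
    · exact h1
    · subst h1
      by_contra h2
      exact hτ ⟨h2, hπ⟩

/-- The symmetries of the diagram of type `D₄`. -/
def d4P1 : Equiv.Perm (Fin chevD4.rank) := Equiv.swap ⟨0, by decide⟩ ⟨2, by decide⟩ * Equiv.swap ⟨2, by decide⟩ ⟨3, by decide⟩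
def d4P2 : Equiv.Perm (Fin chevD4.rank) := Equiv.swap ⟨2, by decide⟩ ⟨3, by decide⟩ * Equiv.swap ⟨0, by decide⟩ ⟨2, by decide⟩
def d4P3 : Equiv.Perm (Fin chevD4.rank) := Equiv.swap ⟨0, by decide⟩ ⟨2, by decide⟩
def d4P4 : Equiv.Perm (Fin chevD4.rank) := Equiv.swap ⟨0, by decide⟩ ⟨3, by decide⟩
def d4P5 : Equiv.Perm (Fin chevD4.rank) := Equiv.swap ⟨2, by decide⟩ ⟨3, by decide⟩

theorem d4P1_val : ∀ i : Fin chevD4.rank, ((d4P1 i : Fin chevD4.rank) : ℕ) = [2, 1, 3, 0].getD i.val 0 := by decide +kernel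
theorem d4P2_val : ∀ i : Fin chevD4.rank, ((d4P2 i : Fin chevD4.rank) : ℕ) = [3, 1, 0, 2].getD i.val 0 := by decide +kernel
theorem d4P3_val : ∀ i : Fin chevD4.rank, ((d4P3 i : Fin chevD4.rank) : ℕ) = [2, 1, 0, 3].getD i.val 0 := by decide +kernel
theorem d4P4_val : ∀ i : Fin chevD4.rank, ((d4P4 i : Fin chevD4.rank) : ℕ) = [3, 1, 2, 0].getD i.val 0 := by decide +kernel
theorem d4P5_val : ∀ i : Fin chevD4.rank, ((d4P5 i : Fin chevD4.rank) : ℕ) = [0, 1, 3, 2].getD i.val 0 := by decide +kernel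

theorem gExp_D4 (π : Equiv.Perm (Fin chevD4.rank)) (i : Fin chevD4.rank) : gExp chevD4 F π i = 1 := by
  rw [gExp, ChevalleyDatum.graphExp, of_longCk longCk_D4 (π i)]
  simp

theorem d4_mem (hA : AddRel chevD4 F) {π : Equiv.Perm (Fin chevD4.rank)} {l : List ℕ}
    (hl : ∀ i : Fin chevD4.rank, ((π i : Fin chevD4.rank) : ℕ) = l.getD i.val 0)
    (hα : ∃ α : ↥(chevD4.group F) ≃* ↥(chevD4.group F), ∀ (g : ↥(chevD4.group F)) (i : ℕ) (t : F), i < chevD4.rank →
      (((g : GL chevD4.Idx F) : Matrix chevD4.Idx chevD4.Idx F) = chevD4.x F (chevD4.simple i) t →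
        ((α g : GL chevD4.Idx F) : Matrix chevD4.Idx chevD4.Idx F) = chevD4.x F (chevD4.simple (l.getD i 0)) t) ∧
      (((g : GL chevD4.Idx F) : Matrix chevD4.Idx chevD4.Idx F) = chevD4.x F (chevD4.neg (chevD4.simple i)) t →
        ((α g : GL chevD4.Idx F) : Matrix chevD4.Idx chevD4.Idx F) = chevD4.x F (chevD4.neg (chevD4.simple (l.getD i 0))) t))
    (hsym : chevD4.IsDiagramSymmetry π) : π ∈ GraphSet hA := by
  obtain ⟨α, hα⟩ := hα
  refine ⟨α, hsym, fun i t => ?_, fun i t => ?_⟩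
  · rw [gExp_D4, pow_one]
    apply (eq_XG hA).1
    rw [hl i]
    exact (hα _ i t i.2).1 rfl
  · rw [gExp_D4, pow_one]
    apply (eq_XG hA).1
    rw [hl i]
    exact (hα _ i t i.2).2 rfl

theorem d4P1_symm : chevD4.IsDiagramSymmetry d4P1 := by
  show ∀ i j : Fin chevD4.rank, i ≠ j → chevD4.bonds (d4P1 i) (d4P1 j) = chevD4.bonds i j
  decide +kernel
theorem d4P2_symm : chevD4.IsDiagramSymmetry d4P2 := by
  show ∀ i j : Fin chevD4.rank, i ≠ j → chevD4.bonds (d4P2 i) (d4P2 j) = chevD4.bonds i j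
  decide +kernel
theorem d4P3_symm : chevD4.IsDiagramSymmetry d4P3 := by
  show ∀ i j : Fin chevD4.rank, i ≠ j → chevD4.bonds (d4P3 i) (d4P3 j) = chevD4.bonds i j
  decide +kernel
theorem d4P4_symm : chevD4.IsDiagramSymmetry d4P4 := by
  show ∀ i j : Fin chevD4.rank, i ≠ j → chevD4.bonds (d4P4 i) (d4P4 j) = chevD4.bonds i j
  decide +kernel
theorem d4P5_symm : chevD4.IsDiagramSymmetry d4P5 := by
  show ∀ i j : Fin chevD4.rank, i ≠ j → chevD4.bonds (d4P5 i) (d4P5 j) = chevD4.bonds i j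
  decide +kernel

theorem class_perm_D4 {π : Equiv.Perm (Fin chevD4.rank)} (h : chevD4.IsDiagramSymmetry π) :
    π = 1 ∨ π = d4P1 ∨ π = d4P2 ∨ π = d4P3 ∨ π = d4P4 ∨ π = d4P5 := by
  obtain ⟨l, hl, hπ⟩ := Cfsg.Agent.Lib.Chevalley.Graph.class_D4 π h
  have hπ' : ∀ i : Fin chevD4.rank, ((π i : Fin chevD4.rank) : ℕ) = l.getD i.val 0 := hπ
  have ext' : ∀ p : Equiv.Perm (Fin chevD4.rank), (∀ i : Fin chevD4.rank, ((p i : Fin chevD4.rank) : ℕ) = l.getD i.val 0) → π = p := by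
    intro p hp
    apply Equiv.ext
    intro i
    apply Fin.ext
    rw [hπ' i, hp i]
  rcases hl with rfl | rfl | rfl | rfl | rfl | rfl
  · exact Or.inl (ext' 1 (by decide +kernel))
  · exact Or.inr (Or.inl (ext' _ d4P1_val))
  · exact Or.inr (Or.inr (Or.inl (ext' _ d4P2_val)))
  · exact Or.inr (Or.inr (Or.inr (Or.inl (ext' _ d4P3_val))))
  · exact Or.inr (Or.inr (Or.inr (Or.inr (Or.inl (ext' _ d4P4_val)))))
  · exact Or.inr (Or.inr (Or.inr (Or.inr (Or.inr (ext' _ d4P5_val)))))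

/-- All symmetries of `D₄` are realised. -/
theorem mem_graphSet_D4 (hA : AddRel chevD4 F) :
    d4P1 ∈ GraphSet hA ∧ d4P2 ∈ GraphSet hA ∧ d4P3 ∈ GraphSet hA ∧ d4P4 ∈ GraphSet hA ∧ d4P5 ∈ GraphSet hA :=
  ⟨d4_mem hA d4P1_val (Cfsg.Agent.Lib.Chevalley.Tbl.D4.P1.aut hA) d4P1_symm,
   d4_mem hA d4P2_val (Cfsg.Agent.Lib.Chevalley.Tbl.D4.P2.aut hA) d4P2_symm,
   d4_mem hA d4P3_val (Cfsg.Agent.Lib.Chevalley.Tbl.D4.P3.aut hA) d4P3_symm,
   d4_mem hA d4P4_val (Cfsg.Agent.Lib.Chevalley.Tbl.D4.P4.aut hA) d4P4_symm,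
   d4_mem hA d4P5_val (Cfsg.Agent.Lib.Chevalley.Tbl.D4.P5.aut hA) d4P5_symm⟩

/-- The six symmetries. -/
def d4Set : Finset (Equiv.Perm (Fin chevD4.rank)) := {1, d4P1, d4P2, d4P3, d4P4, d4P5}

theorem card_d4Set : d4Set.card = 6 := by decide +kernel

theorem graphSet_D4 (hA : AddRel chevD4 F) : Nat.card (GraphSet hA) = 6 := by
  have h : GraphSet hA = (d4Set : Set (Equiv.Perm (Fin chevD4.rank))) := by
    ext π
    simp only [d4Set, Finset.coe_insert, Finset.coe_singleton, Set.mem_insert_iff, Set.mem_singleton_iff]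
    constructor
    · intro h
      exact class_perm_D4 (symm_of_mem h)
    · obtain ⟨h1, h2, h3, h4, h5⟩ := mem_graphSet_D4 hA
      rintro (rfl | rfl | rfl | rfl | rfl | rfl)
      · exact one_mem_graphSet hA
      · exact h1
      · exact h2
      · exact h3
      · exact h4
      · exact h5
  rw [h, Nat.card_coe_set_eq, Set.ncard_coe_finset, card_d4Set]

theorem d4_not_comm : d4P1 * d4P3 ≠ d4P3 * d4P1 := by decide +kernel

theorem b2_all (π : Equiv.Perm (Fin chevB2.rank)) :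
    π = 1 ∨ π = Equiv.swap ⟨0, by decide⟩ ⟨1, by decide⟩ := by
  have : ∀ π : Equiv.Perm (Fin 2), π = 1 ∨ π = Equiv.swap 0 1 := by decide
  exact this π

end Types

/-- The structure of `Out` under the decomposition of automorphisms. -/
theorem out_structure {F : Type u} [Field F] [Finite F] (D : ChevalleyDatum)
    (hD : D ∈ [chevG2, chevB2, chevD4, chevF4, chevE6, chevE7, chevE8]) (hdec : Decomp D F)
    (Dbar Fbar : Subgroup (Cfsg.Out ↥(D.group F)))
    (hDbar : Dbar = (Subgroup.closure {φ : MulAut ↥(D.group F) | D.IsDiagonalAut φ}).map (QuotientGroup.mk' (Cfsg.Inn ↥(D.group F))))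
    (hFbar : Fbar = (Subgroup.closure {φ : MulAut ↥(D.group F) | D.IsFieldAut φ}).map (QuotientGroup.mk' (Cfsg.Inn ↥(D.group F)))) :
    Dbar.Normal ∧ IsMulCommutative ↥Dbar ∧ IsCyclic ↥Fbar ∧ (Dbar ⊔ Fbar).Normal ∧
      ((Dbar ⊔ Fbar).index = 1 ∨ (Dbar ⊔ Fbar).index = 2 ∨
        ((Dbar ⊔ Fbar).index = 6 ∧ ¬ commutator (Cfsg.Out ↥(D.group F)) ≤ Dbar ⊔ Fbar)) := by
  obtain ⟨η, hS, hη⟩ := AllEta.exists_sys_eta.{u} D hD
  have hR := hS F
  obtain ⟨h1, h2, h3, h4, h5, h6⟩ := out_structure_aux hR (tbl_of_mem hD) (CharDiag.ck_of_mem hD) (tbl2_of_mem hD)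
    (AllEta.cartan_self D hD) hη hdec hD Dbar Fbar hDbar hFbar
  refine ⟨h1, h2, h3, h4, ?_⟩
  rw [h5]
  clear h1 h2 h3 h4 h5 hDbar hFbar hdec hS hη
  simp only [List.mem_cons, List.not_mem_nil, or_false] at hD
  rcases hD with rfl | rfl | rfl | rfl | rfl | rfl | rfl
  · rcases card_cases_of_le_two (hA := hR.toAddRel) (τ := swapG2) (fun π _ => class_G2 π) with h | h
    · exact Or.inl h
    · exact Or.inr (Or.inl h)
  · rcases card_cases_of_le_two (hA := hR.toAddRel) (fun π _ => b2_all π) with h | h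
    · exact Or.inl h
    · exact Or.inr (Or.inl h)
  · obtain ⟨m1, -, m3, -, -⟩ := mem_graphSet_D4 hR.toAddRel
    exact Or.inr (Or.inr ⟨graphSet_D4 hR.toAddRel, h6 _ m1 _ m3 d4_not_comm⟩)
  · rcases card_cases_of_le_two (hA := hR.toAddRel) (fun π hπ => class_F4 (symm_of_mem hπ)) with h | h
    · exact Or.inl h
    · exact Or.inr (Or.inl h)
  · exact Or.inr (Or.inl (graphSet_E6 hR.toAddRel))
  · exact Or.inl (graphSet_E7 hR.toAddRel)
  · exact Or.inl (graphSet_E8 hR.toAddRel)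

end

end Cfsg.Agent.Lib.ChevAut.OutStruct
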