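import Cfsg.Agent.Lib.ChevAut.Types
import Cfsg.Agent.Lib.Chevalley.AllEta
import Cfsg.Agent.Lib.Chevalley.CharDiagCk
import Cfsg.Agent.Lib.ChevBN.FastData2

/-!
# The order of the outer automorphism group, type by type

The orders are stated under the hypothesis that every automorphism decomposes as
`x · d · g · f` (`Decomp`).
-/

set_option autoImplicit false

namespace Cfsg.Agent.Lib.ChevAut.OutTypes

open Cfsg.Lie
open Cfsg.Agent.Lib.ChevAut Cfsg.Agent.Lib.ChevAut.Count
open Cfsg.Agent.Lib.ChevBN.Rel Cfsg.Agent.Lib.ChevBN.FastData Cfsg.Agent.Lib.ChevBN.Table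

universe u

/-- Every automorphism has the form `x · d · g · f`. -/
def Decomp (D : ChevalleyDatum) (F : Type u) [Field F] : Prop :=
  ∀ θ : ↥(D.group F) ≃* ↥(D.group F), ∃ (x : ↥(D.group F)) (d g f : ↥(D.group F) ≃* ↥(D.group F)),
    D.IsDiagonalAut d ∧ D.IsGraphAut g ∧ D.IsFieldAut f ∧ ∀ y : ↥(D.group F), θ y = x * d (g (f y)) * x⁻¹

variable {F : Type u} [Field F]

theorem card_out_of_mem [Finite F] {D : ChevalleyDatum}
    (hD : D ∈ [chevG2, chevB2, chevD4, chevF4, chevE6, chevE7, chevE8]) (h0 : 0 < D.rank) (hdec : Decomp D F) :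
    ∃ (η : ℕ → ℕ → ℤ) (hR : Sys D F η), Nat.card (Cfsg.Out ↥(D.group F)) =
      Nat.card (GraphSet hR.toAddRel) * (Nat.card (Coker D F) * Nat.card (F ≃+* F)) := by
  obtain ⟨η, hS, hη⟩ := Chevalley.AllEta.exists_sys_eta.{u} D hD
  refine ⟨η, hS F, ?_⟩
  exact card_out (hS F) (tbl_of_mem hD) hD (tbl2_of_mem hD)
    (Chevalley.AllEta.cartan_self D hD) hη (Chevalley.CharDiag.ck_of_mem hD) h0 hdec

variable [Fintype F] (p f : ℕ) [hp : Fact p.Prime] [CharP F p] (hF : Fintype.card F = p ^ f)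
include hF

theorem card_units_eq : Nat.card Fˣ = p ^ f - 1 := by
  rw [Nat.card_units, Nat.card_eq_fintype_card, hF]

theorem out_E8 (hdec : Decomp chevE8 F) : Nat.card (Cfsg.Out ↥(chevE8.group F)) = f := by
  obtain ⟨η, hR, h⟩ := card_out_of_mem (D := chevE8) (by simp) (by decide) hdec
  rw [h, graphSet_E8, card_coker smith_E8, FieldCard.card_aut p f hF]
  simp

theorem out_E7 (hdec : Decomp chevE7 F) : Nat.card (Cfsg.Out ↥(chevE7.group F)) = Nat.gcd 2 (p ^ f - 1) * f := by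
  obtain ⟨η, hR, h⟩ := card_out_of_mem (D := chevE7) (by simp) (by decide) hdec
  rw [h, graphSet_E7, card_coker smith_E7, FieldCard.card_aut p f hF, card_units_eq p f hF, Nat.gcd_comm]
  simp

theorem out_E6 (hdec : Decomp chevE6 F) : Nat.card (Cfsg.Out ↥(chevE6.group F)) = 2 * Nat.gcd 3 (p ^ f - 1) * f := by
  obtain ⟨η, hR, h⟩ := card_out_of_mem (D := chevE6) (by simp) (by decide) hdec
  rw [h, graphSet_E6, card_coker smith_E6, FieldCard.card_aut p f hF, card_units_eq p f hF, Nat.gcd_comm, mul_assoc]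

theorem out_F4 (hdec : Decomp chevF4 F) : Nat.card (Cfsg.Out ↥(chevF4.group F)) = Nat.gcd 2 p * f := by
  obtain ⟨η, hR, h⟩ := card_out_of_mem (D := chevF4) (by simp) (by decide) hdec
  rw [h, graphSet_F4 p hR, card_coker smith_F4, FieldCard.card_aut p f hF]
  simp

theorem out_G2 (hq : 3 ≤ p ^ f) (hdec : Decomp chevG2 F) :
    Nat.card (Cfsg.Out ↥(chevG2.group F)) = if p = 3 then 2 * f else f := by
  obtain ⟨η, hR, h⟩ := card_out_of_mem (D := chevG2) (by simp) (by decide) hdec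
  rw [h, graphSet_G2 p (by rw [hF]; exact hq) hR, card_coker smith_G2, FieldCard.card_aut p f hF]
  by_cases h3 : p = 3 <;> simp [h3]

end Cfsg.Agent.Lib.ChevAut.OutTypes
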