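import Cfsg.Agent.Lib.ChevAut.Inner

/-!
An automorphism preserving `U` and `V` permutes the minimal parabolic subgroups, hence the root
subgroups of the fundamental roots and of their negatives.
-/

set_option autoImplicit false
set_option linter.unusedSectionVars false

namespace Cfsg.Agent.Lib.ChevAut.Perm

open Cfsg.Lie Cfsg.Agent.Lib.ChevBN.Elem Cfsg.Agent.Lib.ChevBN.Entries Cfsg.Agent.Lib.ChevBN.Table
open Cfsg.Agent.Lib.ChevBN.Collect Cfsg.Agent.Lib.ChevBN.Rel Cfsg.Agent.Lib.ChevBN.Torus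
open Cfsg.Agent.Lib.ChevBN.Monomial Cfsg.Agent.Lib.ChevBN.Core Cfsg.Agent.Lib.ChevBN.Pair
open Cfsg.Agent.Lib.ChevBN.Stmts Cfsg.Agent.Lib.ChevBN.Levi Cfsg.Agent.Lib.ChevBN.Opp
open Cfsg.Agent.Lib.ChevTri.Level Cfsg.Agent.Lib.ChevTri.Datum
open Cfsg.Agent.Lib.BNPair.Basic Cfsg.Agent.Lib.BNPair.Parabolic
open Cfsg.Agent.Lib.ChevOrder.Chev Cfsg.Agent.Lib.ChevAut.Inner

variable {D : ChevalleyDatum} {F : Type*} [Field F] {η : ℕ → ℕ → ℤ}

variable (hR : Sys D F η) (hT : Tbl D)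

/-- The minimal parabolic subgroups. -/
noncomputable def PP (i : Fin D.rank) : Subgroup ↥(D.group F) :=
  (pair hR hT).parabolic {ee hR hT i}

include hR hT

theorem ee_mem_PP (i : Fin D.rank) : ee hR hT i ∈ PP hR hT i :=
  closure_le_parabolic _ (Subgroup.subset_closure rfl)

theorem ee_not_mem_B (i : Fin D.rank) : ee hR hT i ∉ (pair hR hT).B :=
  s_not_mem_B (ee_mem hR hT i)

theorem singleton_sub (i : Fin D.rank) : ({ee hR hT i} : Set ↥(D.group F)) ⊆ (pair hR hT).S := by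
  simpa using ee_mem hR hT i

theorem ee_mem_PP_iff {i k : Fin D.rank} : ee hR hT i ∈ PP hR hT k ↔ i = k := by
  rw [PP, S_mem_parabolic_iff (singleton_sub hR hT k) (ee_mem hR hT i), Set.mem_singleton_iff]
  constructor
  · intro h
    have h2 : A hR i = A hR k := congrArg Subtype.val h
    exact Fin.ext (A_inj hR hT i.2 k.2 h2)
  · rintro rfl
    rfl

/-- One direction of the permutation. -/
theorem exists_image (hT2 : Tbl2 D) {θ : ↥(D.group F) ≃* ↥(D.group F)}
    (hB : ∀ g, θ g ∈ (pair hR hT).B ↔ g ∈ (pair hR hT).B) (i : Fin D.rank) :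
    ∃ j : Fin D.rank, ∀ g, θ g ∈ PP hR hT j ↔ g ∈ PP hR hT i := by
  classical
  set P := pair hR hT with hP
  let M : Subgroup ↥(D.group F) := (PP hR hT i).map θ.toMonoidHom
  have hmemM : ∀ g, θ g ∈ M ↔ g ∈ PP hR hT i := by
    intro g
    constructor
    · rintro ⟨a, ha, e⟩
      have : a = g := θ.injective e
      rwa [← this]
    · intro h
      exact ⟨g, h, rfl⟩
  have hBM : P.B ≤ M := by
    intro b hb
    have h1 : θ (θ.symm b) ∈ P.B := by simpa using hb
    have h2 : θ.symm b ∈ P.B := (hB _).1 h1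
    have h3 : θ (θ.symm b) ∈ M := (hmemM _).2 (B_le_parabolic _ h2)
    simpa using h3
  have hM := eq_parabolic_of_le hBM
  -- a generator inside `M`
  have hex : ∃ s, s ∈ P.S ∧ s ∈ M := by
    by_contra hcon
    have hempty : {s | s ∈ P.S ∧ s ∈ M} = ∅ := by
      ext s
      simp only [Set.mem_ofPred_eq, Set.mem_empty_iff_false, iff_false]
      intro h
      exact hcon ⟨s, h⟩
    rw [hempty] at hM
    have h1 : θ (ee hR hT i) ∈ M := (hmemM _).2 (ee_mem_PP hR hT i)
    rw [hM] at h1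
    have h2 : P.parabolic ∅ = P.B := by
      simp [Cfsg.BNPair.parabolic]
    rw [h2] at h1
    exact ee_not_mem_B hR hT i ((hB _).1 h1)
  obtain ⟨s, hs, hsM⟩ := hex
  obtain ⟨j, rfl⟩ := ee_surj hR hT s hs
  refine ⟨j, ?_⟩
  have hPj : PP hR hT j ≤ M := by
    refine sup_le hBM ?_
    rw [Subgroup.closure_le]
    rintro x rfl
    exact hsM
  let M' : Subgroup ↥(D.group F) := (PP hR hT j).map θ.symm.toMonoidHom
  have hmemM' : ∀ g, g ∈ M' ↔ θ g ∈ PP hR hT j := by
    intro g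
    constructor
    · rintro ⟨a, ha, e⟩
      have : θ g = a := by
        rw [← e]
        simp
      rwa [this]
    · intro h
      exact ⟨θ g, h, by simp⟩
  have hM'i : M' ≤ PP hR hT i := by
    intro g hg
    exact (hmemM g).1 (hPj ((hmemM' g).1 hg))
  have hBM' : P.B ≤ M' := by
    intro b hb
    exact (hmemM' b).2 (B_le_parabolic _ ((hB b).2 hb))
  have hM' := eq_parabolic_of_le hBM'
  -- the generators in `M'`
  have hsub : {s | s ∈ P.S ∧ s ∈ M'} ⊆ {ee hR hT i} := by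
    rintro s ⟨hs1, hs2⟩
    exact (S_mem_parabolic_iff (singleton_sub hR hT i) hs1).1 (hM'i hs2)
  have hexi : ee hR hT i ∈ M' := by
    by_contra hcon
    have hempty : {s | s ∈ P.S ∧ s ∈ M'} = ∅ := by
      ext s
      simp only [Set.mem_ofPred_eq, Set.mem_empty_iff_false, iff_false]
      rintro ⟨h1, h2⟩
      have := hsub ⟨h1, h2⟩
      rw [Set.mem_singleton_iff] at this
      subst this
      exact hcon h2
    rw [hempty] at hM'
    have h1 : θ.symm (ee hR hT j) ∈ M' := (hmemM' _).2 (by simpa using ee_mem_PP hR hT j)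
    rw [hM'] at h1
    have h2 : P.parabolic ∅ = P.B := by
      simp [Cfsg.BNPair.parabolic]
    rw [h2] at h1
    have h3 := (hB _).2 h1
    rw [MulEquiv.apply_symm_apply] at h3
    exact ee_not_mem_B hR hT j h3
  have hle : PP hR hT i ≤ M' := by
    refine sup_le hBM' ?_
    rw [Subgroup.closure_le]
    rintro x rfl
    exact hexi
  intro g
  rw [← hmemM' g]
  exact ⟨fun h => hM'i h, fun h => hle h⟩

/-- An automorphism preserving `B` permutes the minimal parabolic subgroups. -/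
theorem exists_perm (hT2 : Tbl2 D) {θ : ↥(D.group F) ≃* ↥(D.group F)}
    (hB : ∀ g, θ g ∈ (pair hR hT).B ↔ g ∈ (pair hR hT).B) :
    ∃ π : Equiv.Perm (Fin D.rank), ∀ i g, θ g ∈ PP hR hT (π i) ↔ g ∈ PP hR hT i := by
  classical
  choose f hf using exists_image hR hT hT2 hB
  have hinj : Function.Injective f := by
    intro i k h
    have h1 := (hf i (ee hR hT i)).2 (ee_mem_PP hR hT i)
    rw [h] at h1
    exact (ee_mem_PP_iff hR hT).1 ((hf k _).1 h1)
  exact ⟨Equiv.ofBijective f (Finite.injective_iff_bijective.mp hinj), hf⟩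

/-- The form of elements of the double coset of a generator. -/
theorem C_form {i : Fin D.rank} {g : ↥(D.group F)} (hg : g ∈ C (pair hR hT) (ee hR hT i)) :
    ∃ b : ↥(D.group F), b ∈ (pair hR hT).B ∧ ∃ t : F,
      (g : GL D.Idx F) = (b : GL D.Idx F) * A hR i * X hR.toAddRel (D.simple i) t := by
  obtain ⟨b₁, hb₁, b₂, hb₂, e⟩ := mem_C.1 hg
  obtain ⟨u, hu, h, hh, e₂⟩ := (mem_B_iff hR hT).mp ((mem_PB hR hT).1 hb₂)
  obtain ⟨a, ha, t, rfl⟩ := U_decomp hR hT i.2 hu
  obtain ⟨κ, hκ, -, hc⟩ := exists_of_mem_H hR hT (Subgroup.inv_mem _ hh)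
  have hA := A_mem_N hR hT i.2
  have h1 : A hR i * a * (A hR i)⁻¹ ∈ D.posUnipotent F := Yp_le_U hR hT _ (A_norm_Yp hR hT i.2 ha)
  have h2 : A hR i * h * (A hR i)⁻¹ ∈ D.diagonalSubgroup F := A_conj_H hR hT i.2 hh
  have hlt := hT.simple_lt i.2
  have e₃ : X hR.toAddRel (D.simple i) t * h = h * X hR.toAddRel (D.simple i) (κ (D.simple i) * t) := by
    have := hc (D.simple i) hlt t
    rw [← this]
    group
  have hb' : (A hR i * a * (A hR i)⁻¹) * (A hR i * h * (A hR i)⁻¹) ∈ D.borelSubgroup F :=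
    Subgroup.mul_mem _ (U_le_B hR hT h1) (H_le_B hR hT h2)
  refine ⟨b₁ * ⟨_, (B_N_G hR hT).1 hb'⟩, Subgroup.mul_mem _ hb₁ ((mem_PB hR hT).2 hb'),
    κ (D.simple i) * t, ?_⟩
  rw [e]
  show (b₁ : GL D.Idx F) * A hR i * (b₂ : GL D.Idx F) = _
  rw [e₂, mul_assoc (a) _ h, e₃]
  show _ = (b₁ : GL D.Idx F) * _ * A hR i * _
  group

/-- The root element of the negative of a fundamental root is in the double coset. -/
theorem X_neg_eq_A {i : Fin D.rank} {c : F} (hc : c ≠ 0) :
    X hR.toAddRel (D.neg (D.simple i)) (c⁻¹) =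
      (X hR.toAddRel (D.simple i) c * hG hR.toAddRel (D.simple i) (-c)) * A hR i *
        X hR.toAddRel (D.simple i) c := by
  have := X_neg_eq hR.toAddRel (D.simple i) (-c)
  rw [inv_neg, neg_neg, neg_neg, nG_eq_hG_mul] at this
  rw [this]
  simp only [A, mul_assoc]

/-- The root subgroup of a negative fundamental root lies in the minimal parabolic. -/
theorem X_neg_mem_PP {i : Fin D.rank} {t : F} {g : ↥(D.group F)}
    (hg : (g : GL D.Idx F) = X hR.toAddRel (D.neg (D.simple i)) t) : g ∈ PP hR hT i := by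
  rw [PP, mem_parabolic_singleton (ee_mem hR hT i)]
  by_cases ht : t = 0
  · left
    subst ht
    have : g = 1 := Subtype.ext (by rw [hg]; simp)
    rw [this]
    exact Subgroup.one_mem _
  · right
    have hlt := hT.simple_lt i.2
    have h1 := X_neg_eq_A hR hT (i := i) (inv_ne_zero ht)
    rw [inv_inv] at h1
    have hbm : X hR.toAddRel (D.simple i) t⁻¹ * hG hR.toAddRel (D.simple i) (-t⁻¹) ∈ D.borelSubgroup F :=
      Subgroup.mul_mem _ (U_le_B hR hT (X_mem_U hR hT (hT.simple_pos i i.2) _))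
        (H_le_B hR hT (hG_mem_diagonal hR hlt (neg_ne_zero.mpr (inv_ne_zero ht))))
    have hbm' : X hR.toAddRel (D.simple i) t⁻¹ ∈ D.borelSubgroup F :=
      U_le_B hR hT (X_mem_U hR hT (hT.simple_pos i i.2) _)
    refine mem_C.2 ⟨⟨_, (B_N_G hR hT).1 hbm⟩, (mem_PB hR hT).2 hbm, ⟨_, (B_N_G hR hT).1 hbm'⟩,
      (mem_PB hR hT).2 hbm', Subtype.ext ?_⟩
    rw [hg, h1]
    rfl

/-- `V ∩ P_i` is the root subgroup of `-p_i`. -/
theorem neg_inter (hT2 : Tbl2 D) {i : Fin D.rank} {g : ↥(D.group F)}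
    (hV : (g : GL D.Idx F) ∈ D.negUnipotent F) (hP : g ∈ PP hR hT i) :
    ∃ t : F, (g : GL D.Idx F) = X hR.toAddRel (D.neg (D.simple i)) t := by
  have hlt := hT.simple_lt i.2
  have hpos := hT.simple_pos i i.2
  have hnegV : ∀ c : F, X hR.toAddRel (D.neg (D.simple i)) c ∈ D.negUnipotent F := by
    intro c
    rw [negUnipotent_eq hR.toAddRel]
    exact X_mem_gen _ (hT.neg_of_pos hpos) c
  have hBV : ∀ {z : GL D.Idx F}, z ∈ D.borelSubgroup F → z ∈ D.negUnipotent F → z = 1 := by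
    intro z h1 h2
    have h3 : z ∈ D.borelSubgroup F ⊓ D.negUnipotent F := ⟨h1, h2⟩
    rw [B_inf_V hR hT] at h3
    exact h3
  rw [PP, mem_parabolic_singleton (ee_mem hR hT i)] at hP
  rcases hP with hP | hP
  · refine ⟨0, ?_⟩
    rw [X_zero]
    exact hBV ((mem_PB hR hT).1 hP) hV
  · obtain ⟨b, hb, t, e⟩ := C_form hR hT hP
    have hbB := (mem_PB hR hT).1 hb
    by_cases ht : t = 0
    · exfalso
      subst ht
      rw [X_zero, mul_one] at e
      obtain ⟨n, hn, hnU⟩ := exists_opp hR hT hT2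
      have hnn := opp_of_N hR hT hn (fun g hg => by
        rw [← hnU]
        exact ⟨g, hg, rfl⟩)
      let nG' : ↥(D.group F) := ⟨n, N_le_G hR hT hn⟩
      let v : ↥(D.group F) := nG' * g * nG'⁻¹
      have hv : (v : GL D.Idx F) ∈ D.posUnipotent F := (hnn.2 g).2 hV
      have hvB : v ∈ (pair hR hT).B := (mem_PB hR hT).2 (U_le_B hR hT hv)
      have hnN : nG' ∈ (pair hR hT).N := (mem_PN hR hT).2 hn
      have hsN : ee hR hT i ∈ (pair hR hT).N := (mem_PN hR hT).2 (A_mem_N hR hT i.2)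
      have e₂ : nG' * b = v * (nG' * (ee hR hT i)⁻¹) := by
        apply Subtype.ext
        show n * (b : GL D.Idx F) = (n * (g : GL D.Idx F) * n⁻¹) * (n * (A hR i)⁻¹)
        rw [e]
        group
      have h1 : nG' * b ∈ C (pair hR hT) nG' := mem_C.2 ⟨1, Subgroup.one_mem _, b, hb, by simp⟩
      have h2 : nG' * b ∈ C (pair hR hT) (nG' * (ee hR hT i)⁻¹) :=
        mem_C.2 ⟨v, hvB, 1, Subgroup.one_mem _, by rw [e₂]; simp⟩
      have h3 := C_eq_of_mem_both h2 h1
      have h4 := (C_eq_iff (Subgroup.mul_mem _ hnN (Subgroup.inv_mem _ hsN)) hnN).1 h3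
      apply ee_not_mem_B hR hT i
      have e₃ : (nG' * (ee hR hT i)⁻¹)⁻¹ * nG' = ee hR hT i := by group
      rwa [e₃] at h4
    · have h1 := X_neg_eq_A hR hT (i := i) ht
      refine ⟨t⁻¹, ?_⟩
      have h2 : (g : GL D.Idx F) * (X hR.toAddRel (D.neg (D.simple i)) t⁻¹)⁻¹ = 1 := by
        apply hBV
        · have e₂ : (g : GL D.Idx F) * (X hR.toAddRel (D.neg (D.simple i)) t⁻¹)⁻¹ =
              (b : GL D.Idx F) * (X hR.toAddRel (D.simple i) t * hG hR.toAddRel (D.simple i) (-t))⁻¹ := by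
            rw [e, h1]
            group
          rw [e₂]
          exact Subgroup.mul_mem _ hbB (Subgroup.inv_mem _ (Subgroup.mul_mem _
            (U_le_B hR hT (X_mem_U hR hT hpos _))
            (H_le_B hR hT (hG_mem_diagonal hR hlt (neg_ne_zero.mpr ht)))))
        · exact Subgroup.mul_mem _ hV (Subgroup.inv_mem _ (hnegV _))
      exact mul_inv_eq_one.mp h2

/-- An automorphism preserving `U` and `V` permutes the root subgroups of the negatives of the
fundamental roots, compatibly with the permutation of the minimal parabolics. -/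
theorem exists_perm_neg (hT2 : Tbl2 D) {θ : ↥(D.group F) ≃* ↥(D.group F)} (hU : PresU θ)
    (hV : PresV θ) :
    ∃ π : Equiv.Perm (Fin D.rank), (∀ i g, θ g ∈ PP hR hT (π i) ↔ g ∈ PP hR hT i) ∧
      ∀ (i : Fin D.rank) (t : F) (g : ↥(D.group F)),
        (g : GL D.Idx F) = X hR.toAddRel (D.neg (D.simple i)) t →
        ∃ u : F, ((θ g : ↥(D.group F)) : GL D.Idx F) = X hR.toAddRel (D.neg (D.simple (π i))) u := by
  have hB : ∀ g, θ g ∈ (pair hR hT).B ↔ g ∈ (pair hR hT).B := by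
    intro g
    rw [mem_PB hR hT, mem_PB hR hT]
    exact presB hR hT hT2 hU g
  obtain ⟨π, hπ⟩ := exists_perm hR hT hT2 hB
  refine ⟨π, hπ, fun i t g hg => ?_⟩
  apply neg_inter hR hT hT2
  · rw [hV g, hg, negUnipotent_eq hR.toAddRel]
    exact X_mem_gen _ (hT.neg_of_pos (hT.simple_pos i i.2)) t
  · exact (hπ i g).2 (X_neg_mem_PP hR hT hg)

/-- The conjugate `g ↦ n⁻¹ θ(n g n⁻¹) n`. -/
def conjConj (θ : ↥(D.group F) ≃* ↥(D.group F)) (n : ↥(D.group F)) :
    ↥(D.group F) ≃* ↥(D.group F) :=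
  (MulAut.conj n).trans (θ.trans (MulAut.conj n⁻¹))

omit hR hT in
@[simp] theorem conjConj_apply (θ : ↥(D.group F) ≃* ↥(D.group F)) (n g : ↥(D.group F)) :
    conjConj θ n g = n⁻¹ * θ (n * g * n⁻¹) * n := by
  simp [conjConj]

omit hR hT in
theorem conj_conjConj (θ : ↥(D.group F) ≃* ↥(D.group F)) (n g : ↥(D.group F)) :
    n * conjConj θ n g * n⁻¹ = θ (n * g * n⁻¹) := by
  rw [conjConj_apply]
  group

omit hR in
theorem foldl_foldr {l : List ℕ} (hl : ∀ i ∈ l, i < D.rank) {r : ℕ} (hr : r < D.nroots) :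
    l.foldl (fun acc i => D.reflectRoot i acc) (l.foldr D.reflectRoot r) = r := by
  induction l with
  | nil => rfl
  | cons a l ih =>
    have hal := hl a (by simp)
    have hl' : ∀ i ∈ l, i < D.rank := fun i hi => hl i (by simp [hi])
    rw [List.foldr_cons, List.foldl_cons, hT.w_w a hal _ (foldr_lt hT hl' hr), ih hl']

/-- Data of a longest word which permutes the negatives of the fundamental roots. -/
structure Star (D : ChevalleyDatum) (l : List ℕ) : Prop where
  lt : ∀ i ∈ l, i < D.rank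
  neg : ∀ r, D.IsPosRoot r → D.IsNegRoot (l.foldr D.reflectRoot r)
  star : ∀ i < D.rank, ∃ j < D.rank, l.foldr D.reflectRoot (D.neg (D.simple i)) = D.simple j

/-- An element of `N` exchanging `U` and `V` and permuting the negatives of the fundamental roots
to the fundamental roots. -/
theorem exists_star {l : List ℕ} (hS : Star D l) :
    ∃ n ∈ D.monomialSubgroup F, ∃ ρ : Equiv.Perm (Fin D.rank),
      (∀ g ∈ D.posUnipotent F, n * g * n⁻¹ ∈ D.negUnipotent F) ∧
      ∀ i : Fin D.rank, ∃ κ : F, κ ≠ 0 ∧ ∀ t : F,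
        n * X hR.toAddRel (D.neg (D.simple i)) t * n⁻¹ = X hR.toAddRel (D.simple (ρ i)) (κ * t) := by
  classical
  have hf : ∀ i : Fin D.rank, ∃ j : Fin D.rank,
      l.foldr D.reflectRoot (D.neg (D.simple i)) = D.simple j := by
    intro i
    obtain ⟨j, hj, e⟩ := hS.star i i.2
    exact ⟨⟨j, hj⟩, e⟩
  choose f hfe using hf
  have hinj : Function.Injective f := by
    intro i k h
    have h1 : l.foldr D.reflectRoot (D.neg (D.simple i)) =
        l.foldr D.reflectRoot (D.neg (D.simple k)) := by rw [hfe, hfe, h]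
    have h2 := congrArg (l.foldl (fun acc i => D.reflectRoot i acc)) h1
    rw [foldl_foldr hT hS.lt (hT.neg_lt (hT.simple_lt i.2)),
      foldl_foldr hT hS.lt (hT.neg_lt (hT.simple_lt k.2))] at h2
    have h3 := congrArg D.neg h2
    rw [hT.neg_neg _ (hT.simple_lt i.2), hT.neg_neg _ (hT.simple_lt k.2)] at h3
    exact Fin.ext (hT.simple_inj i i.2 k k.2 h3)
  refine ⟨prodA hR l, prodA_mem_N hR hT hS.lt, Equiv.ofBijective f
    (Finite.injective_iff_bijective.mp hinj), ?_, fun i => ?_⟩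
  · intro g hg
    rw [posUnipotent_eq hR.toAddRel] at hg
    refine gen_induction hR.toAddRel
      (P := fun g => prodA hR l * g * (prodA hR l)⁻¹ ∈ D.negUnipotent F) (by simp) ?_ ?_ hg
    · intro r hr t
      obtain ⟨-, κ, -, h⟩ := prodA_conj hR hT hS.lt (show r < D.nroots from hr.1)
      rw [h t, negUnipotent_eq hR.toAddRel]
      exact X_mem_gen _ (hS.neg r hr) _
    · intro a b ha hb
      have e : prodA hR l * (a * b) * (prodA hR l)⁻¹ =
          (prodA hR l * a * (prodA hR l)⁻¹) * (prodA hR l * b * (prodA hR l)⁻¹) := by group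
      rw [e]
      exact Subgroup.mul_mem _ ha hb
  · obtain ⟨-, κ, hκ, h⟩ := prodA_conj hR hT hS.lt (hT.neg_lt (hT.simple_lt i.2))
    refine ⟨κ, hκ, fun t => ?_⟩
    rw [h t, hfe]
    rfl

/-- An automorphism preserving `U` and `V` permutes the root subgroups of the fundamental roots. -/
theorem exists_perm_pos (hT2 : Tbl2 D) {l : List ℕ} (hS : Star D l)
    {θ : ↥(D.group F) ≃* ↥(D.group F)} (hU : PresU θ) (hV : PresV θ) :
    ∃ π : Equiv.Perm (Fin D.rank),
      ∀ (i : Fin D.rank) (t : F) (g : ↥(D.group F)),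
        (g : GL D.Idx F) = X hR.toAddRel (D.simple i) t →
        ∃ u : F, ((θ g : ↥(D.group F)) : GL D.Idx F) = X hR.toAddRel (D.simple (π i)) u := by
  obtain ⟨n, hn, ρ, hUV, hρ⟩ := exists_star hR hT hS
  have hnn := opp_of_N hR hT hn hUV
  let n' : ↥(D.group F) := ⟨n, N_le_G hR hT hn⟩
  have hτU : PresU (conjConj θ n') := by
    intro g
    rw [← hnn.1 ((conjConj θ n' g : ↥(D.group F)) : GL D.Idx F), ← hnn.1 (g : GL D.Idx F)]
    have h1 := congrArg (Subtype.val) (conj_conjConj θ n' g)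
    have h2 := hV (n' * g * n'⁻¹)
    rw [← h1] at h2
    exact h2
  have hτV : PresV (conjConj θ n') := by
    intro g
    rw [← hnn.2 ((conjConj θ n' g : ↥(D.group F)) : GL D.Idx F), ← hnn.2 (g : GL D.Idx F)]
    have h1 := congrArg (Subtype.val) (conj_conjConj θ n' g)
    have h2 := hU (n' * g * n'⁻¹)
    rw [← h1] at h2
    exact h2
  obtain ⟨π', -, hπ'⟩ := exists_perm_neg hR hT hT2 hτU hτV
  refine ⟨ρ⁻¹.trans (π'.trans ρ), fun i t g hg => ?_⟩
  set i₀ := ρ⁻¹ i with hi₀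
  have hρi : ρ i₀ = i := by simp [hi₀]
  obtain ⟨κ₀, hκ₀, h₀⟩ := hρ i₀
  rw [hρi] at h₀
  have hlt₀ := hT.neg_lt (hT.simple_lt i₀.2)
  let g₀ : ↥(D.group F) := ⟨X hR.toAddRel (D.neg (D.simple i₀)) (κ₀⁻¹ * t), X_mem_G hR hT hlt₀ _⟩
  have hgg₀ : g = n' * g₀ * n'⁻¹ := by
    apply Subtype.ext
    rw [hg]
    show _ = n * X hR.toAddRel (D.neg (D.simple i₀)) (κ₀⁻¹ * t) * n⁻¹
    rw [h₀, ← mul_assoc, mul_inv_cancel₀ hκ₀, one_mul]
  obtain ⟨u, hu⟩ := hπ' i₀ (κ₀⁻¹ * t) g₀ rfl
  obtain ⟨κ, -, h⟩ := hρ (π' i₀)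
  refine ⟨κ * u, ?_⟩
  rw [hgg₀, ← conj_conjConj]
  show n * ((conjConj θ n' g₀ : ↥(D.group F)) : GL D.Idx F) * n⁻¹ = _
  rw [hu, h u]
  rfl

/-- Elements of the minimal parabolic normalise the radical. -/
theorem core_mem (hT2 : Tbl2 D) {i k : Fin D.rank} (hik : k ≠ i) {g : ↥(D.group F)}
    (hg : g ∈ PP hR hT i) (t : F) :
    (g : GL D.Idx F) * X hR.toAddRel (D.simple k) t * (g : GL D.Idx F)⁻¹ ∈ D.posUnipotent F := by
  have h1 : PP hR hT i ≤ (D.parabolicSubgroup F {(i : ℕ)}).subgroupOf (D.group F) := by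
    refine sup_le ?_ ?_
    · intro b hb
      rw [Subgroup.mem_subgroupOf, parabolic_eq hR hT]
      exact Subgroup.mem_sup_left ((mem_PB hR hT).1 hb)
    · rw [Subgroup.closure_le]
      rintro x rfl
      show _ ∈ (D.parabolicSubgroup F {(i : ℕ)}).subgroupOf (D.group F)
      rw [Subgroup.mem_subgroupOf, parabolic_eq hR hT]
      exact Subgroup.mem_sup_right (A_mem_NJ hR rfl i.2)
  have h2 := parabolic_le_norm hR hT hT2 {(i : ℕ)} (Subgroup.mem_subgroupOf.mp (h1 hg))
  have hkJ : (k : ℕ) ∉ ({(i : ℕ)} : Set ℕ) := by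
    rw [Set.mem_singleton_iff]
    exact fun h => hik (Fin.ext h)
  have h3 : X hR.toAddRel (D.simple k) t ∈ D.unipotentRadical F {(i : ℕ)} := by
    rw [radical_eq hR hT]
    exact X_mem_gen _ (show D.simple k ∈ psiJ D {(i : ℕ)} from
      ⟨hT.simple_pos k k.2, not_inRootSub_simple hT hkJ k.2⟩) t
  exact radical_le_U hR hT _ ((Subgroup.mem_normalizer_iff.mp h2 _).mp h3)

/-- The permutations on the fundamental roots and their negatives coincide. -/
theorem exists_perm_both (hT2 : Tbl2 D) {l : List ℕ} (hS : Star D l)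
    {θ : ↥(D.group F) ≃* ↥(D.group F)} (hU : PresU θ) (hV : PresV θ) :
    ∃ π : Equiv.Perm (Fin D.rank),
      (∀ (i : Fin D.rank) (t : F) (g : ↥(D.group F)),
        (g : GL D.Idx F) = X hR.toAddRel (D.simple i) t →
        ∃ u : F, ((θ g : ↥(D.group F)) : GL D.Idx F) = X hR.toAddRel (D.simple (π i)) u) ∧
      (∀ (i : Fin D.rank) (t : F) (g : ↥(D.group F)),
        (g : GL D.Idx F) = X hR.toAddRel (D.neg (D.simple i)) t →
        ∃ u : F, ((θ g : ↥(D.group F)) : GL D.Idx F) = X hR.toAddRel (D.neg (D.simple (π i))) u) := by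
  obtain ⟨π, hP, hn⟩ := exists_perm_neg hR hT hT2 hU hV
  obtain ⟨πp, hp⟩ := exists_perm_pos hR hT hT2 hS hU hV
  have he : πp = π := by
    ext i
    congr 1
    by_contra hne
    have hne' : πp i ≠ π i := fun h => hne (by rw [h])
    have hlt := hT.simple_lt i.2
    have hpos := hT.simple_pos i i.2
    let x : ↥(D.group F) := ⟨X hR.toAddRel (D.simple i) 1, X_mem_G hR hT hlt 1⟩
    obtain ⟨u, hu⟩ := hp i 1 x rfl
    have h1 := core_mem hR hT hT2 hne' ((hP i (ee hR hT i)).2 (ee_mem_PP hR hT i)) u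
    rw [← hu] at h1
    have h2 : ((θ (ee hR hT i * x * (ee hR hT i)⁻¹) : ↥(D.group F)) : GL D.Idx F) ∈
        D.posUnipotent F := by
      rw [map_mul, map_mul, map_inv]
      exact h1
    rw [hU] at h2
    have h3 : ((ee hR hT i * x * (ee hR hT i)⁻¹ : ↥(D.group F)) : GL D.Idx F) =
        X hR.toAddRel (D.neg (D.simple i)) ((η i (D.simple i) : F) * 1) := by
      show A hR i * X hR.toAddRel (D.simple i) 1 * (A hR i)⁻¹ = _
      rw [A_conj_X hR i.2 hlt, hT.w_simple i i.2]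
    rw [h3] at h2
    refine X_neg_not_mem_B hR hT hpos ?_ (U_le_B hR hT h2)
    rw [mul_one]
    exact eta_ne hR i.2 hlt
  subst he
  exact ⟨πp, hp, hn⟩

/-- The theorem of this file: up to an inner automorphism, every automorphism permutes the root
subgroups of the fundamental roots and of their negatives. -/
theorem exists_inner_perm [Finite F] (hT2 : Tbl2 D) {l : List ℕ} (hS : Star D l)
    (θ : ↥(D.group F) ≃* ↥(D.group F)) :
    ∃ (x : ↥(D.group F)) (π : Equiv.Perm (Fin D.rank)),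
      (∀ (i : Fin D.rank) (t : F) (g : ↥(D.group F)),
        (g : GL D.Idx F) = X hR.toAddRel (D.simple i) t →
        ∃ u : F, ((conjBy θ x g : ↥(D.group F)) : GL D.Idx F) = X hR.toAddRel (D.simple (π i)) u) ∧
      (∀ (i : Fin D.rank) (t : F) (g : ↥(D.group F)),
        (g : GL D.Idx F) = X hR.toAddRel (D.neg (D.simple i)) t →
        ∃ u : F, ((conjBy θ x g : ↥(D.group F)) : GL D.Idx F) =
          X hR.toAddRel (D.neg (D.simple (π i))) u) := by
  obtain ⟨x₁, h₁⟩ := exists_presU hR hT θ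
  obtain ⟨x₂, h₂, h₃⟩ := exists_presV hR hT hT2 h₁
  obtain ⟨π, hp, hn⟩ := exists_perm_both hR hT hT2 hS h₂ h₃
  refine ⟨x₁ * x₂, π, fun i t g hg => ?_, fun i t g hg => ?_⟩
  · obtain ⟨u, hu⟩ := hp i t g hg
    refine ⟨u, ?_⟩
    rw [← hu]
    simp only [conjBy_apply, mul_inv_rev]
    congr 1
    group
  · obtain ⟨u, hu⟩ := hn i t g hg
    refine ⟨u, ?_⟩
    rw [← hu]
    simp only [conjBy_apply, mul_inv_rev]
    congr 1
    group

end Cfsg.Agent.Lib.ChevAut.Perm
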