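import Cfsg.Agent.Lib.ChevAut.Coker

/-!
# The Smith data of the Cartan matrices (generated)
-/

set_option autoImplicit false
set_option maxRecDepth 100000
set_option synthInstance.maxSize 100000
set_option synthInstance.maxHeartbeats 0

namespace Cfsg.Agent.Lib.ChevAut.Count

open Cfsg.Lie

/-- A vector from a list. -/
def vecOf (D : ChevalleyDatum) (l : List ℤ) : Fin D.rank → ℤ := fun i => l.getD i 0

/-- A matrix from a list. -/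
def matOf (D : ChevalleyDatum) (l : List (List ℤ)) : Fin D.rank → Fin D.rank → ℤ :=
  fun i j => (l.getD i []).getD j 0

theorem smith_G2 : SmithData chevG2 1 (vecOf chevG2 [1, 0]) (vecOf chevG2 [0, 0]) (vecOf chevG2 [0, 0]) (vecOf chevG2 [2, -1])
    (matOf chevG2 [[2, 3], [1, 2]]) ⟨0, by decide⟩ :=
  ⟨by decide +kernel, by decide +kernel, by decide +kernel, by decide +kernel⟩

theorem smith_F4 : SmithData chevF4 1 (vecOf chevF4 [1, 0, 0, 0]) (vecOf chevF4 [0, 0, 0, 0]) (vecOf chevF4 [0, 0, 0, 0]) (vecOf chevF4 [2, -1, 0, 0])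
    (matOf chevF4 [[2, 3, 4, 2], [3, 6, 8, 4], [2, 4, 6, 3], [1, 2, 3, 2]]) ⟨0, by decide⟩ :=
  ⟨by decide +kernel, by decide +kernel, by decide +kernel, by decide +kernel⟩

theorem smith_E6 : SmithData chevE6 3 (vecOf chevE6 [1, 0, 2, 0, 1, 2]) (vecOf chevE6 [1, 0, 2, 0, 1, 2]) (vecOf chevE6 [0, 0, 1, -1, 0, 1]) (vecOf chevE6 [0, 0, 1, -1, 0, 1])
    (matOf chevE6 [[1, 1, 1, 2, 1, 0], [1, 2, 2, 3, 2, 1], [1, 2, 2, 4, 2, 0], [2, 3, 4, 6, 4, 2], [1, 2, 2, 4, 3, 1], [0, 1, 0, 2, 1, 0]]) ⟨0, by decide⟩ :=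
  ⟨by decide +kernel, by decide +kernel, by decide +kernel, by decide +kernel⟩

theorem smith_E7 : SmithData chevE7 2 (vecOf chevE7 [0, 1, 0, 0, 1, 0, 1]) (vecOf chevE7 [0, 1, 0, 0, 1, 0, 1]) (vecOf chevE7 [0, 1, 0, -1, 1, -1, 1]) (vecOf chevE7 [0, 1, 0, -1, 1, -1, 1])
    (matOf chevE7 [[2, 2, 3, 4, 3, 2, 1], [2, 3, 4, 6, 4, 3, 1], [3, 4, 6, 8, 6, 4, 2], [4, 6, 8, 12, 9, 6, 3], [3, 4, 6, 9, 7, 5, 2], [2, 3, 4, 6, 5, 4, 2], [1, 1, 2, 3, 2, 2, 1]]) ⟨1, by decide⟩ :=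
  ⟨by decide +kernel, by decide +kernel, by decide +kernel, by decide +kernel⟩

theorem smith_E8 : SmithData chevE8 1 (vecOf chevE8 [1, 0, 0, 0, 0, 0, 0, 0]) (vecOf chevE8 [0, 0, 0, 0, 0, 0, 0, 0]) (vecOf chevE8 [0, 0, 0, 0, 0, 0, 0, 0]) (vecOf chevE8 [2, 0, -1, 0, 0, 0, 0, 0])
    (matOf chevE8 [[4, 5, 7, 10, 8, 6, 4, 2], [5, 8, 10, 15, 12, 9, 6, 3], [7, 10, 14, 20, 16, 12, 8, 4], [10, 15, 20, 30, 24, 18, 12, 6], [8, 12, 16, 24, 20, 15, 10, 5], [6, 9, 12, 18, 15, 12, 8, 4], [4, 6, 8, 12, 10, 8, 6, 3], [2, 3, 4, 6, 5, 4, 3, 2]]) ⟨0, by decide⟩ :=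
  ⟨by decide +kernel, by decide +kernel, by decide +kernel, by decide +kernel⟩

end Cfsg.Agent.Lib.ChevAut.Count
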