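import Cfsg.Agent.Lib.ChevBN.FastData2
import Cfsg.Agent.Lib.ChevAut.Perm

/-!
The longest words of the seven data permute the negatives of the fundamental roots to the
fundamental roots.
-/

set_option autoImplicit false

namespace Cfsg.Agent.Lib.ChevAut.StarData

open Cfsg.Lie Cfsg.Agent.Lib.ChevTri.Datum Cfsg.Agent.Lib.ChevBN.Table Cfsg.Agent.Lib.ChevBN.Fast
open Cfsg.Agent.Lib.ChevBN.FastData Cfsg.Agent.Lib.ChevAut.Perm

/-- Check that a word sends the negatives of the fundamental roots to fundamental roots. -/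
def chkStar (T : FastTab) (D : ChevalleyDatum) (l : List ℕ) : Bool :=
  (List.range D.rank).all fun i => (List.range D.rank).any fun j =>
    decide (l.foldr (T.W D) (D.neg (D.simple i)) = D.simple j)

theorem star_of_fast {T : FastTab} {D : ChevalleyDatum} {l : List ℕ} (hT : Tbl D)
    (hW : ∀ i < D.rank, chkW T D i = true) (h2 : chkW0 T D l = true) (h3 : chkStar T D l = true) :
    Star D l := by
  have hw : ∀ {i s : ℕ}, i < D.rank → s < D.nroots → D.reflectRoot i s = T.W D i s := by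
    intro i s hi hs
    have := List.all_eq_true.mp (hW i hi) s (List.mem_range.mpr hs)
    simpa using this
  simp only [chkW0, Bool.and_eq_true, decide_eq_true_eq, List.all_eq_true, List.mem_range,
    Bool.or_eq_true] at h2
  obtain ⟨hl, h5⟩ := h2
  have hf : ∀ l' : List ℕ, (∀ i ∈ l', i < D.rank) → ∀ r < D.nroots,
      l'.foldr D.reflectRoot r = l'.foldr (T.W D) r ∧ l'.foldr D.reflectRoot r < D.nroots := by
    intro l'
    induction l' with
    | nil => exact fun _ r hr' => ⟨rfl, hr'⟩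
    | cons a l' ih =>
      intro hl' r hr'
      obtain ⟨h6, h7⟩ := ih (fun i hi => hl' i (by simp [hi])) r hr'
      have ha : a < D.rank := hl' a (by simp)
      rw [List.foldr_cons, List.foldr_cons, hw ha h7, h6]
      refine ⟨rfl, ?_⟩
      rw [← h6, ← hw ha h7]
      exact hT.w_lt a ha _ h7
  refine ⟨hl, ?_, ?_⟩
  · intro r hrp
    have hrl := hrp.1
    obtain ⟨h6, h7⟩ := hf l hl r hrl
    have hpr := (isPos_iff hT.good hrl).mp hrp
    rcases h5 r hrl with h8 | h8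
    · omega
    · rw [← h6] at h8
      rcases hT.pos_or_neg h7 with h9 | h9
      · have := (isPos_iff hT.good h7).mp h9
        omega
      · exact h9
  · intro i hi
    simp only [chkStar, List.all_eq_true, List.any_eq_true, List.mem_range, decide_eq_true_eq] at h3
    obtain ⟨j, hj, e⟩ := h3 i hi
    exact ⟨j, hj, by rw [(hf l hl _ (hT.neg_lt (hT.simple_lt hi))).1, e]⟩

set_option maxRecDepth 100000

/-- The longest word of type G2. -/
def wordG2 : List ℕ := [1, 0, 1, 0, 1, 0]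

theorem starG2 : Star chevG2 wordG2 :=
  star_of_fast tbl_chevG2 hW_G2 k2_G2 (by decide +kernel)

/-- The longest word of type B2. -/
def wordB2 : List ℕ := [1, 0, 1, 0]

theorem starB2 : Star chevB2 wordB2 :=
  star_of_fast tbl_chevB2 hW_B2 k2_B2 (by decide +kernel)

/-- The longest word of type D4. -/
def wordD4 : List ℕ := [3, 1, 2, 0, 1, 3, 0, 1, 2, 0, 1, 0]

theorem starD4 : Star chevD4 wordD4 :=
  star_of_fast tbl_chevD4 hW_D4 k2_D4 (by decide +kernel)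

/-- The longest word of type F4. -/
def wordF4 : List ℕ := [3, 2, 1, 2, 0, 1, 2, 3, 2, 1, 2, 0, 1, 2, 3, 2, 1, 2, 0, 1, 2, 0, 1, 0]

theorem starF4 : Star chevF4 wordF4 :=
  star_of_fast tbl_chevF4 hW_F4 k2_F4 (by decide +kernel)

/-- The longest word of type E6. -/
def wordE6 : List ℕ := [0, 2, 3, 4, 5, 1, 3, 4, 2, 3, 0, 2, 1, 3, 4, 5, 1, 3, 4, 2, 3, 0, 2, 1, 3, 4, 2, 3, 0, 2, 1, 3, 0, 2, 1, 0]

theorem starE6 : Star chevE6 wordE6 :=
  star_of_fast tbl_chevE6 hW_E6 k2_E6 (by decide +kernel)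

/-- The longest word of type E7. -/
def wordE7 : List ℕ := [6, 5, 4, 3, 2, 1, 3, 4, 5, 6, 0, 2, 3, 4, 5, 1, 3, 4, 2, 3, 0, 2, 1, 3, 4, 5, 6, 0, 2, 3, 4, 5, 1, 3, 4, 2, 3, 0, 2, 1, 3, 4, 5, 1, 3, 4, 2, 3, 0, 2, 1, 3, 4, 2, 3, 0, 2, 1, 3, 0, 2, 1, 0]

theorem starE7 : Star chevE7 wordE7 :=
  star_of_fast tbl_chevE7 hW_E7 k2_E7 (by decide +kernel)

/-- The longest word of type E8. -/
def wordE8 : List ℕ := [7, 6, 5, 4, 3, 2, 1, 3, 4, 5, 6, 0, 2, 3, 4, 5, 1, 3, 4, 2, 3, 0, 2, 1, 3, 4, 5, 6, 7, 6, 5, 4, 3, 2, 1, 3, 4, 5, 6, 0, 2, 3, 4, 5, 1, 3, 4, 2, 3, 0, 2, 1, 3, 4, 5, 6, 7, 6, 5, 4, 3, 2, 1, 3, 4, 5, 6, 0, 2, 3, 4, 5, 1, 3, 4, 2, 3, 0, 2, 1, 3, 4, 5, 6, 0, 2, 3, 4, 5, 1, 3, 4, 2, 3, 0, 2, 1, 3, 4, 5, 1, 3, 4, 2, 3, 0, 2, 1, 3, 4, 2, 3, 0, 2, 1, 3, 0, 2, 1, 0]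

theorem starE8 : Star chevE8 wordE8 :=
  star_of_fast tbl_chevE8 hW_E8 k2_E8 (by decide +kernel)

/-- A longest word for each of the seven data. -/
theorem exists_word {D : ChevalleyDatum}
    (hD : D ∈ [chevG2, chevB2, chevD4, chevF4, chevE6, chevE7, chevE8]) : ∃ l, Star D l := by
  simp only [List.mem_cons, List.not_mem_nil, or_false] at hD
  rcases hD with rfl | rfl | rfl | rfl | rfl | rfl | rfl
  · exact ⟨_, starG2⟩
  · exact ⟨_, starB2⟩
  · exact ⟨_, starD4⟩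
  · exact ⟨_, starF4⟩
  · exact ⟨_, starE6⟩
  · exact ⟨_, starE7⟩
  · exact ⟨_, starE8⟩

end Cfsg.Agent.Lib.ChevAut.StarData
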