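import Mathlib
import Cfsg.Agent.S1025
import Cfsg.Agent.Lib.ChevBN.Pair
import Cfsg.Agent.Lib.Chevalley.SimpleGen
import Cfsg.Agent.Lib.Chevalley.SL2Root
import Cfsg.Agent.Lib.ChevOrder.Chev

/-!
# Two generators for the Chevalley groups (Steinberg)

`a` is the lift of a word in the simple reflections (a Coxeter element), `b = x_r(1) g` with `g` of order
prime to the characteristic commuting with `x_r(1)`.  The subgroup `K = ⟨a, b⟩` contains `x_r(1)` and `g`.
A certificate, checked by evaluation, then reaches all root elements.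
-/

set_option autoImplicit false
set_option linter.unusedSectionVars false

namespace Cfsg.Agent.Lib.ChevAut.TwoGen

open Cfsg.Lie Matrix
open Cfsg.Agent.Lib.ChevBN.Elem Cfsg.Agent.Lib.ChevBN.Rel Cfsg.Agent.Lib.ChevBN.Table Cfsg.Agent.Lib.ChevBN.Torus
open Cfsg.Agent.Lib.ChevBN.Pair

/-! ### The combinatorial certificate -/

/-- The permutation of the roots of a word in the simple reflections. -/
def piW (D : ChevalleyDatum) (l : List ℕ) (r : ℕ) : ℕ := l.foldr (fun i r => D.reflectRoot i r) r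

/-- A step of a certificate. -/
inductive Op
  | opi (r : ℕ)
  | ofi (r : ℕ)
  | oadd (r s q : ℕ)
  | fadd (r s q : ℕ)

/-- Membership in a list of naturals. -/
def memB (l : List ℕ) (x : ℕ) : Bool := l.any fun y => Nat.beq y x

theorem memB_iff {l : List ℕ} {x : ℕ} : memB l x = true ↔ x ∈ l := by
  simp [memB, List.any_eq_true]

/-- The legal pairs of roots. -/
def pairOK (D : ChevalleyDatum) (r s : ℕ) : Bool :=
  Nat.blt r D.nroots && Nat.blt s D.nroots && !Nat.beq s r && !Nat.beq s (D.neg r)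

theorem pairOK_iff {D : ChevalleyDatum} {r s : ℕ} : pairOK D r s = true ↔
    r < D.nroots ∧ s < D.nroots ∧ s ≠ r ∧ s ≠ D.neg r := by
  have h1 : ∀ a b : ℕ, (a.beq b = false) ↔ a ≠ b := by
    intro a b
    rw [← Bool.not_eq_true, Nat.beq_eq]
  simp [pairOK, Nat.blt_eq, and_assoc, h1]

/-- The terms of the list missing from `F`. -/
def miss (F : List ℕ) (T : List (ℕ × ℤ × ℕ × ℕ)) : List (ℕ × ℤ × ℕ × ℕ) := T.filter fun c => !memB F c.1

/-- The step of a certificate on the state (elements `x_r(1)`, full root subgroups). -/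
def stepOp (D : ChevalleyDatum) (l : List ℕ) (units : ℤ → Bool) (st : List ℕ × List ℕ) :
    Op → Option (List ℕ × List ℕ)
  | .opi r => if memB st.1 r || memB st.2 r then some (piW D l r :: st.1, st.2) else none
  | .ofi r => if memB st.2 r then some (st.1, piW D l r :: st.2) else none
  | .oadd r s q =>
    if (memB st.1 r || memB st.2 r) && (memB st.1 s || memB st.2 s) && pairOK D r s && Nat.blt q D.nroots then
      match D.commTerms r s with
      | [c] => if Nat.beq c.1 q && (c.2.1 == 1 || c.2.1 == -1) then some (q :: st.1, st.2) else none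
      | _ => none
    else none
  | .fadd r s q =>
    if (memB st.1 r || memB st.2 r) && memB st.2 s && pairOK D r s && Nat.blt q D.nroots then
      match miss st.2 (D.commTerms r s) with
      | [c] => if Nat.beq c.1 q && units c.2.1 && Nat.beq c.2.2.2 1 then some (st.1, q :: st.2) else none
      | _ => none
    else none

/-- A certificate. -/
def run (D : ChevalleyDatum) (l : List ℕ) (units : ℤ → Bool) (st : List ℕ × List ℕ) : List Op → Option (List ℕ × List ℕ)
  | [] => some st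
  | o :: ops =>
    match stepOp D l units st o with
    | some st' => run D l units st' ops
    | none => none

/-- All simple roots and their negatives are reached. -/
def finalOK (D : ChevalleyDatum) (F : List ℕ) : Bool :=
  (List.range D.rank).all fun i => memB F (D.simple i) && memB F (D.neg (D.simple i))

/-! ### The subgroup `K` -/

variable {D : ChevalleyDatum} {F : Type*} [Field F] {η : ℕ → ℕ → ℤ}

section Gen

variable (hA : AddRel D F) (K : Subgroup (GL D.Idx F))

/-- All `x_r(t)` lie in `K`. -/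
def Full (r : ℕ) : Prop := ∀ t : F, X hA r t ∈ K

/-- `x_r(1)` lies in `K`. -/
def One (r : ℕ) : Prop := X hA r (1 : F) ∈ K

variable {hA K}

theorem Full.one {r : ℕ} (h : Full hA K r) : One hA K r := h 1

theorem One.neg {r : ℕ} (h : One hA K r) : X hA r (-1 : F) ∈ K := by
  have := K.inv_mem h
  rwa [X_inv] at this

theorem X_zero_mem (r : ℕ) : X hA r (0 : F) ∈ K := by
  rw [X_zero]
  exact K.one_mem

/-- The word product lies in `K` if all its letters do. -/
theorem W_mem {l : List (ℕ × F)} (h : ∀ p ∈ l, X hA p.1 p.2 ∈ K) : W hA l ∈ K := by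
  induction l with
  | nil => simp [W]
  | cons a l ih =>
    simp only [W, List.map_cons, List.prod_cons]
    exact K.mul_mem (h a (by simp)) (ih fun p hp => h p (by simp [hp]))

/-- The letters of a word of terms: one missing term. -/
theorem term_of_W {Fl : List ℕ} (hFl : ∀ x ∈ Fl, Full hA K x) {u : F} :
    ∀ {T : List (ℕ × ℤ × ℕ × ℕ)} {c : ℕ × ℤ × ℕ × ℕ}, miss Fl T = [c] → c.2.2.2 = 1 →
      W hA (T.map fun c => (c.1, (c.2.1 : F) * (-(-1 : F)) ^ c.2.2.1 * u ^ c.2.2.2)) ∈ K →
        X hA c.1 ((c.2.1 : F) * u) ∈ K := by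
  intro T
  induction T with
  | nil =>
    intro c h
    simp [miss] at h
  | cons d T ih =>
    intro c h hj hW
    simp only [List.map_cons, W_cons] at hW
    by_cases hd : memB Fl d.1 = true
    · have h2 : miss Fl (d :: T) = miss Fl T := by
        simp [miss, hd]
      rw [h2] at h
      refine ih h hj ?_
      have h3 : X hA d.1 ((d.2.1 : F) * (-(-1 : F)) ^ d.2.2.1 * u ^ d.2.2.2) ∈ K := hFl _ (memB_iff.1 hd) _
      exact (Subgroup.mul_mem_cancel_left K h3).1 hW
    · have h2 : miss Fl (d :: T) = d :: miss Fl T := by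
        simp [miss, hd]
      rw [h2] at h
      have h3 := List.cons.inj h
      obtain ⟨rfl, h4⟩ := h3
      have h5 : ∀ e ∈ T, memB Fl e.1 = true := by
        intro e he
        have : e ∉ miss Fl T := by simp [h4]
        simp only [miss, List.mem_filter, not_and, Bool.not_eq_true'] at this
        by_contra h6
        exact (by simpa [h6] using this he)
      have h6 : W hA (T.map fun c => (c.1, (c.2.1 : F) * (-(-1 : F)) ^ c.2.2.1 * u ^ c.2.2.2)) ∈ K := by
        apply W_mem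
        intro p hp
        obtain ⟨e, he, rfl⟩ := List.mem_map.1 hp
        exact hFl _ (memB_iff.1 (h5 e he)) _
      have h7 := (Subgroup.mul_mem_cancel_right K h6).1 hW
      simpa [hj] using h7

/-- Every element of a finite field is a sum of two squares. -/
theorem exists_sq_add_sq [Finite F] (v : F) : ∃ a b : F, a ^ 2 + b ^ 2 = v := by
  classical
  let _ := Fintype.ofFinite F
  by_cases h2 : ringChar F = 2
  · obtain ⟨a, ha⟩ := FiniteField.isSquare_of_char_two h2 v
    exact ⟨a, 0, by rw [ha]; ring⟩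
  · have hodd : Fintype.card F % 2 = 1 := by
      exact FiniteField.odd_card_of_char_ne_two h2
    obtain ⟨a, b, hab⟩ := FiniteField.exists_root_sum_quadratic (f := Polynomial.X ^ 2)
      (g := Polynomial.X ^ 2 - Polynomial.C v) (Polynomial.degree_X_pow 2)
      (Polynomial.degree_X_pow_sub_C (by decide) _) hodd
    refine ⟨a, b, ?_⟩
    simp only [Polynomial.eval_pow, Polynomial.eval_X, Polynomial.eval_sub, Polynomial.eval_C] at hab
    linear_combination hab

/-- An additive subgroup of a finite field stable under `c` and containing `1` is everything, if the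
squares of the units are powers of `c`. -/
theorem full_of_scale [Finite F] {t : ℕ} (c : Fˣ) {g : GL D.Idx F} (hg : g ∈ K)
    (hgc : ∀ u : F, g * X hA t u * g⁻¹ = X hA t ((c : F) * u)) (hone : One hA K t)
    (hsq : ∀ x : Fˣ, x ^ 2 ∈ Subgroup.zpowers c) : Full hA K t := by
  have hpow : ∀ n : ℕ, ∀ u : F, X hA t u ∈ K → X hA t (((c ^ n : Fˣ) : F) * u) ∈ K := by
    intro n
    induction n with
    | zero =>
      intro u hu
      simpa using hu
    | succ n ih =>
      intro u hu
      have h1 := ih _ (show X hA t ((c : F) * u) ∈ K by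
        rw [← hgc]
        exact K.mul_mem (K.mul_mem hg hu) (K.inv_mem hg))
      have h2 : ((c ^ (n + 1) : Fˣ) : F) * u = ((c ^ n : Fˣ) : F) * ((c : F) * u) := by
        rw [pow_succ, Units.val_mul, mul_assoc]
      rwa [h2]
  have hsq' : ∀ a : F, X hA t (a ^ 2) ∈ K := by
    intro a
    by_cases ha : a = 0
    · subst ha
      simp only [ne_eq, OfNat.ofNat_ne_zero, not_false_eq_true, zero_pow]
      exact X_zero_mem t
    · have h1 := hsq (Units.mk0 a ha)
      rw [← mem_powers_iff_mem_zpowers] at h1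
      obtain ⟨n, hn⟩ := h1
      have h2 := hpow n 1 hone
      have h3 : ((c ^ n : Fˣ) : F) = a ^ 2 := by
        have := congrArg (Units.val) hn
        simpa using this
      rwa [mul_one, h3] at h2
  intro v
  obtain ⟨a, b, rfl⟩ := exists_sq_add_sq v
  rw [← X_mul]
  exact K.mul_mem (hsq' a) (hsq' b)

/-- The powers of `x_r(t)`. -/
theorem X_pow (r : ℕ) (t : F) (n : ℕ) : X hA r t ^ n = X hA r ((n : F) * t) := by
  induction n with
  | zero => simp
  | succ n ih =>
    rw [pow_succ, ih, X_mul]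
    congr 1
    push_cast
    ring

/-- A product of an element `x_r(1)` and a commuting element of order prime to the characteristic. -/
theorem stage0 [Finite F] {r : ℕ} {g b : GL D.Idx F} (hb : b = X hA r 1 * g) (hcomm : Commute (X hA r (1 : F)) g)
    {N : ℕ} (hN : g ^ N = 1) (hN0 : (N : F) ≠ 0) (hbK : b ∈ K) : One hA K r ∧ g ∈ K := by
  classical
  let _ := Fintype.ofFinite F
  have h1 : X hA r (N : F) ∈ K := by
    have h2 := K.pow_mem hbK N
    rw [hb, hcomm.mul_pow, hN, mul_one, X_pow, mul_one] at h2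
    exact h2
  have h3 : One hA K r := by
    have h2 := K.pow_mem h1 (N ^ (Fintype.card F - 2))
    rw [X_pow] at h2
    have h4 : ((N ^ (Fintype.card F - 2) : ℕ) : F) * (N : F) = 1 := by
      have h5 := FiniteField.pow_card_sub_one_eq_one (N : F) hN0
      have h6 : 2 ≤ Fintype.card F := Fintype.one_lt_card
      have h7 : Fintype.card F - 1 = (Fintype.card F - 2) + 1 := by omega
      rw [h7, pow_succ] at h5
      push_cast
      exact h5
    rw [h4] at h2
    exact h2
  refine ⟨h3, ?_⟩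
  have h8 : g = (X hA r (1 : F))⁻¹ * b := by
    rw [hb]
    group
  rw [h8]
  exact K.mul_mem (K.inv_mem h3) hbK

end Gen

section Main

variable (hR : Sys D F η) (hT : Tbl D)
  (hC : ∀ r s : ℕ, r < D.nroots → s < D.nroots → s ≠ r → s ≠ D.neg r → ∀ t u : F,
    D.x F s u * D.x F r t = D.x F r t * D.x F s u * D.wordMat F (D.commWord F r s t u))

include hC in
/-- The commutator formula in `GL`. -/
theorem comm_X {r s : ℕ} (hr : r < D.nroots) (hs : s < D.nroots) (h1 : s ≠ r) (h2 : s ≠ D.neg r) (t u : F) :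
    X hR.toAddRel s u * X hR.toAddRel r t =
      X hR.toAddRel r t * X hR.toAddRel s u * W hR.toAddRel (D.commWord F r s t u) := by
  apply Units.ext
  simp only [Units.val_mul, coe_X, coe_W]
  exact hC r s hr hs h1 h2 t u

include hC in
/-- Root elements whose commutator word is empty commute. -/
theorem comm_nil {r s : ℕ} (hr : r < D.nroots) (hs : s < D.nroots) (h1 : s ≠ r) (h2 : s ≠ D.neg r)
    (h3 : D.commTerms r s = []) (t u : F) :
    X hR.toAddRel s u * X hR.toAddRel r t = X hR.toAddRel r t * X hR.toAddRel s u := by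
  rw [comm_X hR hC hr hs h1 h2 t u, ChevalleyDatum.commWord, h3]
  simp

/-- The lift of a word. -/
noncomputable def aW (l : List ℕ) : GL D.Idx F := (l.map (A hR)).prod

include hT in
theorem aW_conj {l : List ℕ} (hl : ∀ i ∈ l, i < D.rank) {r : ℕ} (hr : r < D.nroots) :
    piW D l r < D.nroots ∧ ∃ ε : F, ε * ε = 1 ∧ ∀ t : F,
      aW hR l * X hR.toAddRel r t * (aW hR l)⁻¹ = X hR.toAddRel (piW D l r) (ε * t) := by
  induction l with
  | nil =>
    refine ⟨hr, 1, by simp, fun t => ?_⟩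
    simp [aW, piW]
  | cons i l ih =>
    obtain ⟨h1, ε, hε, h2⟩ := ih fun j hj => hl j (by simp [hj])
    have hi : i < D.rank := hl i (by simp)
    refine ⟨hT.w_lt i hi _ h1, (η i (piW D l r) : F) * ε, ?_, fun t => ?_⟩
    · have h3 : (η i (piW D l r) : F) * (η i (piW D l r) : F) = 1 := by
        rcases hR.eta_sign i hi _ h1 with h | h <;> simp [h]
      calc (η i (piW D l r) : F) * ε * ((η i (piW D l r) : F) * ε)
          = ((η i (piW D l r) : F) * (η i (piW D l r) : F)) * (ε * ε) := by ring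
        _ = 1 := by rw [h3, hε, one_mul]
    · have h3 : aW hR (i :: l) = A hR i * aW hR l := by simp [aW]
      have h4 := A_conj_X hR hi h1 (ε * t)
      rw [← h2 t] at h4
      rw [h3, _root_.mul_inv_rev]
      have h5 : piW D (i :: l) r = D.reflectRoot i (piW D l r) := rfl
      rw [h5, mul_assoc (η i (piW D l r) : F), ← h4]
      group

variable {K : Subgroup (GL D.Idx F)}

include hT in
theorem full_pi {l : List ℕ} (hl : ∀ i ∈ l, i < D.rank) (ha : aW hR l ∈ K) {r : ℕ} (hr : r < D.nroots)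
    (h : Full hR.toAddRel K r) : Full hR.toAddRel K (piW D l r) := by
  obtain ⟨-, ε, hε, h2⟩ := aW_conj hR hT hl hr
  intro t
  have h3 := h2 (ε * t)
  rw [← mul_assoc, hε, one_mul] at h3
  rw [← h3]
  exact K.mul_mem (K.mul_mem ha (h _)) (K.inv_mem ha)

include hT in
theorem one_pi {l : List ℕ} (hl : ∀ i ∈ l, i < D.rank) (ha : aW hR l ∈ K) {r : ℕ} (hr : r < D.nroots)
    (h : One hR.toAddRel K r) : One hR.toAddRel K (piW D l r) := by
  obtain ⟨-, ε, hε, h2⟩ := aW_conj hR hT hl hr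
  have h3 := h2 1
  have h4 : X hR.toAddRel (piW D l r) (ε * 1) ∈ K := by
    rw [← h3]
    exact K.mul_mem (K.mul_mem ha h) (K.inv_mem ha)
  rw [mul_one] at h4
  have h5 : (ε - 1) * (ε + 1) = 0 := by linear_combination hε
  rcases mul_eq_zero.1 h5 with h6 | h6
  · have : ε = 1 := sub_eq_zero.1 h6
    rw [this] at h4
    exact h4
  · have : ε = -1 := eq_neg_of_add_eq_zero_left h6
    rw [this] at h4
    have h7 := K.inv_mem h4
    rw [X_inv, neg_neg] at h7
    exact h7

/-- The invariant of a certificate. -/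
def Inv (hA : AddRel D F) (K : Subgroup (GL D.Idx F)) (st : List ℕ × List ℕ) : Prop :=
  (∀ x ∈ st.1, x < D.nroots ∧ One hA K x) ∧ (∀ x ∈ st.2, x < D.nroots ∧ Full hA K x)

theorem Inv.one {hA : AddRel D F} {st : List ℕ × List ℕ} (h : Inv hA K st) {x : ℕ}
    (hx : (memB st.1 x || memB st.2 x) = true) : x < D.nroots ∧ One hA K x := by
  rcases Bool.or_eq_true_iff.1 hx with h1 | h1
  · exact h.1 x (memB_iff.1 h1)
  · exact ⟨(h.2 x (memB_iff.1 h1)).1, (h.2 x (memB_iff.1 h1)).2.one⟩

include hT hC in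
/-- The soundness of a step. -/
theorem step_sound {l : List ℕ} (hl : ∀ i ∈ l, i < D.rank) (ha : aW hR l ∈ K) {units : ℤ → Bool}
    (hu : ∀ c : ℤ, units c = true → (c : F) ≠ 0) {st st' : List ℕ × List ℕ} (hst : Inv hR.toAddRel K st) {o : Op}
    (h : stepOp D l units st o = some st') : Inv hR.toAddRel K st' := by
  cases o with
  | opi r =>
    simp only [stepOp] at h
    split_ifs at h with h1
    obtain ⟨hr, h2⟩ := hst.one h1
    cases h
    refine ⟨?_, hst.2⟩
    intro x hx
    rcases List.mem_cons.1 hx with rfl | hx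
    · exact ⟨(aW_conj hR hT hl hr).1, one_pi hR hT hl ha hr h2⟩
    · exact hst.1 x hx
  | ofi r =>
    simp only [stepOp] at h
    split_ifs at h with h1
    obtain ⟨hr, h2⟩ := hst.2 r (memB_iff.1 h1)
    cases h
    refine ⟨hst.1, ?_⟩
    intro x hx
    rcases List.mem_cons.1 hx with rfl | hx
    · exact ⟨(aW_conj hR hT hl hr).1, full_pi hR hT hl ha hr h2⟩
    · exact hst.2 x hx
  | oadd r s q =>
    simp only [stepOp] at h
    split_ifs at h with h1
    simp only [Bool.and_eq_true] at h1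
    obtain ⟨⟨⟨h2, h3⟩, h4⟩, h5⟩ := h1
    obtain ⟨hr, h6⟩ := hst.one h2
    obtain ⟨hs, h7⟩ := hst.one h3
    obtain ⟨-, -, h8, h9⟩ := pairOK_iff.1 h4
    have h10 : q < D.nroots := Eq.mp Nat.blt_eq h5
    split at h
    · rename_i c hc
      split_ifs at h with h11
      simp only [Bool.and_eq_true] at h11
      obtain ⟨h12, h13⟩ := h11
      have h14 : c.1 = q := Nat.eq_of_beq_eq_true h12
      cases h
      refine ⟨?_, hst.2⟩
      intro x hx
      rcases List.mem_cons.1 hx with rfl | hx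
      · refine ⟨h10, ?_⟩
        have h15 := comm_X hR hC hr hs h8 h9 (-1 : F) 1
        rw [ChevalleyDatum.commWord, hc] at h15
        simp only [List.map_cons, List.map_nil, W_cons, W_nil, mul_one, neg_neg, one_pow] at h15
        have h16 : X hR.toAddRel c.1 (c.2.1 : F) ∈ K := by
          have h17 : X hR.toAddRel c.1 (c.2.1 : F) =
              (X hR.toAddRel s 1)⁻¹ * (X hR.toAddRel r (-1 : F))⁻¹ * (X hR.toAddRel s 1 * X hR.toAddRel r (-1 : F)) := by
            rw [h15]
            group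
          rw [h17]
          exact K.mul_mem (K.mul_mem (K.inv_mem h7) (K.inv_mem h6.neg)) (K.mul_mem h7 h6.neg)
        rw [h14] at h16
        rcases Bool.or_eq_true_iff.1 h13 with h18 | h18
        · have : c.2.1 = 1 := by simpa using h18
          rw [this] at h16
          show X hR.toAddRel x (1 : F) ∈ K
          simpa using h16
        · have : c.2.1 = -1 := by simpa using h18
          rw [this] at h16
          have h19 := K.inv_mem h16
          rw [X_inv] at h19
          show X hR.toAddRel x (1 : F) ∈ K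
          simpa using h19
      · exact hst.1 x hx
    · cases h
  | fadd r s q =>
    simp only [stepOp] at h
    split_ifs at h with h1
    simp only [Bool.and_eq_true] at h1
    obtain ⟨⟨⟨h2, h3⟩, h4⟩, h5⟩ := h1
    obtain ⟨hr, h6⟩ := hst.one h2
    obtain ⟨hs, h7⟩ := hst.2 s (memB_iff.1 h3)
    obtain ⟨-, -, h8, h9⟩ := pairOK_iff.1 h4
    have h10 : q < D.nroots := Eq.mp Nat.blt_eq h5
    split at h
    · rename_i c hc
      split_ifs at h with h11
      simp only [Bool.and_eq_true] at h11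
      obtain ⟨⟨h12, h13⟩, h14⟩ := h11
      have h15 : c.1 = q := Nat.eq_of_beq_eq_true h12
      have h16 : c.2.2.2 = 1 := Nat.eq_of_beq_eq_true h14
      have h17 := hu _ h13
      cases h
      refine ⟨hst.1, ?_⟩
      intro x hx
      rcases List.mem_cons.1 hx with rfl | hx
      · refine ⟨h10, fun v => ?_⟩
        have hW : W hR.toAddRel (D.commWord F r s (-1 : F) ((c.2.1 : F)⁻¹ * v)) ∈ K := by
          have h18 := comm_X hR hC hr hs h8 h9 (-1 : F) ((c.2.1 : F)⁻¹ * v)
          have h19 : W hR.toAddRel (D.commWord F r s (-1 : F) ((c.2.1 : F)⁻¹ * v)) =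
              (X hR.toAddRel s ((c.2.1 : F)⁻¹ * v))⁻¹ * (X hR.toAddRel r (-1 : F))⁻¹ *
                (X hR.toAddRel s ((c.2.1 : F)⁻¹ * v) * X hR.toAddRel r (-1 : F)) := by
            rw [h18]
            group
          rw [h19]
          exact K.mul_mem (K.mul_mem (K.inv_mem (h7 _)) (K.inv_mem h6.neg)) (K.mul_mem (h7 _) h6.neg)
        have h20 := term_of_W (hA := hR.toAddRel) (K := K) (Fl := st.2) (fun y hy => (hst.2 y hy).2)
          (u := (c.2.1 : F)⁻¹ * v) hc h16 hW
        rw [mul_inv_cancel_left₀ h17, h15] at h20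
        exact h20
      · exact hst.2 x hx
    · cases h

include hT hC in
theorem run_sound {l : List ℕ} (hl : ∀ i ∈ l, i < D.rank) (ha : aW hR l ∈ K) {units : ℤ → Bool}
    (hu : ∀ c : ℤ, units c = true → (c : F) ≠ 0) {ops : List Op} :
    ∀ {st st' : List ℕ × List ℕ}, Inv hR.toAddRel K st → run D l units st ops = some st' → Inv hR.toAddRel K st' := by
  induction ops with
  | nil =>
    intro st st' h1 h2
    cases h2
    exact h1
  | cons o ops ih =>
    intro st st' h1 h2
    simp only [run] at h2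
    split at h2
    · rename_i st'' h3
      exact ih (step_sound hR hT hC hl ha hu h1 h3) h2
    · cases h2

include hT in
/-- The final step. -/
theorem group_le_of_final {Fl : List ℕ} (h : finalOK D Fl = true) (hFl : ∀ x ∈ Fl, Full hR.toAddRel K x) :
    D.group F ≤ K := by
  refine (Cfsg.Agent.Lib.Chevalley.SimpleGen.group_le hR hT).trans ?_
  rw [Cfsg.Agent.Lib.Chevalley.SimpleGen.simpleGen, Subgroup.closure_le]
  rintro g ⟨i, t, hg | hg⟩
  · rw [(eq_X hR.toAddRel).1 hg]
    have := List.all_eq_true.1 h i.1 (List.mem_range.2 i.2)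
    simp only [Bool.and_eq_true] at this
    exact hFl _ (memB_iff.1 this.1) _
  · rw [(eq_X hR.toAddRel).1 hg]
    have := List.all_eq_true.1 h i.1 (List.mem_range.2 i.2)
    simp only [Bool.and_eq_true] at this
    exact hFl _ (memB_iff.1 this.2) _

/-! ### Elements of the torus -/

/-- The coroot combination of a list of roots. -/
def vL (D : ChevalleyDatum) (L : List ℕ) (j : ℕ) : ℤ := (L.map fun t => cr D t j).sum

/-- The product of the `h_t(c)`, `t` in a list. -/
noncomputable def hL (hA : AddRel D F) (L : List ℕ) (c : F) : GL D.Idx F := (L.map fun t => hG hA t c).prod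

include hT in
theorem hL_eq {L : List ℕ} (hLn : ∀ t ∈ L, t < D.nroots) {c : F} (hc : c ≠ 0) :
    hL hR.toAddRel L c = hP hR (fun j => c ^ vL D L j) := by
  induction L with
  | nil =>
    simp only [hL, List.map_nil, List.prod_nil, vL, List.sum_nil, zpow_zero]
    exact (hP_one hR).symm
  | cons t L ih =>
    have h1 : hL hR.toAddRel (t :: L) c = hG hR.toAddRel t c * hL hR.toAddRel L c := by simp [hL]
    rw [h1, ih fun x hx => hLn x (by simp [hx]), hG_eq_hP hR hT (hLn t (by simp)) hc,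
      hP_mul hR (fun j _ => zpow_ne_zero _ hc) (fun j _ => zpow_ne_zero _ hc)]
    congr 1
    funext j
    simp only [Pi.mul_apply, vL, List.map_cons, List.sum_cons]
    rw [zpow_add₀ hc]

include hT in
theorem hL_conj {L : List ℕ} (hLn : ∀ t ∈ L, t < D.nroots) {c : F} (hc : c ≠ 0) {s : ℕ} (hs : s < D.nroots) (u : F) :
    hL hR.toAddRel L c * X hR.toAddRel s u * (hL hR.toAddRel L c)⁻¹ =
      X hR.toAddRel s (c ^ Ad D (vL D L) s * u) := by
  rw [hL_eq hR hT hLn hc, hP_conj hR (fun j _ => zpow_ne_zero _ hc) hs u, chi_pow hc]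

theorem hP_pow {d : ℕ → F} (hd : ∀ j < D.rank, d j ≠ 0) (n : ℕ) : hP hR d ^ n = hP hR (d ^ n) := by
  induction n with
  | zero =>
    simp only [pow_zero]
    exact (hP_one hR).symm
  | succ n ih =>
    rw [pow_succ, ih, hP_mul hR (fun j hj => by simpa using pow_ne_zero n (hd j hj)) hd, pow_succ]

include hT in
theorem hL_pow_card [Finite F] {L : List ℕ} (hLn : ∀ t ∈ L, t < D.nroots) {c : F} (hc : c ≠ 0) :
    hL hR.toAddRel L c ^ (Nat.card F - 1) = 1 := by
  classical
  let _ := Fintype.ofFinite F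
  rw [hL_eq hR hT hLn hc, hP_pow hR (fun j _ => zpow_ne_zero _ hc)]
  have h1 : c ^ (Nat.card F - 1) = 1 := by
    rw [Nat.card_eq_fintype_card]
    exact FiniteField.pow_card_sub_one_eq_one c hc
  have h2 : ((fun j => c ^ vL D L j) ^ (Nat.card F - 1) : ℕ → F) = fun _ => 1 := by
    funext j
    simp only [Pi.pow_apply]
    rw [← zpow_natCast, zpow_comm, zpow_natCast, h1, _root_.one_zpow]
  rw [h2]
  exact hP_one hR

theorem card_sub_one_ne_zero [Finite F] : ((Nat.card F - 1 : ℕ) : F) ≠ 0 := by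
  classical
  let _ := Fintype.ofFinite F
  have h1 : 1 ≤ Nat.card F := Nat.card_pos
  rw [Nat.cast_sub h1, Nat.card_eq_fintype_card, FiniteField.cast_card_eq_zero]
  simp

/-- Squares and generators. -/
theorem sq_mem_of_dvd {ζ : Fˣ} (hζ : ∀ x, x ∈ Subgroup.zpowers ζ) {m : ℤ} (hm : m ∣ 2) (x : Fˣ) :
    x ^ 2 ∈ Subgroup.zpowers (ζ ^ m) := by
  obtain ⟨n, rfl⟩ := hζ x
  obtain ⟨e, he⟩ := hm
  refine ⟨e * n, ?_⟩
  show (ζ ^ m) ^ (e * n) = (ζ ^ n) ^ 2
  rw [← _root_.zpow_mul, ← mul_assoc, ← he, ← zpow_natCast, ← _root_.zpow_mul]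
  congr 1
  push_cast
  ring

/-- The subgroup generated by `a, b`. -/
theorem closure_eq_top {a b : ↥(D.group F)}
    (h : D.group F ≤ (Subgroup.closure ({a, b} : Set ↥(D.group F))).map (D.group F).subtype) :
    Subgroup.closure ({a, b} : Set ↥(D.group F)) = ⊤ := by
  rw [eq_top_iff]
  intro y _
  obtain ⟨z, hz, hzy⟩ := h y.2
  have : z = y := Subtype.ext hzy
  rwa [← this]

include hT in
theorem aW_mem_group {l : List ℕ} (hl : ∀ i ∈ l, i < D.rank) : aW hR l ∈ D.group F := by
  induction l with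
  | nil => simp [aW]
  | cons i l ih =>
    have h3 : aW hR (i :: l) = A hR i * aW hR l := by simp [aW]
    rw [h3]
    exact Subgroup.mul_mem _ (nG_mem_group hR hT (hT.simple_lt (hl i (by simp))) _) (ih fun j hj => hl j (by simp [hj]))

/-! ### Unit coefficients -/

/-- The coefficients `±1`. -/
def u1 (c : ℤ) : Bool := c == 1 || c == -1

/-- The coefficients `±1, ±2`. -/
def u2 (c : ℤ) : Bool := c == 1 || c == -1 || c == 2 || c == -2

/-- The coefficients `±1, ±3`. -/
def u3 (c : ℤ) : Bool := c == 1 || c == -1 || c == 3 || c == -3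

theorem u1_ne {c : ℤ} (h : u1 c = true) : (c : F) ≠ 0 := by
  simp only [u1, Bool.or_eq_true, beq_iff_eq] at h
  rcases h with rfl | rfl <;> simp

theorem u2_ne (h2 : (2 : F) ≠ 0) {c : ℤ} (h : u2 c = true) : (c : F) ≠ 0 := by
  simp only [u2, Bool.or_eq_true, beq_iff_eq] at h
  rcases h with ((rfl | rfl) | rfl) | rfl <;> simp [h2]

theorem u3_ne (h3 : (3 : F) ≠ 0) {c : ℤ} (h : u3 c = true) : (c : F) ≠ 0 := by
  simp only [u3, Bool.or_eq_true, beq_iff_eq] at h
  rcases h with ((rfl | rfl) | rfl) | rfl <;> simp [h3]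

/-! ### The stages of the argument -/

include hT hC in
/-- From one root element to the first full root subgroup and its closure. -/
theorem stage1 [Finite F] {l : List ℕ} (hl : ∀ i ∈ l, i < D.rank) (ha : aW hR l ∈ K) {units : ℤ → Bool}
    (hu : ∀ c : ℤ, units c = true → (c : F) ≠ 0) {r t0 : ℕ} {O1 F1 O2 F2 : List ℕ} {ops1 ops2 : List Op}
    (hr : r < D.nroots) (hone : One hR.toAddRel K r)
    (h1 : run D l units ([r], []) ops1 = some (O1, F1)) (ht0 : memB O1 t0 = true)
    {g : GL D.Idx F} (hg : g ∈ K) {c : Fˣ}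
    (hgc : ∀ u : F, g * X hR.toAddRel t0 u * g⁻¹ = X hR.toAddRel t0 ((c : F) * u))
    (hsq : ∀ x : Fˣ, x ^ 2 ∈ Subgroup.zpowers c)
    (h2 : run D l units (O1, t0 :: F1) ops2 = some (O2, F2)) : Inv hR.toAddRel K (O2, F2) := by
  have h3 : Inv hR.toAddRel K (O1, F1) := by
    refine run_sound hR hT hC hl ha hu (st := ([r], [])) ?_ h1
    constructor
    · intro x hx
      obtain rfl : x = r := by simpa using hx
      exact ⟨hr, hone⟩
    · intro x hx
      simp at hx
  have h4 := h3.1 t0 (memB_iff.1 ht0)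
  refine run_sound hR hT hC hl ha hu (st := (O1, t0 :: F1)) ⟨h3.1, ?_⟩ h2
  intro x hx
  rcases List.mem_cons.1 hx with rfl | hx
  · exact ⟨h4.1, full_of_scale c hg hgc h4.2 hsq⟩
  · exact h3.2 x hx

/-- The checks of the first scheme. -/
def checkA (D : ChevalleyDatum) (l L : List ℕ) (r t0 : ℕ) (m : ℤ) (units : ℤ → Bool) (ops1 ops2 : List Op) : Bool :=
  l.all (fun i => Nat.blt i D.rank) && L.all (fun t => Nat.blt t D.nroots) && Nat.blt r D.nroots &&
    Nat.blt t0 D.nroots &&
    (Ad D (vL D L) r == 0) && (Ad D (vL D L) t0 == m) && (m == 1 || m == -1 || m == 2 || m == -2) &&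
    match run D l units ([r], []) ops1 with
    | none => false
    | some st1 =>
      memB st1.1 t0 && match run D l units (st1.1, t0 :: st1.2) ops2 with
      | none => false
      | some st2 => finalOK D st2.2

theorem dvd_two_of {m : ℤ} (h : (m == 1 || m == -1 || m == 2 || m == -2) = true) : m ∣ 2 := by
  simp only [Bool.or_eq_true, beq_iff_eq] at h
  rcases h with ((h | h) | h) | h <;> subst h <;> decide

include hT in
/-- The action of the torus element. -/
theorem hL_conj_units {L : List ℕ} (hLn : ∀ t ∈ L, t < D.nroots) (ζ : Fˣ) {s : ℕ} (hs : s < D.nroots) (u : F) :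
    hL hR.toAddRel L (ζ : F) * X hR.toAddRel s u * (hL hR.toAddRel L (ζ : F))⁻¹ =
      X hR.toAddRel s (((ζ ^ Ad D (vL D L) s : Fˣ) : F) * u) := by
  rw [hL_conj hR hT hLn ζ.ne_zero hs u, Units.val_zpow_eq_zpow_val]

include hT in
/-- A root element commutes with the torus element if the pairing vanishes. -/
theorem hL_commute {L : List ℕ} (hLn : ∀ t ∈ L, t < D.nroots) (ζ : Fˣ) {s : ℕ} (hs : s < D.nroots)
    (h0 : Ad D (vL D L) s = 0) (u : F) : Commute (X hR.toAddRel s u) (hL hR.toAddRel L (ζ : F)) := by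
  have h1 := hL_conj hR hT hLn ζ.ne_zero hs u
  rw [h0, zpow_zero, one_mul] at h1
  show X hR.toAddRel s u * hL hR.toAddRel L (ζ : F) = hL hR.toAddRel L (ζ : F) * X hR.toAddRel s u
  exact (mul_inv_eq_iff_eq_mul.1 h1).symm

include hT hC in
/-- The first scheme: `b = x_r(1) h`. -/
theorem schemeA [Finite F] {ζ : Fˣ} (hζ : ∀ x, x ∈ Subgroup.zpowers ζ) {l L : List ℕ} {r t0 : ℕ} {m : ℤ}
    {units : ℤ → Bool} {ops1 ops2 : List Op} (hu : ∀ c : ℤ, units c = true → (c : F) ≠ 0)
    (h : checkA D l L r t0 m units ops1 ops2 = true) (ha : aW hR l ∈ K)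
    (hb : X hR.toAddRel r 1 * hL hR.toAddRel L (ζ : F) ∈ K) : D.group F ≤ K := by
  simp only [checkA, Bool.and_eq_true, List.all_eq_true, beq_iff_eq] at h
  obtain ⟨⟨⟨⟨⟨⟨⟨hl, hLn⟩, hr⟩, ht⟩, hAd0⟩, hAd1⟩, hm⟩, h⟩ := h
  have hl' : ∀ i ∈ l, i < D.rank := fun i hi => Eq.mp Nat.blt_eq (hl i hi)
  have hLn' : ∀ t ∈ L, t < D.nroots := fun i hi => Eq.mp Nat.blt_eq (hLn i hi)
  have hr' : r < D.nroots := Eq.mp Nat.blt_eq hr
  have ht' : t0 < D.nroots := Eq.mp Nat.blt_eq ht
  obtain ⟨hone, hg⟩ := stage0 (N := Nat.card F - 1) rfl (hL_commute hR hT hLn' ζ hr' hAd0 1)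
    (hL_pow_card hR hT hLn' ζ.ne_zero) card_sub_one_ne_zero hb
  split at h
  · cases h
  · rename_i st1 h1
    simp only [Bool.and_eq_true] at h
    obtain ⟨ht0, h⟩ := h
    split at h
    · cases h
    · rename_i st2 h2
      have h3 := stage1 hR hT hC hl' ha hu hr' hone h1 ht0 hg (c := ζ ^ m) (fun u => by
          rw [hL_conj_units hR hT hLn' ζ ht' u, hAd1])
        (sq_mem_of_dvd hζ (dvd_two_of hm)) h2
      exact group_le_of_final hR hT h fun x hx => (h3.2 x hx).2

/-! ### The second scheme: `b = x_r(1) y h` with `y` in a root `SL₂` -/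

/-- The element `y` in the `SL₂` of the root `s`. -/
noncomputable def yEl (hA : AddRel D F) (s : ℕ) (c : F) : GL D.Idx F := X hA s 1 * X hA (D.neg s) c

include hR hT in
/-- `y` has a power equal to one, with exponent prime to the characteristic. -/
theorem exists_y (hc : ∀ i < D.rank, D.cartan i (D.simple i) = 2) (hη : ∀ i < D.rank, η i (D.simple i) = -1)
    {s : ℕ} (hs : s < D.nroots) :
    ∃ (c : F) (m : ℕ), yEl hR.toAddRel s c ^ m = 1 ∧ (m : F) ≠ 0 := by
  obtain ⟨φ, -, hφ⟩ := Cfsg.Agent.Lib.Chevalley.SL2Root.exists_hom hR hT hc hη hs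
  have key : ∀ (c : F) (m : ℕ), (!![1 + c, 1; c, 1] : Matrix (Fin 2) (Fin 2) F) ^ m = 1 →
      yEl hR.toAddRel s c ^ m = 1 := by
    intro c m hm
    let A : Matrix.SpecialLinearGroup (Fin 2) F := ⟨!![1, 1; 0, 1], by simp [Matrix.det_fin_two]⟩
    let B : Matrix.SpecialLinearGroup (Fin 2) F := ⟨!![1, 0; c, 1], by simp [Matrix.det_fin_two]⟩
    have hA : φ A = X hR.toAddRel s 1 := (eq_X hR.toAddRel).1 ((hφ A 1).1 rfl)
    have hB : φ B = X hR.toAddRel (D.neg s) c := (eq_X hR.toAddRel).1 ((hφ B c).2 rfl)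
    have h1 : yEl hR.toAddRel s c = φ (A * B) := by
      rw [map_mul, hA, hB]
      rfl
    rw [h1, ← map_pow]
    have h2 : (A * B) ^ m = 1 := by
      apply Subtype.ext
      rw [Matrix.SpecialLinearGroup.coe_pow, Matrix.SpecialLinearGroup.coe_mul]
      have h3 : (A : Matrix (Fin 2) (Fin 2) F) * (B : Matrix (Fin 2) (Fin 2) F) = !![1 + c, 1; c, 1] := by
        simp [A, B, Matrix.mul_fin_two]
      rw [h3, hm]
      rfl
    rw [h2, map_one]
  by_cases h2 : (2 : F) = 0
  · refine ⟨-1, 3, key _ _ ?_, ?_⟩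
    · have : (!![1 + -1, 1; -1, 1] : Matrix (Fin 2) (Fin 2) F) ^ 3 = !![-1, 0; 0, -1] := by
        simp [pow_succ, Matrix.mul_fin_two]
      have h3 : (-1 : F) = 1 := by linear_combination -h2
      rw [this, Matrix.one_fin_two, h3]
    · have : ((3 : ℕ) : F) = 1 := by
        push_cast
        linear_combination h2
      rw [this]
      exact one_ne_zero
  · by_cases h3 : (3 : F) = 0
    · refine ⟨1, 4, key _ _ ?_, ?_⟩
      · have h5 : (1 + 1 : F) = -1 := by linear_combination h3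
        have : (!![1 + 1, 1; 1, 1] : Matrix (Fin 2) (Fin 2) F) ^ 2 = !![-1, 0; 0, -1] := by
          ext i j
          fin_cases i <;> fin_cases j <;> simp [pow_succ]
          · linear_combination (2 : F) * h3
          · linear_combination h3
          · linear_combination h3
          · linear_combination h3
        rw [show (4 : ℕ) = 2 * 2 from rfl, pow_mul, this]
        simp [pow_succ, Matrix.mul_fin_two, Matrix.one_fin_two]
      · have : ((4 : ℕ) : F) = 1 := by
          push_cast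
          linear_combination h3
        rw [this]
        exact one_ne_zero
    · refine ⟨-1, 6, key _ _ ?_, ?_⟩
      · have : (!![1 + -1, 1; -1, 1] : Matrix (Fin 2) (Fin 2) F) ^ 3 = !![-1, 0; 0, -1] := by
          simp [pow_succ, Matrix.mul_fin_two]
        rw [show (6 : ℕ) = 3 * 2 from rfl, pow_mul, this]
        simp [pow_succ, Matrix.mul_fin_two, Matrix.one_fin_two]
      · have : ((6 : ℕ) : F) = 2 * 3 := by
          push_cast
          ring
        rw [this]
        exact mul_ne_zero h2 h3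

/-- The checks of the second scheme. -/
def checkB (D : ChevalleyDatum) (l L : List ℕ) (r s t0 t1 q : ℕ) (m : ℤ) (units : ℤ → Bool)
    (ops1 ops2 ops3 : List Op) : Bool :=
  l.all (fun i => Nat.blt i D.rank) && L.all (fun t => Nat.blt t D.nroots) && Nat.blt r D.nroots &&
    Nat.blt t0 D.nroots && Nat.blt t1 D.nroots && Nat.blt q D.nroots &&
    pairOK D r s && pairOK D r (D.neg s) && pairOK D t0 s && pairOK D t0 (D.neg s) && pairOK D s t1 &&
    pairOK D (D.neg s) t1 && Nat.blt (D.neg s) D.nroots && Nat.beq (D.neg (D.neg s)) s &&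
    (D.commTerms r s).isEmpty && (D.commTerms r (D.neg s)).isEmpty &&
    (D.commTerms t0 s).isEmpty && (D.commTerms t0 (D.neg s)).isEmpty && (D.commTerms (D.neg s) t1).isEmpty &&
    (Ad D (vL D L) r == 0) && (Ad D (vL D L) s == 0) && (Ad D (vL D L) (D.neg s) == 0) &&
    (Ad D (vL D L) t0 == m) && (m == 1 || m == -1 || m == 2 || m == -2) &&
    match run D l units ([r], []) ops1 with
    | none => false
    | some st1 =>
      memB st1.1 t0 && match run D l units (st1.1, t0 :: st1.2) ops2 with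
      | none => false
      | some st2 =>
        memB st2.2 t1 && (match miss st2.2 (D.commTerms s t1) with
          | [c] => Nat.beq c.1 q && units c.2.1 && Nat.beq c.2.2.2 1
          | _ => false) &&
        match run D l units (st2.1, q :: st2.2) ops3 with
        | none => false
        | some st3 => finalOK D st3.2

/-- The conjugation by a product. -/
theorem mul_conj_eq (y h x : GL D.Idx F) (x' : GL D.Idx F) (h1 : h * x * h⁻¹ = x') :
    (y * h) * x * (y * h)⁻¹ = y * x' * y⁻¹ := by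
  rw [← h1]
  group

include hT hC in
/-- The second scheme: `b = x_r(1) y h`. -/
theorem schemeB [Finite F] {ζ : Fˣ} (hζ : ∀ x, x ∈ Subgroup.zpowers ζ) {l L : List ℕ} {r s t0 t1 q : ℕ} {m : ℤ}
    {units : ℤ → Bool} {ops1 ops2 ops3 : List Op} (hu : ∀ c : ℤ, units c = true → (c : F) ≠ 0)
    (h : checkB D l L r s t0 t1 q m units ops1 ops2 ops3 = true) (ha : aW hR l ∈ K)
    {c : F} {my : ℕ} (hy : yEl hR.toAddRel s c ^ my = 1) (hmy : (my : F) ≠ 0)
    (hb : X hR.toAddRel r 1 * (yEl hR.toAddRel s c * hL hR.toAddRel L (ζ : F)) ∈ K) : D.group F ≤ K := by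
  simp only [checkB, Bool.and_eq_true, List.all_eq_true, beq_iff_eq, List.isEmpty_iff] at h
  obtain ⟨⟨⟨⟨⟨⟨⟨⟨⟨⟨⟨⟨⟨⟨⟨⟨⟨⟨⟨⟨⟨⟨⟨⟨hl, hLn⟩, hr⟩, ht0⟩, ht1⟩, hq⟩, hrs⟩, hrs'⟩, hts⟩, hts'⟩, hst⟩, hst'⟩, hns⟩, hnn⟩,
    hc1⟩, hc2⟩, hc3⟩, hc4⟩, hc5⟩, hAr⟩, hAs⟩, hAs'⟩, hAt⟩, hm⟩, h⟩ := h
  have hl' : ∀ i ∈ l, i < D.rank := fun i hi => Eq.mp Nat.blt_eq (hl i hi)
  have hLn' : ∀ t ∈ L, t < D.nroots := fun i hi => Eq.mp Nat.blt_eq (hLn i hi)
  have hr' : r < D.nroots := Eq.mp Nat.blt_eq hr
  have ht0' : t0 < D.nroots := Eq.mp Nat.blt_eq ht0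
  have ht1' : t1 < D.nroots := Eq.mp Nat.blt_eq ht1
  have hns' : D.neg s < D.nroots := Eq.mp Nat.blt_eq hns
  obtain ⟨-, hs, hrs1, hrs2⟩ := pairOK_iff.1 hrs
  obtain ⟨-, -, hrs3, hrs4⟩ := pairOK_iff.1 hrs'
  obtain ⟨-, -, hts1, hts2⟩ := pairOK_iff.1 hts
  obtain ⟨-, -, hts3, hts4⟩ := pairOK_iff.1 hts'
  obtain ⟨-, -, hst1, hst2⟩ := pairOK_iff.1 hst
  obtain ⟨-, -, hst3, hst4⟩ := pairOK_iff.1 hst'
  -- commutation
  have hyh : Commute (yEl hR.toAddRel s c) (hL hR.toAddRel L (ζ : F)) :=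
    (hL_commute hR hT hLn' ζ hs hAs 1).mul_left (hL_commute hR hT hLn' ζ hns' hAs' c)
  have hry : ∀ u : F, Commute (X hR.toAddRel r u) (yEl hR.toAddRel s c) := fun u =>
    (show Commute _ _ from (comm_nil hR hC hr' hs hrs1 hrs2 hc1 u 1).symm).mul_right
      (show Commute _ _ from (comm_nil hR hC hr' hns' hrs3 hrs4 hc2 u c).symm)
  have hty : ∀ u : F, Commute (X hR.toAddRel t0 u) (yEl hR.toAddRel s c) := fun u =>
    (show Commute _ _ from (comm_nil hR hC ht0' hs hts1 hts2 hc3 u 1).symm).mul_right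
      (show Commute _ _ from (comm_nil hR hC ht0' hns' hts3 hts4 hc4 u c).symm)
  have hrh := hL_commute hR hT hLn' ζ hr' hAr 1
  have hN : (yEl hR.toAddRel s c * hL hR.toAddRel L (ζ : F)) ^ (my * (Nat.card F - 1)) = 1 := by
    rw [hyh.mul_pow, pow_mul, hy, one_pow, one_mul, mul_comm, pow_mul, hL_pow_card hR hT hLn' ζ.ne_zero, one_pow]
  have hN0 : ((my * (Nat.card F - 1) : ℕ) : F) ≠ 0 := by
    rw [Nat.cast_mul]
    exact mul_ne_zero hmy card_sub_one_ne_zero
  obtain ⟨hone, hg⟩ := stage0 rfl ((hry 1).mul_right hrh) hN hN0 hb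
  -- the first stages
  split at h
  · cases h
  · rename_i st1 h1
    simp only [Bool.and_eq_true] at h
    obtain ⟨ht0m, h⟩ := h
    split at h
    · cases h
    · rename_i st2 h2
      simp only [Bool.and_eq_true] at h
      obtain ⟨⟨ht1m, hmi⟩, h⟩ := h
      have hgc0 : ∀ u : F, (yEl hR.toAddRel s c * hL hR.toAddRel L (ζ : F)) * X hR.toAddRel t0 u *
          (yEl hR.toAddRel s c * hL hR.toAddRel L (ζ : F))⁻¹ = X hR.toAddRel t0 (((ζ ^ m : Fˣ) : F) * u) := by
        intro u
        rw [mul_conj_eq _ _ _ _ (hL_conj_units hR hT hLn' ζ ht0' u), hAt,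
          (hty _).symm.eq, mul_inv_cancel_right]
      have h3 := stage1 hR hT hC hl' ha hu hr' hone h1 ht0m hg hgc0 (sq_mem_of_dvd hζ (dvd_two_of hm)) h2
      -- the step with `y`
      split at hmi
      · rename_i d hd
        simp only [Bool.and_eq_true] at hmi
        obtain ⟨⟨hd1, hd2⟩, hd3⟩ := hmi
        have hd1' : d.1 = q := Nat.eq_of_beq_eq_true hd1
        have hd3' : d.2.2.2 = 1 := Nat.eq_of_beq_eq_true hd3
        have hd0 := hu _ hd2
        have hFt1 := (h3.2 t1 (memB_iff.1 ht1m)).2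
        have hstep : ∀ w : F, W hR.toAddRel (D.commWord F s t1 (-1 : F) w) ∈ K := by
          intro w
          have h5 := hL_conj_units hR hT hLn' ζ ht1' (((ζ ^ Ad D (vL D L) t1 : Fˣ) : F)⁻¹ * w)
          rw [mul_inv_cancel_left₀ (Units.ne_zero _)] at h5
          have h6 := mul_conj_eq (yEl hR.toAddRel s c) _ _ _ h5
          have h7 : X hR.toAddRel t1 w * W hR.toAddRel (D.commWord F s t1 (-1 : F) w) =
              yEl hR.toAddRel s c * X hR.toAddRel t1 w * (yEl hR.toAddRel s c)⁻¹ := by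
            have h8 : Commute (X hR.toAddRel t1 w) (X hR.toAddRel (D.neg s) c) :=
              (comm_nil hR hC hns' ht1' hst3 hst4 hc5 c w)
            have h9 := comm_X hR hC hs ht1' hst1 hst2 (-1 : F) w
            have h10 : (yEl hR.toAddRel s c)⁻¹ = X hR.toAddRel (D.neg s) (-c) * X hR.toAddRel s (-1) := by
              rw [yEl, _root_.mul_inv_rev, X_inv, X_inv]
            rw [h10, yEl]
            have h11 : X hR.toAddRel s 1 * X hR.toAddRel (D.neg s) c * X hR.toAddRel t1 w *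
                (X hR.toAddRel (D.neg s) (-c) * X hR.toAddRel s (-1)) =
                X hR.toAddRel s 1 * (X hR.toAddRel (D.neg s) c * X hR.toAddRel t1 w * X hR.toAddRel (D.neg s) (-c)) *
                  X hR.toAddRel s (-1) := by group
            rw [h11, ← h8.eq, mul_assoc (X hR.toAddRel t1 w), X_mul, add_neg_cancel, X_zero, mul_one, mul_assoc,
              h9, ← mul_assoc, ← mul_assoc, X_mul]
            simp
          have h12 : W hR.toAddRel (D.commWord F s t1 (-1 : F) w) = (X hR.toAddRel t1 w)⁻¹ *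
              (yEl hR.toAddRel s c * X hR.toAddRel t1 w * (yEl hR.toAddRel s c)⁻¹) := by
            rw [← h7]
            group
          rw [h12]
          have h13 : yEl hR.toAddRel s c * X hR.toAddRel t1 w * (yEl hR.toAddRel s c)⁻¹ ∈ K := by
            rw [← h6]
            exact K.mul_mem (K.mul_mem hg (hFt1 _)) (K.inv_mem hg)
          exact K.mul_mem (K.inv_mem (hFt1 _)) h13
        have hFq : Full hR.toAddRel K q := by
          intro v
          have h14 := term_of_W (hA := hR.toAddRel) (K := K) (Fl := st2.2) (fun y hy => (h3.2 y hy).2)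
            (u := (d.2.1 : F)⁻¹ * v) hd hd3' (hstep _)
          rw [mul_inv_cancel_left₀ hd0, hd1'] at h14
          exact h14
        split at h
        · cases h
        · rename_i st3 h4
          have h5 : Inv hR.toAddRel K st3 := by
            refine run_sound hR hT hC hl' ha hu (st := (st2.1, q :: st2.2)) ⟨h3.1, ?_⟩ h4
            intro x hx
            rcases List.mem_cons.1 hx with rfl | hx
            · exact ⟨Eq.mp Nat.blt_eq hq, hFq⟩
            · exact h3.2 x hx
          exact group_le_of_final hR hT h fun x hx => (h5.2 x hx).2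
      · cases hmi

/-! ### The third scheme: `b = x_r(1) x_s(1) h` -/

/-- The checks of the third scheme. -/
def checkC (D : ChevalleyDatum) (l L : List ℕ) (r s t0 t3 : ℕ) (m ms ps : ℤ) (units : ℤ → Bool)
    (ops1 ops2 ops3 : List Op) : Bool :=
  l.all (fun i => Nat.blt i D.rank) && L.all (fun t => Nat.blt t D.nroots) && Nat.blt r D.nroots &&
    Nat.blt t0 D.nroots && Nat.blt t3 D.nroots &&
    pairOK D r s && pairOK D t0 s && (D.commTerms r s).isEmpty && (D.commTerms t0 s).isEmpty &&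
    (Ad D (vL D L) r == 0) && (Ad D (vL D L) s == ms) && (ms == 1 || ms == -1) &&
    (Ad D (vL D L) t0 == m) && (Ad D (vL D [t3]) s == ps) && (ps == 1 || ps == -1) &&
    match run D l units ([r], []) ops1 with
    | none => false
    | some st1 =>
      memB st1.1 t0 && match run D l units (st1.1, t0 :: st1.2) ops2 with
      | none => false
      | some st2 =>
        L.all (fun t => memB st2.2 t && memB st2.2 (D.neg t)) && memB st2.2 t3 && memB st2.2 (D.neg t3) &&
        match run D l units (st2.1, s :: st2.2) ops3 with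
        | none => false
        | some st3 => finalOK D st3.2

/-- Torus elements from the full root subgroups. -/
theorem hL_mem {K : Subgroup (GL D.Idx F)} {hA : AddRel D F} {L : List ℕ}
    (h : ∀ t ∈ L, Full hA K t ∧ Full hA K (D.neg t)) (c : F) : hL hA L c ∈ K := by
  induction L with
  | nil => simp [hL]
  | cons t L ih =>
    have h1 : hL hA (t :: L) c = hG hA t c * hL hA L c := by simp [hL]
    rw [h1]
    obtain ⟨h2, h3⟩ := h t (by simp)
    refine K.mul_mem ?_ (ih fun x hx => h x (by simp [hx]))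
    rw [hG, nG, nG]
    exact K.mul_mem (K.mul_mem (K.mul_mem (h2 _) (h3 _)) (h2 _)) (K.mul_mem (K.mul_mem (h2 _) (h3 _)) (h2 _))

/-- The powers of the product of a root element and a torus element normalising it. -/
theorem mul_pow_conj {hA : AddRel D F} {s : ℕ} {h : GL D.Idx F} {χ : F}
    (hχ : ∀ u : F, h * X hA s u * h⁻¹ = X hA s (χ * u)) (n : ℕ) :
    (X hA s 1 * h) ^ n = X hA s (∑ k ∈ Finset.range n, χ ^ k) * h ^ n := by
  have h1 : ∀ (n : ℕ) (u : F), h ^ n * X hA s u = X hA s (χ ^ n * u) * h ^ n := by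
    intro n
    induction n with
    | zero => simp
    | succ n ih =>
      intro u
      have h2 : h * X hA s u = X hA s (χ * u) * h := mul_inv_eq_iff_eq_mul.1 (hχ u)
      rw [pow_succ, mul_assoc, h2, ← mul_assoc, ih, mul_assoc, pow_succ, mul_assoc (χ ^ n)]
  induction n with
  | zero => simp
  | succ n ih =>
    rw [pow_succ, ih, mul_assoc, ← mul_assoc (h ^ n), h1 n 1, mul_assoc, ← mul_assoc, X_mul, mul_one,
      Finset.sum_range_succ, ← pow_succ]

include hT hC in
/-- The third scheme. -/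
theorem schemeC [Finite F] {ζ : Fˣ} (hζ1 : ζ ≠ 1) {l L : List ℕ} {r s t0 t3 : ℕ} {m ms ps : ℤ}
    {units : ℤ → Bool} {ops1 ops2 ops3 : List Op} (hu : ∀ c : ℤ, units c = true → (c : F) ≠ 0)
    (hsq : ∀ x : Fˣ, x ^ 2 ∈ Subgroup.zpowers (ζ ^ m))
    (h : checkC D l L r s t0 t3 m ms ps units ops1 ops2 ops3 = true) (ha : aW hR l ∈ K)
    (hb : X hR.toAddRel r 1 * (X hR.toAddRel s 1 * hL hR.toAddRel L (ζ : F)) ∈ K) : D.group F ≤ K := by
  simp only [checkC, Bool.and_eq_true, List.all_eq_true, beq_iff_eq, List.isEmpty_iff] at h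
  obtain ⟨⟨⟨⟨⟨⟨⟨⟨⟨⟨⟨⟨⟨⟨⟨hl, hLn⟩, hr⟩, ht0⟩, ht3⟩, hrs⟩, hts⟩, hc1⟩, hc2⟩, hAr⟩, hAs⟩, hms⟩, hAt⟩, hAp⟩, hps⟩, h⟩ := h
  have hl' : ∀ i ∈ l, i < D.rank := fun i hi => Eq.mp Nat.blt_eq (hl i hi)
  have hLn' : ∀ t ∈ L, t < D.nroots := fun i hi => Eq.mp Nat.blt_eq (hLn i hi)
  have hr' : r < D.nroots := Eq.mp Nat.blt_eq hr
  have ht0' : t0 < D.nroots := Eq.mp Nat.blt_eq ht0
  have ht3' : t3 < D.nroots := Eq.mp Nat.blt_eq ht3
  obtain ⟨-, hs, hrs1, hrs2⟩ := pairOK_iff.1 hrs
  obtain ⟨-, -, hts1, hts2⟩ := pairOK_iff.1 hts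
  have hχ : ∀ u : F, hL hR.toAddRel L (ζ : F) * X hR.toAddRel s u * (hL hR.toAddRel L (ζ : F))⁻¹ =
      X hR.toAddRel s (((ζ ^ ms : Fˣ) : F) * u) := fun u => by
    rw [hL_conj_units hR hT hLn' ζ hs u, hAs]
  have hms1 : ((ζ ^ ms : Fˣ) : F) ≠ 1 := by
    intro h1
    have h2 : ζ ^ ms = 1 := Units.ext h1
    simp only [Bool.or_eq_true, beq_iff_eq] at hms
    rcases hms with rfl | rfl
    · exact hζ1 (by simpa using h2)
    · exact hζ1 (by simpa using h2)
  have hN : (X hR.toAddRel s 1 * hL hR.toAddRel L (ζ : F)) ^ (Nat.card F - 1) = 1 := by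
    rw [mul_pow_conj hχ, hL_pow_card hR hT hLn' ζ.ne_zero, mul_one]
    have h1 : (((ζ ^ ms : Fˣ) : F)) ^ (Nat.card F - 1) = 1 := by
      classical
      let _ := Fintype.ofFinite F
      rw [Nat.card_eq_fintype_card]
      exact FiniteField.pow_card_sub_one_eq_one _ (Units.ne_zero _)
    have h2 := geom_sum_mul ((ζ ^ ms : Fˣ) : F) (Nat.card F - 1)
    rw [h1, sub_self] at h2
    have h3 := (mul_eq_zero.1 h2).resolve_right (sub_ne_zero.2 hms1)
    rw [h3, X_zero]
  have hrg : Commute (X hR.toAddRel r 1) (X hR.toAddRel s 1 * hL hR.toAddRel L (ζ : F)) :=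
    (show Commute _ _ from (comm_nil hR hC hr' hs hrs1 hrs2 hc1 1 1).symm).mul_right
      (hL_commute hR hT hLn' ζ hr' hAr 1)
  obtain ⟨hone, hg⟩ := stage0 rfl hrg hN card_sub_one_ne_zero hb
  split at h
  · cases h
  · rename_i st1 h1
    simp only [Bool.and_eq_true] at h
    obtain ⟨ht0m, h⟩ := h
    split at h
    · cases h
    · rename_i st2 h2
      simp only [Bool.and_eq_true, List.all_eq_true] at h
      obtain ⟨⟨⟨hLm, ht3m⟩, ht3n⟩, h⟩ := h
      have hgc0 : ∀ u : F, (X hR.toAddRel s 1 * hL hR.toAddRel L (ζ : F)) * X hR.toAddRel t0 u *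
          (X hR.toAddRel s 1 * hL hR.toAddRel L (ζ : F))⁻¹ = X hR.toAddRel t0 (((ζ ^ m : Fˣ) : F) * u) := by
        intro u
        have h5 : Commute (X hR.toAddRel s 1) (X hR.toAddRel t0 (((ζ ^ m : Fˣ) : F) * u)) :=
          (comm_nil hR hC ht0' hs hts1 hts2 hc2 _ 1)
        rw [mul_conj_eq _ _ _ _ (hL_conj_units hR hT hLn' ζ ht0' u), hAt, h5.eq, mul_inv_cancel_right]
      have h3 := stage1 hR hT hC hl' ha hu hr' hone h1 ht0m hg hgc0 hsq h2
      have hfull : ∀ x, memB st2.2 x = true → Full hR.toAddRel K x := fun x hx => (h3.2 x (memB_iff.1 hx)).2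
      -- the torus element lies in `K`, then `x_s(1)`
      have hLK : hL hR.toAddRel L (ζ : F) ∈ K := hL_mem (fun t ht => by
        have := hLm t ht
        exact ⟨hfull _ this.1, hfull _ this.2⟩) _
      have hs1 : X hR.toAddRel s 1 ∈ K := by
        have h6 : X hR.toAddRel s 1 = (X hR.toAddRel s 1 * hL hR.toAddRel L (ζ : F)) * (hL hR.toAddRel L (ζ : F))⁻¹ := by
          group
        rw [h6]
        exact K.mul_mem hg (K.inv_mem hLK)
      -- the full root subgroup of `s`
      have hFs : Full hR.toAddRel K s := by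
        intro v
        by_cases hv : v = 0
        · subst hv
          exact X_zero_mem s
        have hLn3 : ∀ t ∈ [t3], t < D.nroots := by simpa using ht3'
        have hL3 : ∀ c : F, hL hR.toAddRel [t3] c ∈ K := fun c => hL_mem (fun t ht => by
          obtain rfl : t = t3 := by simpa using ht
          exact ⟨hfull _ ht3m, hfull _ ht3n⟩) c
        simp only [Bool.or_eq_true, beq_iff_eq] at hps
        obtain ⟨c, hc0, hc⟩ : ∃ c : F, c ≠ 0 ∧ c ^ Ad D (vL D [t3]) s = v := by
          rcases hps with h7 | h7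
          · exact ⟨v, hv, by rw [hAp, h7, zpow_one]⟩
          · exact ⟨v⁻¹, inv_ne_zero hv, by rw [hAp, h7, _root_.zpow_neg_one, inv_inv]⟩
        have h8 := hL_conj hR hT hLn3 hc0 hs 1
        rw [hc, mul_one] at h8
        rw [← h8]
        exact K.mul_mem (K.mul_mem (hL3 c) hs1) (K.inv_mem (hL3 c))
      split at h
      · cases h
      · rename_i st3 h4
        have h5 : Inv hR.toAddRel K st3 := by
          refine run_sound hR hT hC hl' ha hu (st := (st2.1, s :: st2.2)) ⟨h3.1, ?_⟩ h4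
          intro x hx
          rcases List.mem_cons.1 hx with rfl | hx
          · exact ⟨hs, hFs⟩
          · exact h3.2 x hx
        exact group_le_of_final hR hT h fun x hx => (h5.2 x hx).2

/-- In characteristic three the squares are powers of `ζ ^ (-3)`. -/
theorem sq_mem_of_three [Finite F] (h3 : (3 : F) = 0) {ζ : Fˣ} (hζ : ∀ x, x ∈ Subgroup.zpowers ζ) (x : Fˣ) :
    x ^ 2 ∈ Subgroup.zpowers (ζ ^ (-3 : ℤ)) := by
  have hinj : Function.Injective (fun y : F => y ^ 3) := by
    intro a b hab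
    have h4 : (a - b) ^ 3 = 0 := by
      have : a ^ 3 = b ^ 3 := hab
      linear_combination this + (b ^ 2 * a - b * a ^ 2) * h3
    exact sub_eq_zero.1 (pow_eq_zero_iff (by norm_num) |>.1 h4)
  obtain ⟨y, hy⟩ := (Finite.injective_iff_surjective.1 hinj) (x : F)
  have hy' : y ≠ 0 := by
    rintro rfl
    apply x.ne_zero
    rw [← hy]
    simp
  obtain ⟨n, hn⟩ := hζ (Units.mk0 y hy')
  have hx : x = (ζ ^ (-3 : ℤ)) ^ (-n) := by
    apply Units.ext
    have h6 : (ζ ^ n : Fˣ) = Units.mk0 y hy' := hn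
    rw [← hy]
    have h7 : (ζ ^ (-3 : ℤ)) ^ (-n) = (ζ ^ n) ^ 3 := by
      rw [← _root_.zpow_mul, ← zpow_natCast, ← _root_.zpow_mul]
      congr 1
      push_cast
      ring
    rw [h7, h6]
    simp
  rw [hx]
  exact Subgroup.pow_mem _ (Subgroup.zpow_mem _ (Subgroup.mem_zpowers _) _) _

/-! ### Assembly -/

include hT in
theorem hL_mem_group {L : List ℕ} (hLn : ∀ t ∈ L, t < D.nroots) (c : F) : hL hR.toAddRel L c ∈ D.group F := by
  induction L with
  | nil => simp [hL]
  | cons t L ih =>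
    have h1 : hL hR.toAddRel (t :: L) c = hG hR.toAddRel t c * hL hR.toAddRel L c := by simp [hL]
    rw [h1]
    exact Subgroup.mul_mem _ (hG_mem_group hR hT (hLn t (by simp)) c) (ih fun x hx => hLn x (by simp [hx]))

/-- Two elements generating, from the subgroups containing them. -/
theorem exists_pair_of {a0 b0 : GL D.Idx F} (ha : a0 ∈ D.group F) (hb : b0 ∈ D.group F)
    (h : ∀ K : Subgroup (GL D.Idx F), a0 ∈ K → b0 ∈ K → D.group F ≤ K) :
    ∃ a b : ↥(D.group F), Subgroup.closure ({a, b} : Set ↥(D.group F)) = ⊤ := by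
  refine ⟨⟨a0, ha⟩, ⟨b0, hb⟩, closure_eq_top (h _ ?_ ?_)⟩
  · exact ⟨⟨a0, ha⟩, Subgroup.subset_closure (by simp), rfl⟩
  · exact ⟨⟨b0, hb⟩, Subgroup.subset_closure (by simp), rfl⟩

include hR hT hC in
theorem of_A [Finite F] {ζ : Fˣ} (hζ : ∀ x, x ∈ Subgroup.zpowers ζ) {l L : List ℕ} {r t0 : ℕ} {m : ℤ}
    {units : ℤ → Bool} {ops1 ops2 : List Op} (hu : ∀ c : ℤ, units c = true → (c : F) ≠ 0)
    (h : checkA D l L r t0 m units ops1 ops2 = true) :
    ∃ a b : ↥(D.group F), Subgroup.closure ({a, b} : Set ↥(D.group F)) = ⊤ := by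
  have h0 := h
  simp only [checkA, Bool.and_eq_true, List.all_eq_true, beq_iff_eq] at h0
  obtain ⟨⟨⟨⟨⟨⟨⟨hl, hLn⟩, hr⟩, -⟩, -⟩, -⟩, -⟩, -⟩ := h0
  refine exists_pair_of (a0 := aW hR l) (b0 := X hR.toAddRel r 1 * hL hR.toAddRel L (ζ : F)) ?_ ?_
    (fun K ha hb => schemeA hR hT hC hζ hu h ha hb)
  · exact aW_mem_group hR hT fun i hi => Eq.mp Nat.blt_eq (hl i hi)
  · exact Subgroup.mul_mem _ (Cfsg.Agent.Lib.ChevOrder.Chev.X_mem_G hR hT (Eq.mp Nat.blt_eq hr) _)
      (hL_mem_group hR hT (fun i hi => Eq.mp Nat.blt_eq (hLn i hi)) _)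

include hR hT hC in
theorem of_B [Finite F] {ζ : Fˣ} (hζ : ∀ x, x ∈ Subgroup.zpowers ζ) {l L : List ℕ} {r s t0 t1 q : ℕ} {m : ℤ}
    {units : ℤ → Bool} {ops1 ops2 ops3 : List Op} (hu : ∀ c : ℤ, units c = true → (c : F) ≠ 0)
    (hc : ∀ i < D.rank, D.cartan i (D.simple i) = 2) (hη : ∀ i < D.rank, η i (D.simple i) = -1)
    (h : checkB D l L r s t0 t1 q m units ops1 ops2 ops3 = true) :
    ∃ a b : ↥(D.group F), Subgroup.closure ({a, b} : Set ↥(D.group F)) = ⊤ := by
  have h0 := h
  simp only [checkB, Bool.and_eq_true, List.all_eq_true, beq_iff_eq, List.isEmpty_iff] at h0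
  obtain ⟨⟨⟨⟨⟨⟨⟨⟨⟨⟨⟨⟨⟨⟨⟨⟨⟨⟨⟨⟨⟨⟨⟨⟨hl, hLn⟩, hr⟩, -⟩, -⟩, -⟩, hrs⟩, -⟩, -⟩, -⟩, -⟩, -⟩, hns⟩, -⟩,
    -⟩, -⟩, -⟩, -⟩, -⟩, -⟩, -⟩, -⟩, -⟩, -⟩, -⟩ := h0
  obtain ⟨-, hs, -, -⟩ := pairOK_iff.1 hrs
  obtain ⟨c, my, hy, hmy⟩ := exists_y hR hT hc hη hs
  refine exists_pair_of (a0 := aW hR l)
    (b0 := X hR.toAddRel r 1 * (yEl hR.toAddRel s c * hL hR.toAddRel L (ζ : F))) ?_ ?_
    (fun K ha hb => schemeB hR hT hC hζ hu h ha hy hmy hb)
  · exact aW_mem_group hR hT fun i hi => Eq.mp Nat.blt_eq (hl i hi)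
  · exact Subgroup.mul_mem _ (Cfsg.Agent.Lib.ChevOrder.Chev.X_mem_G hR hT (Eq.mp Nat.blt_eq hr) _)
      (Subgroup.mul_mem _ (Subgroup.mul_mem _ (Cfsg.Agent.Lib.ChevOrder.Chev.X_mem_G hR hT hs _)
        (Cfsg.Agent.Lib.ChevOrder.Chev.X_mem_G hR hT (Eq.mp Nat.blt_eq hns) _))
        (hL_mem_group hR hT (fun i hi => Eq.mp Nat.blt_eq (hLn i hi)) _))

include hR hT hC in
theorem of_C [Finite F] {ζ : Fˣ} (hζ1 : ζ ≠ 1) {l L : List ℕ} {r s t0 t3 : ℕ} {m ms ps : ℤ}
    {units : ℤ → Bool} {ops1 ops2 ops3 : List Op} (hu : ∀ c : ℤ, units c = true → (c : F) ≠ 0)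
    (hsq : ∀ x : Fˣ, x ^ 2 ∈ Subgroup.zpowers (ζ ^ m))
    (h : checkC D l L r s t0 t3 m ms ps units ops1 ops2 ops3 = true) :
    ∃ a b : ↥(D.group F), Subgroup.closure ({a, b} : Set ↥(D.group F)) = ⊤ := by
  have h0 := h
  simp only [checkC, Bool.and_eq_true, List.all_eq_true, beq_iff_eq, List.isEmpty_iff] at h0
  obtain ⟨⟨⟨⟨⟨⟨⟨⟨⟨⟨⟨⟨⟨⟨⟨hl, hLn⟩, hr⟩, -⟩, -⟩, hrs⟩, -⟩, -⟩, -⟩, -⟩, -⟩, -⟩, -⟩, -⟩, -⟩, -⟩ := h0
  obtain ⟨-, hs, -, -⟩ := pairOK_iff.1 hrs
  refine exists_pair_of (a0 := aW hR l)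
    (b0 := X hR.toAddRel r 1 * (X hR.toAddRel s 1 * hL hR.toAddRel L (ζ : F))) ?_ ?_
    (fun K ha hb => schemeC hR hT hC hζ1 hu hsq h ha hb)
  · exact aW_mem_group hR hT fun i hi => Eq.mp Nat.blt_eq (hl i hi)
  · exact Subgroup.mul_mem _ (Cfsg.Agent.Lib.ChevOrder.Chev.X_mem_G hR hT (Eq.mp Nat.blt_eq hr) _)
      (Subgroup.mul_mem _ (Cfsg.Agent.Lib.ChevOrder.Chev.X_mem_G hR hT hs _)
        (hL_mem_group hR hT (fun i hi => Eq.mp Nat.blt_eq (hLn i hi)) _))

end Main

end Cfsg.Agent.Lib.ChevAut.TwoGen
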