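import Cfsg.Agent.Lib.ChevAut.SmithData
import Cfsg.Agent.Lib.ChevAut.DiagClass
import Cfsg.Agent.Lib.ChevAut.FieldCard
import Cfsg.Agent.Lib.Chevalley.Graph.Class
import Cfsg.Agent.Lib.Chevalley.Graph.E6
import Cfsg.Agent.S1098
import Cfsg.Agent.S1099

/-!
# The symmetries realised by graph automorphisms, by type
-/

set_option autoImplicit false
set_option linter.unusedSectionVars false
set_option maxRecDepth 100000
set_option synthInstance.maxSize 100000
set_option synthInstance.maxHeartbeats 0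

namespace Cfsg.Agent.Lib.ChevAut.Count

open Cfsg.Lie Matrix
open Cfsg.Agent.Lib.ChevAut
open Cfsg.Agent.Lib.ChevBN.Elem Cfsg.Agent.Lib.ChevBN.Rel Cfsg.Agent.Lib.ChevBN.Table Cfsg.Agent.Lib.ChevBN.FastData

noncomputable section

section General

variable {D : ChevalleyDatum} {F : Type*} [Field F] {η : ℕ → ℕ → ℤ}

theorem one_mem_graphSet (hA : AddRel D F) : (1 : Equiv.Perm (Fin D.rank)) ∈ GraphSet hA := by
  have he : ∀ i : Fin D.rank, gExp D F 1 i = 1 := by
    intro i
    simp [gExp, ChevalleyDatum.graphExp]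
  refine ⟨MulEquiv.refl _, fun i j _ => rfl, fun i t => ?_, fun i t => ?_⟩
  · rw [he, pow_one]
    rfl
  · rw [he, pow_one]
    rfl

theorem symm_of_mem {hA : AddRel D F} {π : Equiv.Perm (Fin D.rank)} (h : π ∈ GraphSet hA) : D.IsDiagramSymmetry π := by
  obtain ⟨g, hg⟩ := h
  exact hg.symm

theorem card_graphSet_one {hA : AddRel D F} (h : ∀ π ∈ GraphSet hA, π = 1) : Nat.card (GraphSet hA) = 1 := by
  have hs : GraphSet hA = {1} := by
    ext π
    exact ⟨fun hm => h π hm, fun hm => by rw [hm]; exact one_mem_graphSet hA⟩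
  rw [hs]
  simp

theorem card_graphSet_two {hA : AddRel D F} {τ : Equiv.Perm (Fin D.rank)} (hτ : τ ≠ 1) (hm : τ ∈ GraphSet hA)
    (h : ∀ π ∈ GraphSet hA, π = 1 ∨ π = τ) : Nat.card (GraphSet hA) = 2 := by
  have hs : GraphSet hA = {1, τ} := by
    ext π
    constructor
    · intro hp
      exact h π hp
    · rintro (rfl | rfl)
      · exact one_mem_graphSet hA
      · exact hm
  rw [hs, Nat.card_coe_set_eq, Set.ncard_pair hτ.symm]

/-- The Frobenius as a ring automorphism of a finite field. -/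
theorem exists_frob [Finite F] : ∃ φ : F ≃+* F, ∀ t, φ t = t ^ ringChar F := by
  obtain ⟨p, hp⟩ := CharP.exists F
  have hrc : ringChar F = p := ringChar.eq F p
  have hpp : p.Prime := by
    rcases CharP.char_is_prime_or_zero F p with h2 | h2
    · exact h2
    · subst h2
      have := CharP.charP_to_charZero F
      exact absurd ‹Finite F› (not_finite_iff_infinite.mpr inferInstance)
  have : Fact p.Prime := ⟨hpp⟩
  refine ⟨RingEquiv.ofBijective (frobenius F p) (Finite.injective_iff_bijective.mp (frobenius_inj F p)), fun t => ?_⟩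
  rw [hrc]
  rfl

/-- A graph automorphism is in normal form. -/
theorem isNorm_of_graph [Finite F] (hR : Sys D F η) {π : Equiv.Perm (Fin D.rank)} {g : ↥(D.group F) ≃* ↥(D.group F)}
    (hg : IsGraphOf hR.toAddRel π g) : ∃ σ, IsNorm hR g π σ := by
  obtain ⟨φ, hφ⟩ := exists_frob (F := F)
  have key : ∀ i : Fin D.rank, ∃ σ : F ≃+* F, ∀ t, σ t = t ^ gExp D F π i := by
    intro i
    simp only [gExp, ChevalleyDatum.graphExp]
    split_ifs
    · exact ⟨φ, hφ⟩
    · exact ⟨RingEquiv.refl F, fun t => by simp⟩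
  choose σ hσ using key
  refine ⟨σ, fun i t => ?_, fun i t => ?_⟩
  · rw [hσ, hg.pos]
  · rw [hσ, hg.neg]

end General

/-! ### Types `E₈`, `E₇`, `E₆` -/

section E

variable {F : Type*} [Field F]

theorem graphSet_E8 (hA : AddRel chevE8 F) : Nat.card (GraphSet hA) = 1 :=
  card_graphSet_one fun π h => class_E8 π (symm_of_mem h)

theorem graphSet_E7 (hA : AddRel chevE7 F) : Nat.card (GraphSet hA) = 1 :=
  card_graphSet_one fun π h => class_E7 π (symm_of_mem h)

/-- The nontrivial symmetry of `E₆`. -/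
def tauE6 : Equiv.Perm (Fin chevE6.rank) :=
  Equiv.swap ⟨0, by decide⟩ ⟨5, by decide⟩ * Equiv.swap ⟨2, by decide⟩ ⟨4, by decide⟩

theorem tauE6_val : ∀ i : Fin chevE6.rank, ((tauE6 i : Fin chevE6.rank) : ℕ) = [5, 1, 4, 3, 2, 0].getD i.val 0 := by
  decide +kernel

theorem tauE6_symm : chevE6.IsDiagramSymmetry tauE6 := by
  show ∀ i j : Fin chevE6.rank, i ≠ j → chevE6.bonds (tauE6 i) (tauE6 j) = chevE6.bonds i j
  decide +kernel

theorem tauE6_ne : tauE6 ≠ 1 := fun h =>
  absurd (congrArg Fin.val (Equiv.ext_iff.1 h ⟨0, by decide⟩)) (by decide +kernel)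

theorem gExp_E6 (π : Equiv.Perm (Fin chevE6.rank)) (i : Fin chevE6.rank) : gExp chevE6 F π i = 1 := by
  rw [gExp, ChevalleyDatum.graphExp, of_longCk longCk_E6 (π i)]
  simp

theorem tauE6_mem (hA : AddRel chevE6 F) : tauE6 ∈ GraphSet hA := by
  obtain ⟨α, hα⟩ := Cfsg.Agent.Lib.Chevalley.Tbl.E6.P1.aut hA
  refine ⟨α, tauE6_symm, fun i t => ?_, fun i t => ?_⟩
  · rw [gExp_E6, pow_one]
    apply (eq_XG hA).1
    rw [tauE6_val i]
    exact (hα _ i t i.2).1 rfl
  · rw [gExp_E6, pow_one]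
    apply (eq_XG hA).1
    rw [tauE6_val i]
    exact (hα _ i t i.2).2 rfl

theorem graphSet_E6 (hA : AddRel chevE6 F) : Nat.card (GraphSet hA) = 2 := by
  apply card_graphSet_two (τ := tauE6) tauE6_ne (tauE6_mem hA)
  intro π h
  obtain ⟨l, hl, hπ⟩ := Cfsg.Agent.Lib.Chevalley.Graph.class_E6 π (symm_of_mem h)
  have hπ' : ∀ i : Fin chevE6.rank, ((π i : Fin chevE6.rank) : ℕ) = l.getD i.val 0 := hπ
  rcases hl with rfl | rfl
  · left
    apply Equiv.ext
    intro i
    apply Fin.ext
    rw [hπ' i]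
    revert i
    decide +kernel
  · right
    apply Equiv.ext
    intro i
    apply Fin.ext
    rw [hπ' i, tauE6_val i]

end E

/-! ### Types `F₄` and `G₂` -/

section FG

variable {F : Type*} [Field F] {η : ℕ → ℕ → ℤ}

/-- The reversal of the diagram `F₄`. -/
def revF4 : Equiv.Perm (Fin chevF4.rank) :=
  Equiv.swap ⟨0, by decide⟩ ⟨3, by decide⟩ * Equiv.swap ⟨1, by decide⟩ ⟨2, by decide⟩

theorem revF4_val : ∀ i : Fin chevF4.rank, ((revF4 i : Fin chevF4.rank) : ℕ) = ([(3, 2), (2, 2), (1, 1), (0, 1)].getD i.val (0, 1)).1 := by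
  decide +kernel

theorem revF4_symm : chevF4.IsDiagramSymmetry revF4 := by
  show ∀ i j : Fin chevF4.rank, i ≠ j → chevF4.bonds (revF4 i) (revF4 j) = chevF4.bonds i j
  decide +kernel

theorem revF4_ne : revF4 ≠ 1 := fun h =>
  absurd (congrArg Fin.val (Equiv.ext_iff.1 h ⟨0, by decide⟩)) (by decide +kernel)

theorem revF4_exp (hc : ringChar F = 2) (i : Fin chevF4.rank) :
    gExp chevF4 F revF4 i = ([(3, 2), (2, 2), (1, 1), (0, 1)].getD i.val (0, 1)).2 := by
  rw [gExp, hc]
  revert i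
  decide +kernel

theorem revF4_mem [Finite F] [CharP F 2] (hA : AddRel chevF4 F) : revF4 ∈ GraphSet hA := by
  have hperf : ∀ x : F, ∃ y : F, y ^ 2 = x := by
    intro x
    obtain ⟨y, hy⟩ := FiniteField.isSquare_of_char_two (ringChar.eq F 2) x
    exact ⟨y, by rw [hy, pow_two]⟩
  have hc : ringChar F = 2 := ringChar.eq F 2
  obtain ⟨α, hα⟩ := Cfsg.Agent.S1098.result hperf (chevF4, [(3, 2), (2, 2), (1, 1), (0, 1)]) (by simp)
  refine ⟨α, revF4_symm, fun i t => ?_, fun i t => ?_⟩
  · apply (eq_XG hA).1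
    rw [revF4_val i, revF4_exp hc i]
    exact (hα _ i t i.2).1 rfl
  · apply (eq_XG hA).1
    rw [revF4_val i, revF4_exp hc i]
    exact (hα _ i t i.2).2 rfl

theorem tuples_F4_bonds : ∀ a b c d : Fin chevF4.rank, a ≠ b → a ≠ c → a ≠ d → b ≠ c → b ≠ d → c ≠ d →
    chevF4.bonds a b = chevF4.bonds 0 1 → chevF4.bonds a c = chevF4.bonds 0 2 → chevF4.bonds a d = chevF4.bonds 0 3 →
    chevF4.bonds b c = chevF4.bonds 1 2 → chevF4.bonds b d = chevF4.bonds 1 3 → chevF4.bonds c d = chevF4.bonds 2 3 →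
    (a.val = 0 ∧ b.val = 1 ∧ c.val = 2 ∧ d.val = 3) ∨ (a.val = 3 ∧ b.val = 2 ∧ c.val = 1 ∧ d.val = 0) := by
  decide +kernel

/-- A symmetry of `F₄` is trivial or the reversal. -/
theorem class_F4 {π : Equiv.Perm (Fin chevF4.rank)} (hπ : chevF4.IsDiagramSymmetry π) : π = 1 ∨ π = revF4 := by
  let i0 : Fin chevF4.rank := ⟨0, by decide⟩
  let i1 : Fin chevF4.rank := ⟨1, by decide⟩
  let i2 : Fin chevF4.rank := ⟨2, by decide⟩
  let i3 : Fin chevF4.rank := ⟨3, by decide⟩
  have hne : ∀ i j : Fin chevF4.rank, i ≠ j → π i ≠ π j := fun i j h h2 => h (π.injective h2)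
  have h := tuples_F4_bonds (π i0) (π i1) (π i2) (π i3) (hne _ _ (by decide +kernel)) (hne _ _ (by decide +kernel))
    (hne _ _ (by decide +kernel)) (hne _ _ (by decide +kernel)) (hne _ _ (by decide +kernel)) (hne _ _ (by decide +kernel))
    (hπ _ _ (by decide +kernel)) (hπ _ _ (by decide +kernel)) (hπ _ _ (by decide +kernel)) (hπ _ _ (by decide +kernel))
    (hπ _ _ (by decide +kernel)) (hπ _ _ (by decide +kernel))
  have hall : ∀ {P : Fin chevF4.rank → Prop}, P i0 → P i1 → P i2 → P i3 → ∀ i, P i := by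
    intro P h0 h1 h2 h3 i
    have : ∀ P : Fin 4 → Prop, P 0 → P 1 → P 2 → P 3 → ∀ i, P i := fun P h0 h1 h2 h3 i => fin4_all h0 h1 h2 h3 i
    exact this P h0 h1 h2 h3 i
  rcases h with ⟨e0, e1, e2, e3⟩ | ⟨e0, e1, e2, e3⟩
  · left
    apply Equiv.ext
    apply hall
    · exact Fin.ext e0
    · exact Fin.ext e1
    · exact Fin.ext e2
    · exact Fin.ext e3
  · right
    apply Equiv.ext
    apply hall
    · exact Fin.ext (e0.trans (by decide +kernel))
    · exact Fin.ext (e1.trans (by decide +kernel))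
    · exact Fin.ext (e2.trans (by decide +kernel))
    · exact Fin.ext (e3.trans (by decide +kernel))

/-- The reversal of `F₄` exists only in characteristic two. -/
theorem two_eq_zero_of_revF4 [Finite F] (hR : Sys chevF4 F η) (hm : revF4 ∈ GraphSet hR.toAddRel) : (2 : F) = 0 := by
  obtain ⟨g, hg⟩ := hm
  obtain ⟨σ, hN⟩ := isNorm_of_graph hR hg
  let i1 : Fin chevF4.rank := ⟨1, by decide⟩
  let i2 : Fin chevF4.rank := ⟨2, by decide⟩
  have h1 : ∀ t, σ i1 t = (σ i2 t) ^ 2 := by
    apply ringEquiv_pow_of (m := 2) (by decide)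
    intro s hs
    have := hN.star hR tbl_chevF4 i1 i2 hs
    have e1 : chevF4.cartan (revF4 i1) (chevF4.simple (revF4 i2)) = -1 := by decide +kernel
    have e2 : chevF4.cartan i1 (chevF4.simple i2) = -((2 : ℕ) : ℤ) := by decide +kernel
    rwa [e1, e2] at this
  have h2 := h1 (1 + 1)
  simp only [map_add, map_one] at h2
  linear_combination (-1 : F) * h2

theorem graphSet_F4 [Fintype F] (p : ℕ) [Fact p.Prime] [CharP F p] (hR : Sys chevF4 F η) :
    Nat.card (GraphSet hR.toAddRel) = Nat.gcd 2 p := by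
  by_cases hp : p = 2
  · subst hp
    rw [show Nat.gcd 2 2 = 2 from rfl]
    apply card_graphSet_two revF4_ne (revF4_mem _)
    intro π h
    exact class_F4 (symm_of_mem h)
  · have h2 : Nat.gcd 2 p = 1 := by
      have := (Nat.coprime_primes Nat.prime_two (Fact.out : p.Prime)).2 (Ne.symm hp)
      exact this
    rw [h2]
    apply card_graphSet_one
    intro π h
    rcases class_F4 (symm_of_mem h) with rfl | rfl
    · rfl
    · exfalso
      have h3 := two_eq_zero_of_revF4 hR h
      have h4 : ((2 : ℕ) : F) = 0 := by exact_mod_cast h3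
      have h5 := CharP.ringChar_of_prime_eq_zero Nat.prime_two h4
      rw [ringChar.eq F p] at h5
      exact hp h5

/-- The swap of the diagram `G₂`. -/
def swapG2 : Equiv.Perm (Fin chevG2.rank) := Equiv.swap ⟨0, by decide⟩ ⟨1, by decide⟩

theorem swapG2_ne : swapG2 ≠ 1 := fun h =>
  absurd (congrArg Fin.val (Equiv.ext_iff.1 h ⟨0, by decide⟩)) (by decide +kernel)

theorem swapG2_symm : chevG2.IsDiagramSymmetry swapG2 := by
  show ∀ i j : Fin chevG2.rank, i ≠ j → chevG2.bonds (swapG2 i) (swapG2 j) = chevG2.bonds i j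
  decide +kernel

theorem class_G2 (π : Equiv.Perm (Fin chevG2.rank)) : π = 1 ∨ π = swapG2 := by
  have : ∀ π : Equiv.Perm (Fin 2), π = 1 ∨ π = Equiv.swap 0 1 := by decide
  exact this π

theorem swapG2_mem [Finite F] [CharP F 3] (hA : AddRel chevG2 F) : swapG2 ∈ GraphSet hA := by
  have hperf : ∀ x : F, ∃ y : F, y ^ 3 = x := by
    have : Fact (Nat.Prime 3) := ⟨Nat.prime_three⟩
    have hb : Function.Surjective (frobenius F 3) := Finite.surjective_of_injective (frobenius_inj F 3)
    intro x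
    obtain ⟨y, hy⟩ := hb x
    exact ⟨y, hy⟩
  have hc : ringChar F = 3 := ringChar.eq F 3
  obtain ⟨α, hα⟩ := Cfsg.Agent.S1099.result hperf
  have e0 : gExp chevG2 F swapG2 ⟨0, by decide⟩ = 3 := by
    rw [gExp, hc]
    decide +kernel
  have e1 : gExp chevG2 F swapG2 ⟨1, by decide⟩ = 1 := by
    rw [gExp, hc]
    decide +kernel
  have hall : ∀ {P : Fin chevG2.rank → Prop}, P ⟨0, by decide⟩ → P ⟨1, by decide⟩ → ∀ i, P i := by
    intro P h0 h1 i
    have : ∀ P : Fin 2 → Prop, P 0 → P 1 → ∀ i, P i := fun P h0 h1 i => by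
      fin_cases i <;> assumption
    exact this P h0 h1 i
  refine ⟨α, swapG2_symm, ?_, ?_⟩
  · apply hall
    · intro t
      rw [e0]
      exact (eq_XG hA).1 ((hα _ t).1 rfl)
    · intro t
      rw [e1, pow_one]
      exact (eq_XG hA).1 ((hα _ t).2.1 rfl)
  · apply hall
    · intro t
      rw [e0]
      exact (eq_XG hA).1 ((hα _ t).2.2.1 rfl)
    · intro t
      rw [e1, pow_one]
      exact (eq_XG hA).1 ((hα _ t).2.2.2 rfl)

/-- The swap of `G₂` exists only in characteristic three or over `F₂`. -/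
theorem three_eq_zero_of_swapG2 [Finite F] (hR : Sys chevG2 F η) (hm : swapG2 ∈ GraphSet hR.toAddRel) :
    (3 : F) = 0 ∨ ∀ v : F, v = 0 ∨ v = -1 := by
  obtain ⟨g, hg⟩ := hm
  obtain ⟨σ, hN⟩ := isNorm_of_graph hR hg
  let i0 : Fin chevG2.rank := ⟨0, by decide⟩
  let i1 : Fin chevG2.rank := ⟨1, by decide⟩
  have h1 : ∀ t, σ i0 t = (σ i1 t) ^ 3 := by
    apply ringEquiv_pow_of (m := 3) (by decide)
    intro s hs
    have := hN.star hR tbl_chevG2 i0 i1 hs
    have e1 : chevG2.cartan (swapG2 i0) (chevG2.simple (swapG2 i1)) = -1 := by decide +kernel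
    have e2 : chevG2.cartan i0 (chevG2.simple i1) = -((3 : ℕ) : ℤ) := by decide +kernel
    rwa [e1, e2] at this
  have h2 : ∀ v : F, (v + 1) ^ 3 = v ^ 3 + 1 := by
    intro v
    have h3 := h1 ((σ i1).symm v + 1)
    simp only [map_add, map_one, RingEquiv.apply_symm_apply] at h3
    have h4 := h1 ((σ i1).symm v)
    rw [RingEquiv.apply_symm_apply] at h4
    rw [h4] at h3
    exact h3.symm
  by_cases h3 : (3 : F) = 0
  · exact Or.inl h3
  · right
    intro v
    have h4 : 3 * (v * (v + 1)) = 0 := by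
      have := h2 v
      linear_combination this
    have h5 := (mul_eq_zero.mp h4).resolve_left h3
    rcases mul_eq_zero.mp h5 with h | h
    · exact Or.inl h
    · exact Or.inr (eq_neg_of_add_eq_zero_left h)

theorem graphSet_G2 [Fintype F] (p : ℕ) [Fact p.Prime] [CharP F p] (hq : 3 ≤ Fintype.card F) (hR : Sys chevG2 F η) :
    Nat.card (GraphSet hR.toAddRel) = if p = 3 then 2 else 1 := by
  by_cases hp : p = 3
  · subst hp
    rw [if_pos rfl]
    apply card_graphSet_two swapG2_ne (swapG2_mem _)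
    intro π _
    exact class_G2 π
  · rw [if_neg hp]
    apply card_graphSet_one
    intro π h
    rcases class_G2 π with rfl | rfl
    · rfl
    · exfalso
      rcases three_eq_zero_of_swapG2 hR h with h3 | h3
      · have h4 : ((3 : ℕ) : F) = 0 := by exact_mod_cast h3
        have h5 := CharP.ringChar_of_prime_eq_zero Nat.prime_three h4
        rw [ringChar.eq F p] at h5
        exact hp h5
      · classical
        have h5 : (Finset.univ : Finset F) ⊆ {0, -1} := by
          intro v _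
          rcases h3 v with h | h <;> simp [h]
        have h6 := Finset.card_le_card h5
        have h7 : ({0, -1} : Finset F).card ≤ 2 := Finset.card_le_two
        rw [Finset.card_univ] at h6
        omega

end FG

end

end Cfsg.Agent.Lib.ChevAut.Count
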